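import Mathlib
import Cfsg.Prelude.Def_Classical
import Cfsg.Prelude.Def_ClassicalGeometry
import Cfsg.Agent.Lib.Helper44.TSTrans
import Cfsg.Agent.Lib.Helper44.MaxTS3

set_option autoImplicit false

namespace Cfsg.Agent.Lib.Helper44.TSTrans2

open Module QuadraticMap Matrix
open Cfsg.Agent.Lib.Helper44.QSpace Cfsg.Agent.Lib.Helper44.OGroup Cfsg.Agent.Lib.Helper44.Spinor
open Cfsg.Agent.Lib.Helper44.CartanD Cfsg.Agent.Lib.Helper44.OMat Cfsg.Agent.Lib.Helper44.CD2a
open Cfsg.Agent.Lib.Helper44.Omega2 Cfsg.Agent.Lib.Helper44.OMat2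
open Cfsg.Agent.Lib.Helper44.MaxTS Cfsg.Agent.Lib.Helper44.MaxTS2 Cfsg.Agent.Lib.Helper44.MaxTS3
open Cfsg.Agent.Lib.Helper44.TSTrans

variable {F : Type*} [Field F] {ι : Type} [Fintype ι] [DecidableEq ι]

/-- From a product of reflections to a matrix isometry. -/
theorem map_symm_prod (Q : QuadraticForm F (ι → F)) (vs : List (ι → F))
    (U : Submodule F (ι → F)) :
    U.map (Matrix.mulVecLin ((((isoEquiv Q).symm ((vs.map (refl Q)).prod) :
      ↥(Cfsg.isometryGroup F ⇑Q)) : GL ι F) : Matrix ι ι F))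
      = U.map (((vs.map (reflE Q)).prod : (ι → F) ≃ₗ[F] (ι → F)) : (ι → F) →ₗ[F] (ι → F)) := by
  rw [mulVecLin_eq, MulEquiv.apply_symm_apply, coe_prod_refl]

/-- If an even product of reflections carries `U` to the non-zero totally singular subspace `W`,
then so does an element of `Ω`. -/
theorem exists_omega_map [Fintype F] {Q : QuadraticForm F (ι → F)} (hS : Sep Q)
    (hcard : Fintype.card F ≠ 2 ∨ Fintype.card ι ≠ 4) (hd : 2 ≤ Fintype.card ι)
    {U W : Submodule F (ι → F)} (hW : ∀ w ∈ W, Q w = 0) (hW0 : W ≠ ⊥) (vs : List (ι → F))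
    (hvs : ∀ v ∈ vs, Q v ≠ 0) (he : Even vs.length)
    (hmap : U.map (((vs.map (reflE Q)).prod : (ι → F) ≃ₗ[F] (ι → F)) : (ι → F) →ₗ[F] (ι → F))
      = W) :
    ∃ g : ↥(Cfsg.isometryGroup F ⇑Q), g ∈ Cfsg.Omega F ⇑Q ∧
      U.map (Matrix.mulVecLin ((g : GL ι F) : Matrix ι ι F)) = W := by
  by_cases h2 : (2 : F) = 0
  · have : CharP F 2 := CharTwo.of_one_ne_zero_of_two_eq_zero one_ne_zero h2
    have hG := good_of_card' hS hcard
    refine ⟨(isoEquiv Q).symm ((vs.map (refl Q)).prod), ?_, ?_⟩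
    · rw [mem_omega_iff, MulEquiv.apply_symm_apply]
      exact even_prod_mem_commutator hS hG vs hvs he
    · rw [map_symm_prod]
      exact hmap
  · have ha : (vs.map (fun v => Q v)).prod ≠ 0 := by
      apply List.prod_ne_zero
      intro h0
      obtain ⟨v, hv, hv0⟩ := List.mem_map.mp h0
      exact hvs v hv hv0
    obtain ⟨v₁, v₂, hv₁, hv₂, hprod, hst⟩ := exists_refl_pair hS hW hW0 ha
    have hvs' : ∀ v ∈ v₁ :: v₂ :: vs, Q v ≠ 0 := by
      intro v hv
      simp only [List.mem_cons] at hv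
      rcases hv with h | h | h
      · rw [h]; exact hv₁
      · rw [h]; exact hv₂
      · exact hvs v h
    refine ⟨(isoEquiv Q).symm (((v₁ :: v₂ :: vs).map (refl Q)).prod), ?_, ?_⟩
    · rw [mem_omega_iff, MulEquiv.apply_symm_apply,
        mem_commutator_iff h2 hS (by rw [Module.finrank_fintype_fun_eq_card]; exact hd) _ hvs']
      refine ⟨?_, ?_⟩
      · rw [List.length_cons, List.length_cons]
        obtain ⟨k, hk⟩ := he
        exact ⟨k + 1, by omega⟩
      · rw [List.map_cons, List.map_cons, List.prod_cons, List.prod_cons, ← mul_assoc, hprod]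
        exact ⟨_, rfl⟩
    · rw [map_symm_prod, List.map_cons, List.map_cons, List.prod_cons, List.prod_cons,
        ← mul_assoc, map_mul_eq, hmap]
      exact hst

end Cfsg.Agent.Lib.Helper44.TSTrans2
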