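import Mathlib
import Cfsg.Prelude.Def_Classical
import Cfsg.Prelude.Def_ClassicalGeometry
import Cfsg.Agent.Lib.Helper44.WittND
import Cfsg.Agent.Lib.Helper44.TSTrans2
import Cfsg.Agent.Lib.Helper44.QClass

set_option autoImplicit false

namespace Cfsg.Agent.Lib.Helper44.WittND2

open Module QuadraticMap Matrix
open Cfsg.Agent.Lib.Helper44.QSpace Cfsg.Agent.Lib.Helper44.OGroup Cfsg.Agent.Lib.Helper44.Spinor
open Cfsg.Agent.Lib.Helper44.CartanD Cfsg.Agent.Lib.Helper44.OMat Cfsg.Agent.Lib.Helper44.CD2a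
open Cfsg.Agent.Lib.Helper44.Omega2 Cfsg.Agent.Lib.Helper44.OMat2
open Cfsg.Agent.Lib.Helper44.MaxTS3
open Cfsg.Agent.Lib.Helper44.TSTrans Cfsg.Agent.Lib.Helper44.TSTrans2
open Cfsg.Agent.Lib.Helper44.WittND Cfsg.Agent.Lib.Helper44.QClass

universe u

section abstract

variable {F : Type*} [Field F] {V : Type u} [AddCommGroup V] [Module F V]
variable {Q : QuadraticForm F V}

/-- The reflection in `v` stabilises `W` when `v ∈ W` or `v ⟂ W`. -/
def StabV (Q : QuadraticForm F V) (W : Submodule F V) (v : V) : Prop :=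
  v ∈ W ∨ ∀ w ∈ W, polar Q w v = 0

variable [FiniteDimensional F V]

theorem map_refl_of_stabV {W : Submodule F V} {v : V} (h : StabV Q W v) :
    W.map ((reflE Q v : V ≃ₗ[F] V) : V →ₗ[F] V) = W := by
  apply Submodule.eq_of_le_of_finrank_le
  · rintro _ ⟨x, hx, rfl⟩
    show reflE Q v x ∈ W
    rcases h with h | h
    · rw [reflE_apply]
      exact W.sub_mem hx (W.smul_mem _ h)
    · rw [reflE_of_orth (h x hx)]
      exact hx
  · rw [LinearEquiv.finrank_map_eq]

omit [FiniteDimensional F V] in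
theorem ndsub_of_inf {W : Submodule F V}
    (hW : W ⊓ LinearMap.BilinForm.orthogonal (polarBilin Q) W = ⊥) : NDsub Q W := by
  intro x hx hxy
  have : x ∈ W ⊓ LinearMap.BilinForm.orthogonal (polarBilin Q) W := by
    refine ⟨hx, ?_⟩
    intro y hy
    show polarBilin Q y x = 0
    rw [pB_symm]
    exact hxy y hy
  rw [hW] at this
  exact (Submodule.mem_bot F).mp this

theorem ndsub_orth (hS : Sep Q) {W : Submodule F V}
    (hW : W ⊓ LinearMap.BilinForm.orthogonal (polarBilin Q) W = ⊥) :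
    NDsub Q (LinearMap.BilinForm.orthogonal (polarBilin Q) W) := by
  intro x hx hxy
  have h1 : x ∈ LinearMap.BilinForm.orthogonal (polarBilin Q)
      (LinearMap.BilinForm.orthogonal (polarBilin Q) W) := by
    intro y hy
    show polarBilin Q y x = 0
    rw [pB_symm]
    exact hxy y hy
  rw [LinearMap.BilinForm.orthogonal_orthogonal (nondegenerate_of_sep hS) (isRefl_pB Q)] at h1
  have : x ∈ W ⊓ LinearMap.BilinForm.orthogonal (polarBilin Q) W := ⟨h1, hx⟩
  rw [hW] at this
  exact (Submodule.mem_bot F).mp this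

omit [FiniteDimensional F V] in
theorem sep_res_of_ndsub {W : Submodule F V} (h : NDsub Q W) : Sep (res Q W) := by
  intro x hx
  apply Subtype.ext
  exact h (x : V) x.2 (fun y hy => hx ⟨y, hy⟩)

omit [FiniteDimensional F V] in
/-- A non-singular vector whose reflection stabilises the non-degenerate subspace `W`. -/
theorem exists_stabV (hS : Sep Q) [Nontrivial V] {W : Submodule F V}
    (hW : W ⊓ LinearMap.BilinForm.orthogonal (polarBilin Q) W = ⊥) :
    ∃ v, Q v ≠ 0 ∧ StabV Q W v := by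
  by_cases hW0 : W = ⊥
  · obtain ⟨v, hv⟩ := exists_ne_zero hS
    refine ⟨v, hv, Or.inr ?_⟩
    intro w hw
    rw [hW0, Submodule.mem_bot] at hw
    rw [hw]
    simp
  · obtain ⟨v, hvW, hv⟩ := exists_nonsing (ndsub_of_inf hW) hW0
    exact ⟨v, hv, Or.inl hvW⟩

/-- Over a finite field, in dimension at least three, the reflections stabilising a
non-degenerate subspace realise every value of `Q`. -/
theorem exists_stabV_eq [Finite F] (hS : Sep Q) (hn : 3 ≤ finrank F V) {W : Submodule F V}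
    (hW : W ⊓ LinearMap.BilinForm.orthogonal (polarBilin Q) W = ⊥) (c : F) :
    ∃ v, Q v = c ∧ StabV Q W v := by
  have hfr := LinearMap.BilinForm.finrank_orthogonal (nondegenerate_of_sep hS) W
  by_cases h2 : 2 ≤ finrank F W
  · obtain ⟨x, hx⟩ := exists_q_eq (sep_res_of_ndsub (ndsub_of_inf hW)) h2 c
    exact ⟨(x : V), hx, Or.inl x.2⟩
  · have h2' : 2 ≤ finrank F ↥(LinearMap.BilinForm.orthogonal (polarBilin Q) W) := by
      have := Submodule.finrank_le W
      omega
    obtain ⟨x, hx⟩ := exists_q_eq (sep_res_of_ndsub (ndsub_orth hS hW)) h2' c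
    refine ⟨(x : V), hx, Or.inr ?_⟩
    intro w hw
    exact x.2 w hw

/-- Witt's extension theorem for non-degenerate subspaces: an isometry between them is induced
by an element of the orthogonal group (any characteristic). -/
theorem exists_O_map (hS : Sep Q) {U W : Submodule F V}
    (hU : U ⊓ LinearMap.BilinForm.orthogonal (polarBilin Q) U = ⊥) (e : U ≃ₗ[F] W)
    (he : ∀ u : U, Q (e u : V) = Q (u : V)) :
    ∃ g ∈ O Q, U.map (g : V →ₗ[F] V) = W := by
  obtain ⟨f, hf⟩ := LinearMap.exists_extend (W.subtype.comp e.toLinearMap)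
  have hfe : ∀ u : U, f (u : V) = (e u : V) := by
    intro u
    have := congrArg (fun φ : U →ₗ[F] V => φ u) hf
    exact this
  have hfQ : ∀ u ∈ U, Q (f u) = Q u := by
    intro u hu
    rw [hfe ⟨u, hu⟩]
    exact he ⟨u, hu⟩
  obtain ⟨g, hg, hgf⟩ : ∃ g ∈ O Q, ∀ u ∈ U, g u = f u := by
    by_cases h2 : (2 : F) = 0
    · have : CharP F 2 := CharTwo.of_one_ne_zero_of_two_eq_zero one_ne_zero h2
      exact witt_two hS _ U f rfl (ndsub_of_inf hU) hfQ
    · exact witt_odd h2 _ U f rfl (ndsub_of_inf hU) hfQ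
  refine ⟨g, hg, ?_⟩
  apply Submodule.eq_of_le_of_finrank_le
  · rintro _ ⟨x, hx, rfl⟩
    show g x ∈ W
    rw [hgf x hx, hfe ⟨x, hx⟩]
    exact (e ⟨x, hx⟩).2
  · rw [LinearEquiv.finrank_map_eq, LinearEquiv.finrank_eq e]

end abstract

variable {F : Type*} [Field F] {ι : Type} [Fintype ι] [DecidableEq ι]

/-- **Ω is transitive on non-degenerate subspaces of each isometry type** (matrix form). -/
theorem exists_omega_map_nd [Fintype F] {Q : QuadraticForm F (ι → F)} (hS : Sep Q)
    (hcard : Fintype.card F ≠ 2 ∨ Fintype.card ι ≠ 4) (hn : 3 ≤ Fintype.card ι)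
    {U W : Submodule F (ι → F)}
    (hU : U ⊓ LinearMap.BilinForm.orthogonal (polarBilin Q) U = ⊥)
    (hW : W ⊓ LinearMap.BilinForm.orthogonal (polarBilin Q) W = ⊥) (e : U ≃ₗ[F] W)
    (he : ∀ u : U, Q (e u : ι → F) = Q (u : ι → F)) :
    ∃ g : ↥(Cfsg.isometryGroup F ⇑Q), g ∈ Cfsg.Omega F ⇑Q ∧
      U.map (Matrix.mulVecLin ((g : GL ι F) : Matrix ι ι F)) = W := by
  have hfin : finrank F (ι → F) = Fintype.card ι := Module.finrank_fintype_fun_eq_card F
  have hnt : Nontrivial (ι → F) := Module.nontrivial_of_finrank_pos (R := F) (by omega)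
  obtain ⟨g₀, hg₀, hmap₀⟩ := exists_O_map hS hU e he
  obtain ⟨vs₀, hvs₀, hg₀eq⟩ := cdp_of_card hS hcard g₀ hg₀
  rw [hg₀eq] at hmap₀
  obtain ⟨v, hv, hvst⟩ := exists_stabV hS hW
  obtain ⟨vs, hvs, hev, hmap⟩ : ∃ vs : List (ι → F), (∀ v ∈ vs, Q v ≠ 0) ∧
      Even vs.length ∧ U.map (((vs.map (reflE Q)).prod : (ι → F) ≃ₗ[F] (ι → F)) :
        (ι → F) →ₗ[F] (ι → F)) = W := by
    by_cases he : Even vs₀.length
    · exact ⟨vs₀, hvs₀, he, hmap₀⟩
    · refine ⟨v :: vs₀, ?_, ?_, ?_⟩
      · intro x hx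
        rcases List.mem_cons.mp hx with h1 | h1
        · rw [h1]; exact hv
        · exact hvs₀ x h1
      · rw [List.length_cons]
        rw [Nat.not_even_iff_odd] at he
        exact he.add_one
      · rw [List.map_cons, List.prod_cons, map_mul_eq, hmap₀]
        exact map_refl_of_stabV hvst
  by_cases h2 : (2 : F) = 0
  · have : CharP F 2 := CharTwo.of_one_ne_zero_of_two_eq_zero one_ne_zero h2
    have hG := good_of_card' hS hcard
    refine ⟨(isoEquiv Q).symm ((vs.map (refl Q)).prod), ?_, ?_⟩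
    · rw [mem_omega_iff, MulEquiv.apply_symm_apply]
      exact even_prod_mem_commutator hS hG vs hvs hev
    · rw [map_symm_prod]
      exact hmap
  · have ha : (vs.map (fun v => Q v)).prod ≠ 0 := by
      apply List.prod_ne_zero
      intro h0
      obtain ⟨v, hv, hv0⟩ := List.mem_map.mp h0
      exact hvs v hv hv0
    obtain ⟨v₁, hv₁, hst₁⟩ := exists_stabV_eq hS (by rw [hfin]; exact hn) hW
      ((vs.map (fun v => Q v)).prod)
    obtain ⟨v₂, hv₂, hst₂⟩ := exists_stabV_eq hS (by rw [hfin]; exact hn) hW (1 : F)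
    have hvs' : ∀ v ∈ v₁ :: v₂ :: vs, Q v ≠ 0 := by
      intro v hv
      simp only [List.mem_cons] at hv
      rcases hv with h | h | h
      · rw [h, hv₁]; exact ha
      · rw [h, hv₂]; exact one_ne_zero
      · exact hvs v h
    refine ⟨(isoEquiv Q).symm (((v₁ :: v₂ :: vs).map (refl Q)).prod), ?_, ?_⟩
    · rw [mem_omega_iff, MulEquiv.apply_symm_apply,
        mem_commutator_iff h2 hS (by rw [hfin]; omega) _ hvs']
      refine ⟨?_, ?_⟩
      · rw [List.length_cons, List.length_cons]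
        obtain ⟨k, hk⟩ := hev
        exact ⟨k + 1, by omega⟩
      · rw [List.map_cons, List.map_cons, List.prod_cons, List.prod_cons, hv₁, hv₂, one_mul]
        exact ⟨_, rfl⟩
    · rw [map_symm_prod, List.map_cons, List.map_cons, List.prod_cons, List.prod_cons,
        map_mul_eq, map_mul_eq, hmap, map_refl_of_stabV hst₂, map_refl_of_stabV hst₁]

end Cfsg.Agent.Lib.Helper44.WittND2
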