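import Mathlib
import Cfsg.Prelude.Def_Classical
import Cfsg.Prelude.Def_GeometricClasses
import Cfsg.Agent.Lib.Helper37.HypStmt
import Cfsg.Agent.Lib.Helper37.HypStmt2

/-!
# S5972 (call by helper44): statement pieces

`Omega_(2d+1)(q)`, `q` odd, elements of prime order `r` and totally singular `m`-spaces.
Everything is about `Cfsg.quadFormOdd d F` on `I d → F` (helper37's `HypStmt` notation:
`I d`, `Fx x`, `NDeg`, `Stab`, `cc`).  Notation in the sketches: `q = card F`, `Q = quadFormOdd d F`,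
`B = polar Q`, `i = orderOf (q : ZMod r)`, `c = cc i`, `n = 2 d + 1`.
-/

set_option autoImplicit false

universe u

open scoped Matrix

namespace Cfsg.Agent.Lib.Helper44.TSStmt

open Cfsg.Agent.Lib.Helper37.HypStmt Cfsg.Agent.Lib.Helper37.HypStmt2

/-- `Q` vanishes on `W` -/
def TSub (d : ℕ) (F : Type u) [Field F] (W : Submodule F (I d → F)) : Prop :=
  ∀ w ∈ W, Cfsg.quadFormOdd d F w = 0

/-- the `-1`-eigenspace of a matrix -/
def Fm {F : Type u} [Field F] {d : ℕ} (x : Matrix (I d) (I d) F) : Submodule F (I d → F) :=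
  LinearMap.ker (Matrix.toLin' x + LinearMap.id)

/-- totally singular frames of length `j` -/
def TFr (d : ℕ) (F : Type u) [Field F] (j : ℕ) : Type u :=
  {v : Fin j → I d → F // LinearIndependent F v ∧ (∀ a, Cfsg.quadFormOdd d F (v a) = 0) ∧
    (∀ a b, QuadraticMap.polar (Cfsg.quadFormOdd d F) (v a) (v b) = 0)}

/-- the number of totally singular `m`-spaces (as in the statement of S5972) -/
noncomputable def NTS (d : ℕ) (F : Type u) [Field F] (m : ℕ) : ℕ :=
  Nat.card {W : Submodule F (I d → F) //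
    Module.finrank F ↥W = m ∧ (∀ w ∈ W, Cfsg.quadFormOdd d F w = 0)}

/-- monic irreducible factors of the `r`-th cyclotomic polynomial over `F` -/
def Fac (r : ℕ) (F : Type u) [Field F] : Set (Polynomial F) :=
  {P | P.Monic ∧ Irreducible P ∧ P ∣ Polynomial.cyclotomic r F}

/-- `P(x)` kills `B` -/
def Kills {F : Type u} [Field F] {d : ℕ} (x : Matrix (I d) (I d) F) (P : Polynomial F)
    (B : Submodule F (I d → F)) : Prop :=
  ∀ v ∈ B, (Polynomial.aeval (Matrix.toLin' x) P) v = 0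

/-! ## Counting -/

/-- FRFIB: frames fibre over their spans; each t.s. `m`-space has `∏ (q^m - q^j)` bases
(`card_linearIndependent`); a linearly independent `m`-tuple inside a t.s. space is a frame
(`polar u v = Q (u+v) - Q u - Q v`). -/
def FrFib : Prop :=
  ∀ (F : Type u) [Field F] [Fintype F], Odd (Fintype.card F) → ∀ (d m : ℕ),
    Nat.card (TFr d F m) =
      NTS d F m * ∏ j ∈ Finset.range m, (Fintype.card F ^ m - Fintype.card F ^ j)

/-- SINGCNT: the singular vectors orthogonal to a t.s. frame of length `j ≤ d` number `q^(2d-j)`.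
Extend the frame `e = v` to a hyperbolic system `(e, f)` (Helper44.OTyp1.hyp_of_ts' /
QSpace.exists_hyp_pair) and to an adapted basis `(e, f, rest)` of a Sep space
(NegPairs.oddQ, sep_oddQ; QBasis.exists_hyp_basis); `u ⊥ e` iff its `f`-coefficients vanish, then
`Q u = Q (rest part)`; the rest is a Sep space of odd dimension `2(d-j)+1`, which has
`q^(2(d-j))` singular vectors (QClass.exists_hyp_odd + SpinCount.card_level_mul with `c = 0`, or
QCount.card_hypForm_mul).  Alternative: Witt (WittND2.exists_O_map) moves the frame to the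
standard one `Pi.single (inr (inl a)) 1`, `a < j`, and count there. -/
def SingCnt : Prop :=
  ∀ (F : Type u) [Field F] [Fintype F], Odd (Fintype.card F) → ∀ (d j : ℕ), j ≤ d →
    ∀ v : TFr d F j,
    Nat.card {u : I d → F // Cfsg.quadFormOdd d F u = 0 ∧
        ∀ a, QuadraticMap.polar (Cfsg.quadFormOdd d F) (v.1 a) u = 0} =
      Fintype.card F ^ (2 * d - j)

/-- FREXT (main : SingCnt → FrExt): frames of length `j+1` = frames of length `j` (Fin.init) with
one more vector `u` (Fin.snoc): `u` singular, orthogonal to the frame, not in its span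
(`linearIndependent_fin_snoc`); the span (`q^j` vectors) lies in the set counted by SingCnt. -/
def FrExt : Prop :=
  ∀ (F : Type u) [Field F] [Fintype F], Odd (Fintype.card F) → ∀ (d j : ℕ), j < d →
    Nat.card (TFr d F (j + 1)) =
      Nat.card (TFr d F j) *
        (Fintype.card F ^ j * (Fintype.card F ^ (2 * (d - j)) - 1))

/-- CNTID (main : FrFib → FrExt → CntId): induction on `m` gives
`card (TFr m) = ∏_{j<m} q^j (q^(2(d-j)) - 1)`; compare with FrFib
(`q^m - q^j = q^j (q^(m-j) - 1)`) and cancel `∏ q^j`. -/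
def CntId : Prop :=
  ∀ (F : Type u) [Field F] [Fintype F], Odd (Fintype.card F) → ∀ (d m : ℕ), m ≤ d →
    NTS d F m * ∏ j ∈ Finset.range m, (Fintype.card F ^ (m - j) - 1) =
      ∏ j ∈ Finset.range m, (Fintype.card F ^ (2 * (d - j)) - 1)

/-! ## General pieces -/

/-- RIMG: `R = (x - 1) W`.  `R ≤ W`, invariant, rank-nullity on `W`; `R ⊓ Fx = ⊥`: if
`(x-1)^2 w = 0` then, with `X^r - 1 = (X-1) Φ` and `Φ = (X-1) g + r`, `r • (x-1) w = 0`, and
`(r : F) ≠ 0`. -/
def RImg : Prop :=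
  ∀ (F : Type u) [Field F] [Fintype F] (p : ℕ) [Fact p.Prime] [CharP F p]
    (d : ℕ) (r : ℕ) [Fact r.Prime], r ≠ p →
    ∀ x : Matrix.GeneralLinearGroup (I d) F, x ^ r = 1 →
    ∀ W : Submodule F (I d → F), Stab (x : Matrix (I d) (I d) F) W →
    ∃ R : Submodule F (I d → F), R ≤ W ∧ Stab (x : Matrix (I d) (I d) F) R ∧
      R ⊓ Fx (x : Matrix (I d) (I d) F) = ⊥ ∧
      Module.finrank F ↥R + Module.finrank F ↥(W ⊓ Fx (x : Matrix (I d) (I d) F)) =
        Module.finrank F ↥W ∧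
      ∀ v ∈ R, ∃ w ∈ W, v = (x : Matrix (I d) (I d) F) *ᵥ w - w

/-- TSHALF: a totally singular subspace of a nondegenerate subspace has at most half its
dimension (`U ≤ U^⊥` inside `Y`, `dim U + dim U^⊥ = dim Y`). -/
def TsHalf : Prop :=
  ∀ (F : Type u) [Field F] [Fintype F], Odd (Fintype.card F) → ∀ (d : ℕ)
    (Y U : Submodule F (I d → F)), NDeg d F Y → U ≤ Y → TSub d F U →
    2 * Module.finrank F ↥U ≤ Module.finrank F ↥Y

/-- TSIN: a nondegenerate subspace of dimension `> 2 j` contains a totally singular `j`-space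
(Helper44.OEmb.exists_embedding: the hyperbolic space `plusQ j` embeds isometrically in the Sep
space `Y`; or induction with QSpace.exists_singular / exists_hyp_pair). -/
def TsIn : Prop :=
  ∀ (F : Type u) [Field F] [Fintype F], Odd (Fintype.card F) → ∀ (d : ℕ)
    (Y : Submodule F (I d → F)) (j : ℕ), NDeg d F Y → 2 * j < Module.finrank F ↥Y →
    ∃ U : Submodule F (I d → F), U ≤ Y ∧ TSub d F U ∧ Module.finrank F ↥U = j

/-- ORTHSUM: orthogonal sum of nondegenerate subspaces. -/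
def OrthSum : Prop :=
  ∀ (F : Type u) [Field F] [Fintype F], Odd (Fintype.card F) → ∀ (d : ℕ)
    (A B : Submodule F (I d → F)), NDeg d F A → NDeg d F B →
    (∀ u ∈ A, ∀ v ∈ B, QuadraticMap.polar (Cfsg.quadFormOdd d F) u v = 0) →
    NDeg d F (A ⊔ B) ∧ A ⊓ B = ⊥ ∧
      Module.finrank F ↥(A ⊔ B) = Module.finrank F ↥A + Module.finrank F ↥B

/-- SUBPERP: relative orthogonal complement of a nondegenerate `B` inside a nondegenerate `Y`
(`Y' = Y ⊓ B^⊥`; HypStmt2.Perp / WittND2.ndsub_orth help). -/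
def SubPerp : Prop :=
  ∀ (F : Type u) [Field F] [Fintype F], Odd (Fintype.card F) → ∀ (d : ℕ)
    (Y B : Submodule F (I d → F)), NDeg d F Y → NDeg d F B → B ≤ Y →
    ∃ Y' : Submodule F (I d → F), Y' ≤ Y ∧ NDeg d F Y' ∧ B ⊓ Y' = ⊥ ∧
      (∀ b ∈ B, ∀ y ∈ Y', QuadraticMap.polar (Cfsg.quadFormOdd d F) b y = 0) ∧
      Module.finrank F ↥B + Module.finrank F ↥Y' = Module.finrank F ↥Y ∧
      ∀ x : Matrix.GeneralLinearGroup (I d) F,
        x ∈ Cfsg.isometryGroup F (Cfsg.quadFormOdd d F) →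
        Stab (x : Matrix (I d) (I d) F) Y → Stab (x : Matrix (I d) (I d) F) B →
        Stab (x : Matrix (I d) (I d) F) Y'

/-! ## Odd `r ≠ p`: elements without fixed totally singular `m`-space -/

/-- B2A (main : IPos → DerElt → FixND → InvDim → TsHalf → RImg → B2A).
`K = n % c < 2 m` forces `c ≤ n`; `x` from DerElt with `finrank (Fx x) = K` (odd).  For `W`
invariant t.s. of dim `m`: RImg gives `R`, InvDim `i ∣ finrank R = m - f`, `f = finrank (W ⊓ Fx)`,
TsHalf in `Fx` (FixND) `2 f ≤ K`, so `2 f < K`.  `m < i`: `f = m`, `2 m < K`.  `K ≤ 2 (m % i)`: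
`f < i` (`2 f < K < c ≤ 2 i`), so `f = m % i`. -/
def B2A : Prop :=
  ∀ (F : Type u) [Field F] [Fintype F] (p : ℕ) [Fact p.Prime] [CharP F p],
    Odd (Fintype.card F) → ∀ (d m : ℕ), 1 ≤ d → 1 ≤ m → m ≤ d →
    ∀ (r : ℕ) [Fact r.Prime], r ≠ 2 → r ≠ p →
    (2 * d + 1) % cc (orderOf ((Fintype.card F : ℕ) : ZMod r)) < 2 * m →
    (m < orderOf ((Fintype.card F : ℕ) : ZMod r) ∨
      (2 * d + 1) % cc (orderOf ((Fintype.card F : ℕ) : ZMod r)) ≤
        2 * (m % orderOf ((Fintype.card F : ℕ) : ZMod r))) →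
    ∃ x : Matrix.GeneralLinearGroup (I d) F, x ∈ Cfsg.Geo.omegaGL (Cfsg.quadFormOdd d F) ∧
      orderOf x = r ∧
      ∀ W : Submodule F (I d → F), Module.finrank F ↥W = m → TSub d F W →
        ¬ Stab (x : Matrix (I d) (I d) F) W

/-- NUMTYPES: the `r`-th cyclotomic polynomial over `F` (`r ≠ p`) is separable of degree `r - 1`
and each monic irreducible factor has degree `i`
(`Polynomial.natDegree_of_dvd_cyclotomic_of_irreducible`, Helper40.PrimeFix.factors_of_pow_eq_one,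
Cfsg.Agent.S2568.cyclo_facts). -/
def NumTypes : Prop :=
  ∀ (F : Type u) [Field F] [Fintype F] (p : ℕ) [Fact p.Prime] [CharP F p]
    (r : ℕ) [Fact r.Prime], r ≠ p →
    (Fac r F).Finite ∧
      (Fac r F).ncard * orderOf ((Fintype.card F : ℕ) : ZMod r) = r - 1

/-- MULTELT: `i` even, `1 ≤ u ≤ (r-1)/i`, `i u ≤ 2 d`: an element of `Omega` of order `r` which
is the orthogonal sum of `u` irreducible blocks with pairwise DIFFERENT (self-reciprocal)
irreducible factors `P_1 .. P_u` of the cyclotomic polynomial, and the identity on the rest.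
Adapt Helper59.HypDERELT (OCls2.real_irr blocks, real_mul, OEmb.exists_embedding,
OExt.exists_ext, odd order => Omega).  Last clause: `V = Fx ⊥ E_1 ⊥ .. ⊥ E_u`, `E_j = ker P_j(x)`
of finrank `i`; the projections onto the `E_j` are polynomials in `x`, so an invariant `R` is the
sum of the `R ⊓ E_j`; `R ⊓ E_j` is invariant without fixed vectors, so it is `⊥` or has finrank
`≥ i` (InvDim), i.e. is `E_j`; but `E_j` is nondegenerate, not totally singular.
(Equivalently: charpoly = `(X-1)^(n - i u) * P_1 * .. * P_u`.) -/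
def MultElt : Prop :=
  ∀ (F : Type u) [Field F] [Fintype F] (p : ℕ) [Fact p.Prime] [CharP F p],
    Odd (Fintype.card F) → ∀ (d : ℕ), 1 ≤ d → ∀ (r : ℕ) [Fact r.Prime], r ≠ 2 → r ≠ p →
    Even (orderOf ((Fintype.card F : ℕ) : ZMod r)) →
    ∀ u : ℕ, 1 ≤ u → u ≤ (r - 1) / orderOf ((Fintype.card F : ℕ) : ZMod r) →
    orderOf ((Fintype.card F : ℕ) : ZMod r) * u ≤ 2 * d →
    ∃ x : Matrix.GeneralLinearGroup (I d) F, x ∈ Cfsg.Geo.omegaGL (Cfsg.quadFormOdd d F) ∧
      orderOf x = r ∧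
      Module.finrank F ↥(Fx (x : Matrix (I d) (I d) F)) =
        2 * d + 1 - orderOf ((Fintype.card F : ℕ) : ZMod r) * u ∧
      ∀ R : Submodule F (I d → F), Stab (x : Matrix (I d) (I d) F) R →
        R ⊓ Fx (x : Matrix (I d) (I d) F) = ⊥ → TSub d F R → R = ⊥

/-- B2B (main : IPos → MultElt → FixND → TsHalf → RImg → B2B).  `a = n / i`, `m' = m / i ≥ 1`,
`u = a + 1 - 2 m'`: `1 ≤ u` (`2 m' i ≤ 2 m < n`), `u ≤ (r-1)/i`, `i u ≤ i (a - 1) ≤ 2 d`.
`x` from MultElt.  `W` invariant t.s. of dim `m`: RImg's `R ≤ W` is t.s., so `R = ⊥` and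
`finrank (W ⊓ Fx) = m`; TsHalf in `Fx` (FixND): `2 m ≤ n - i u = K - i + 2 m - 2 (m % i)` with
`K = n % i < i`: contradiction. -/
def B2B : Prop :=
  ∀ (F : Type u) [Field F] [Fintype F] (p : ℕ) [Fact p.Prime] [CharP F p],
    Odd (Fintype.card F) → ∀ (d m : ℕ), 1 ≤ d → 1 ≤ m → m ≤ d →
    ∀ (r : ℕ) [Fact r.Prime], r ≠ 2 → r ≠ p →
    Even (orderOf ((Fintype.card F : ℕ) : ZMod r)) →
    orderOf ((Fintype.card F : ℕ) : ZMod r) ≤ m →
    2 * (m % orderOf ((Fintype.card F : ℕ) : ZMod r)) <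
      (2 * d + 1) % orderOf ((Fintype.card F : ℕ) : ZMod r) →
    (2 * d + 1) / orderOf ((Fintype.card F : ℕ) : ZMod r) <
      (r - 1) / orderOf ((Fintype.card F : ℕ) : ZMod r) +
        2 * (m / orderOf ((Fintype.card F : ℕ) : ZMod r)) →
    ∃ x : Matrix.GeneralLinearGroup (I d) F, x ∈ Cfsg.Geo.omegaGL (Cfsg.quadFormOdd d F) ∧
      orderOf x = r ∧
      ∀ W : Submodule F (I d → F), Module.finrank F ↥W = m → TSub d F W →
        ¬ Stab (x : Matrix (I d) (I d) F) W

/-! ## Odd `r ≠ p`: fixed totally singular `m`-spaces -/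

/-- HALFODD: invariant version of HypStmt.TypeOdd (adapt Helper8.HypTYPEODD /
Helper94.HypTYPEODD): `i` odd, `E` invariant nondegenerate without fixed vectors; the sum of the
`ker P(x) ⊓ E` over one `P` from each pair `{P, P*}` of irreducible factors is invariant, totally
singular, of half the dimension. -/
def HalfOdd : Prop :=
  ∀ (F : Type u) [Field F] [Fintype F] (p : ℕ) [Fact p.Prime] [CharP F p],
    Odd (Fintype.card F) → ∀ (d : ℕ) (r : ℕ) [Fact r.Prime], r ≠ 2 → r ≠ p →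
    Odd (orderOf ((Fintype.card F : ℕ) : ZMod r)) →
    ∀ x : Matrix.GeneralLinearGroup (I d) F, x ∈ Cfsg.isometryGroup F (Cfsg.quadFormOdd d F) →
    x ^ r = 1 → ∀ E : Submodule F (I d → F), Stab (x : Matrix (I d) (I d) F) E → NDeg d F E →
    E ⊓ Fx (x : Matrix (I d) (I d) F) = ⊥ →
    ∃ U : Submodule F (I d → F), U ≤ E ∧ Stab (x : Matrix (I d) (I d) F) U ∧ TSub d F U ∧
      2 * Module.finrank F ↥U = Module.finrank F ↥E

/-- B1O (main : IPos → TopND → FixND → DimObs → Blocks → HalfOdd → TsIn → B1O).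
`f0 = finrank (Fx x)`, `2 i ∣ n - f0` (DimObs with `W = ⊤`), `b = (n - f0) / (2 i)`,
`s = min b (m / i)`.  Blocks (`j = s`) gives `E`, HalfOdd `U ≤ E` invariant t.s. of dim `i s`;
TsIn gives `W0 ≤ Fx` t.s. of dim `m - i s` (`s = m / i`: `2 (m % i) < n % (2 i) ≤ f0`;
`s = b`: `2 (m - i b) < n - 2 i b`).  `W = U ⊔ W0`: t.s. (`U ⊥ Fx`), dim adds (`E ⊓ Fx = ⊥`),
invariant (`x w = w` on `Fx`). -/
def B1O : Prop :=
  ∀ (F : Type u) [Field F] [Fintype F] (p : ℕ) [Fact p.Prime] [CharP F p],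
    Odd (Fintype.card F) → ∀ (d m : ℕ), 1 ≤ d → 1 ≤ m → m ≤ d →
    ∀ (r : ℕ) [Fact r.Prime], r ≠ 2 → r ≠ p →
    Odd (orderOf ((Fintype.card F : ℕ) : ZMod r)) →
    orderOf ((Fintype.card F : ℕ) : ZMod r) ≤ m →
    2 * (m % orderOf ((Fintype.card F : ℕ) : ZMod r)) <
      (2 * d + 1) % (2 * orderOf ((Fintype.card F : ℕ) : ZMod r)) →
    ∀ x : Matrix.GeneralLinearGroup (I d) F, x ∈ Cfsg.Geo.omegaGL (Cfsg.quadFormOdd d F) →
    orderOf x = r →
    ∃ W : Submodule F (I d → F), Module.finrank F ↥W = m ∧ TSub d F W ∧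
      Stab (x : Matrix (I d) (I d) F) W

/-- TYPEOF (main : InvDim → TypeOf): an invariant `B` of finrank `i` without fixed vectors is
killed by `P(x)` for some monic irreducible factor `P` of the cyclotomic polynomial.  `Φ(x)` kills
`B` (`(x-1) Φ(x) = 0`, `Φ(x) v ∈ B ⊓ Fx`); some factor `P` has `ker P(x) ⊓ B ≠ ⊥`; that is an
invariant subspace without fixed vectors, so its finrank is a positive multiple of `i`: it is
`B`. -/
def TypeOf : Prop :=
  ∀ (F : Type u) [Field F] [Fintype F] (p : ℕ) [Fact p.Prime] [CharP F p]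
    (d : ℕ) (r : ℕ) [Fact r.Prime], r ≠ p →
    ∀ x : Matrix.GeneralLinearGroup (I d) F, x ^ r = 1 →
    ∀ B : Submodule F (I d → F), Stab (x : Matrix (I d) (I d) F) B →
    B ⊓ Fx (x : Matrix (I d) (I d) F) = ⊥ →
    Module.finrank F ↥B = orderOf ((Fintype.card F : ℕ) : ZMod r) →
    ∃ P ∈ Fac r F, Kills (x : Matrix (I d) (I d) F) P B

/-- PAIRE: `i` even; two orthogonal invariant nondegenerate blocks `B1`, `B2` of finrank `i`
killed by the same irreducible `P`: `B1 ⊔ B2` contains an invariant totally singular subspace of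
finrank `i`.
Route A (counting): `M = B1 ⊔ B2` (finrank `2 i`, nondegenerate, killed by `P(x)`) is the disjoint
union of `0` and the sets `L \ 0` over the `q^i + 1` "lines" `L = span {x^a w}` (`w ≠ 0`; finrank
`≤ i` since `P(x) w = 0`, `≥ i` by InvDim).  A line is totally singular or nondegenerate (its
radical is invariant); a nondegenerate line is of minus type (HypStmt.TypeEven, `i / i = 1` odd)
and has `(q^e + 1)(q^(e-1) - 1)` nonzero singular vectors, `e = i / 2`; `M` is of plus type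
(TypeEven) with `(q^i - 1)(q^(i-1) + 1)` nonzero singular vectors (Helper44.OTyp1.card_P /
card_M).  If no line were totally singular:
`(q^i + 1)(q^e + 1)(q^(e-1) - 1) = (q^i - 1)(q^(i-1) + 1)`, false.
Route B (hermitian): `K = AdjoinRoot P`, `σ : root ↦ root⁻¹` (`P` self-reciprocal, `i` even),
`B (g(x) v_j, h(x) v_j) = Tr (a_j σ(g) h)` with `a_j` in the fixed field; take `λ` with
`λ σ(λ) = - a_1 / a_2` (norm surjective), `w = v_1 + λ(x) v_2`, `U = span {x^a w}`. -/
def PairE : Prop :=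
  ∀ (F : Type u) [Field F] [Fintype F] (p : ℕ) [Fact p.Prime] [CharP F p],
    Odd (Fintype.card F) → ∀ (d : ℕ) (r : ℕ) [Fact r.Prime], r ≠ 2 → r ≠ p →
    Even (orderOf ((Fintype.card F : ℕ) : ZMod r)) →
    ∀ x : Matrix.GeneralLinearGroup (I d) F, x ∈ Cfsg.isometryGroup F (Cfsg.quadFormOdd d F) →
    x ^ r = 1 → ∀ P ∈ Fac r F, ∀ B₁ B₂ : Submodule F (I d → F),
    Stab (x : Matrix (I d) (I d) F) B₁ → Stab (x : Matrix (I d) (I d) F) B₂ →
    NDeg d F B₁ → NDeg d F B₂ →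
    B₁ ⊓ Fx (x : Matrix (I d) (I d) F) = ⊥ → B₂ ⊓ Fx (x : Matrix (I d) (I d) F) = ⊥ →
    Module.finrank F ↥B₁ = orderOf ((Fintype.card F : ℕ) : ZMod r) →
    Module.finrank F ↥B₂ = orderOf ((Fintype.card F : ℕ) : ZMod r) →
    (∀ u ∈ B₁, ∀ v ∈ B₂, QuadraticMap.polar (Cfsg.quadFormOdd d F) u v = 0) →
    Kills (x : Matrix (I d) (I d) F) P B₁ → Kills (x : Matrix (I d) (I d) F) P B₂ →
    ∃ U : Submodule F (I d → F), U ≤ B₁ ⊔ B₂ ∧ Stab (x : Matrix (I d) (I d) F) U ∧
      TSub d F U ∧ Module.finrank F ↥U = orderOf ((Fintype.card F : ℕ) : ZMod r)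

/-- BLOCKSK (main : SubPerp → BlockFindE → BlocksK): `k` pairwise orthogonal invariant
nondegenerate blocks of finrank `i` inside `Y` when `k i ≤ finrank Y`.  Induction on `k`:
BlockFindE in the current `Y`, then pass to the relative complement (SubPerp). -/
def BlocksK : Prop :=
  ∀ (F : Type u) [Field F] [Fintype F] (p : ℕ) [Fact p.Prime] [CharP F p],
    Odd (Fintype.card F) → ∀ (d : ℕ) (r : ℕ) [Fact r.Prime], r ≠ 2 → r ≠ p →
    Even (orderOf ((Fintype.card F : ℕ) : ZMod r)) →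
    ∀ x : Matrix.GeneralLinearGroup (I d) F, x ∈ Cfsg.isometryGroup F (Cfsg.quadFormOdd d F) →
    x ^ r = 1 → ∀ Y : Submodule F (I d → F), Stab (x : Matrix (I d) (I d) F) Y → NDeg d F Y →
    Y ⊓ Fx (x : Matrix (I d) (I d) F) = ⊥ → ∀ k : ℕ,
    k * orderOf ((Fintype.card F : ℕ) : ZMod r) ≤ Module.finrank F ↥Y →
    ∃ Bs : Fin k → Submodule F (I d → F),
      (∀ a, Bs a ≤ Y ∧ Stab (x : Matrix (I d) (I d) F) (Bs a) ∧ NDeg d F (Bs a) ∧
        Module.finrank F ↥(Bs a) = orderOf ((Fintype.card F : ℕ) : ZMod r)) ∧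
      ∀ a b, a ≠ b → ∀ u ∈ Bs a, ∀ v ∈ Bs b,
        QuadraticMap.polar (Cfsg.quadFormOdd d F) u v = 0

/-- PAIRFIND (main : IPos → NumTypes → TypeOf → PairE → OrthSum → BlocksK → PairFind): in `Y` of
finrank `≥ i ((r-1)/i + 1)` take `(r-1)/i + 1` orthogonal blocks (BlocksK); there are only
`(r-1)/i` types (NumTypes, TypeOf), so two blocks `B_a ≠ B_b` have the same type (pigeonhole);
PairE gives `U`; `G = B_a ⊔ B_b` (OrthSum). -/
def PairFind : Prop :=
  ∀ (F : Type u) [Field F] [Fintype F] (p : ℕ) [Fact p.Prime] [CharP F p],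
    Odd (Fintype.card F) → ∀ (d : ℕ) (r : ℕ) [Fact r.Prime], r ≠ 2 → r ≠ p →
    Even (orderOf ((Fintype.card F : ℕ) : ZMod r)) →
    ∀ x : Matrix.GeneralLinearGroup (I d) F, x ∈ Cfsg.isometryGroup F (Cfsg.quadFormOdd d F) →
    x ^ r = 1 → ∀ Y : Submodule F (I d → F), Stab (x : Matrix (I d) (I d) F) Y → NDeg d F Y →
    Y ⊓ Fx (x : Matrix (I d) (I d) F) = ⊥ →
    orderOf ((Fintype.card F : ℕ) : ZMod r) *
      ((r - 1) / orderOf ((Fintype.card F : ℕ) : ZMod r) + 1) ≤ Module.finrank F ↥Y →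
    ∃ U G : Submodule F (I d → F), U ≤ G ∧ G ≤ Y ∧
      Stab (x : Matrix (I d) (I d) F) U ∧ TSub d F U ∧
      Module.finrank F ↥U = orderOf ((Fintype.card F : ℕ) : ZMod r) ∧
      Stab (x : Matrix (I d) (I d) F) G ∧ NDeg d F G ∧
      Module.finrank F ↥G = 2 * orderOf ((Fintype.card F : ℕ) : ZMod r)

/-- TSEVEN (main : FixND → Perp → OrthSum → PairFind → TsEven): `i` even; an invariant totally
singular `U` of finrank `i s`, orthogonal to `Fx`, whenever `s = 0` or
`i (2 s + (r-1)/i) + finrank Fx ≤ n + i`.  Induction on `s` with the stronger statement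
"`U ≤ G`, `G` invariant nondegenerate of finrank `2 i s`, `G ⊥ Fx`": `Z = G ⊔ Fx` is nondegenerate
(OrthSum, FixND) and invariant, `Y = Z^⊥` (Perp) is invariant nondegenerate of finrank
`n - 2 i s - finrank Fx ≥ i ((r-1)/i + 1)` with `Y ⊓ Fx = ⊥`; PairFind gives `U' ≤ G' ≤ Y`;
take `U ⊔ U'`, `G ⊔ G'`. -/
def TsEven : Prop :=
  ∀ (F : Type u) [Field F] [Fintype F] (p : ℕ) [Fact p.Prime] [CharP F p],
    Odd (Fintype.card F) → ∀ (d : ℕ) (r : ℕ) [Fact r.Prime], r ≠ 2 → r ≠ p →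
    Even (orderOf ((Fintype.card F : ℕ) : ZMod r)) →
    ∀ x : Matrix.GeneralLinearGroup (I d) F, x ∈ Cfsg.isometryGroup F (Cfsg.quadFormOdd d F) →
    x ^ r = 1 → ∀ s : ℕ,
    (s = 0 ∨ orderOf ((Fintype.card F : ℕ) : ZMod r) *
        (2 * s + (r - 1) / orderOf ((Fintype.card F : ℕ) : ZMod r)) +
        Module.finrank F ↥(Fx (x : Matrix (I d) (I d) F)) ≤
      2 * d + 1 + orderOf ((Fintype.card F : ℕ) : ZMod r)) →
    ∃ U : Submodule F (I d → F), Stab (x : Matrix (I d) (I d) F) U ∧ TSub d F U ∧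
      Module.finrank F ↥U = orderOf ((Fintype.card F : ℕ) : ZMod r) * s ∧
      U ⊓ Fx (x : Matrix (I d) (I d) F) = ⊥ ∧
      ∀ u ∈ U, ∀ v ∈ Fx (x : Matrix (I d) (I d) F),
        QuadraticMap.polar (Cfsg.quadFormOdd d F) u v = 0

/-- B1E (main : IPos → TopND → FixND → DimObs → TsEven → TsIn → B1E).  `f0 = finrank (Fx x)`,
`i ∣ n - f0` (DimObs, `W = ⊤`), `b = (n - f0) / i`, `t = (r-1)/i`, `m' = m / i`,
`s = min m' ((b + 1 - t) / 2)` (truncated).  `s ≥ 1` gives `2 s + t ≤ b + 1`: TsEven applies.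
TsIn gives `W0 ≤ Fx` t.s. of dim `m - i s`: if `s = m'`: `2 (m % i) < n % i ≤ f0`; otherwise
`b - 2 s ≤ t` and `2 m + i t ≤ 2 d` (from `t + 2 m' ≤ n / i` and `2 (m % i) < n % i`), so
`2 (m - i s) < n - i b = f0`.  `W = U ⊔ W0`. -/
def B1E : Prop :=
  ∀ (F : Type u) [Field F] [Fintype F] (p : ℕ) [Fact p.Prime] [CharP F p],
    Odd (Fintype.card F) → ∀ (d m : ℕ), 1 ≤ d → 1 ≤ m → m ≤ d →
    ∀ (r : ℕ) [Fact r.Prime], r ≠ 2 → r ≠ p →
    Even (orderOf ((Fintype.card F : ℕ) : ZMod r)) →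
    orderOf ((Fintype.card F : ℕ) : ZMod r) ≤ m →
    2 * (m % orderOf ((Fintype.card F : ℕ) : ZMod r)) <
      (2 * d + 1) % orderOf ((Fintype.card F : ℕ) : ZMod r) →
    (r - 1) / orderOf ((Fintype.card F : ℕ) : ZMod r) +
        2 * (m / orderOf ((Fintype.card F : ℕ) : ZMod r)) ≤
      (2 * d + 1) / orderOf ((Fintype.card F : ℕ) : ZMod r) →
    ∀ x : Matrix.GeneralLinearGroup (I d) F, x ∈ Cfsg.Geo.omegaGL (Cfsg.quadFormOdd d F) →
    orderOf x = r →
    ∃ W : Submodule F (I d → F), Module.finrank F ↥W = m ∧ TSub d F W ∧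
      Stab (x : Matrix (I d) (I d) F) W

/-! ## Involutions -/

/-- INVDEC (main : TopND → InvDec): `V = Fx ⊥ Fm` for an isometry with `x^2 = 1`
(`v = (v + x v)/2 + (v - x v)/2`; `B (u, v) = B (x u, x v) = - B (u, v)`). -/
def InvDec : Prop :=
  ∀ (F : Type u) [Field F] [Fintype F], Odd (Fintype.card F) → ∀ (d : ℕ),
    ∀ x : Matrix.GeneralLinearGroup (I d) F, x ∈ Cfsg.isometryGroup F (Cfsg.quadFormOdd d F) →
    x ^ 2 = 1 →
    NDeg d F (Fx (x : Matrix (I d) (I d) F)) ∧ NDeg d F (Fm (x : Matrix (I d) (I d) F)) ∧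
      (∀ u ∈ Fx (x : Matrix (I d) (I d) F), ∀ v ∈ Fm (x : Matrix (I d) (I d) F),
        QuadraticMap.polar (Cfsg.quadFormOdd d F) u v = 0) ∧
      Fx (x : Matrix (I d) (I d) F) ⊓ Fm (x : Matrix (I d) (I d) F) = ⊥ ∧
      Module.finrank F ↥(Fx (x : Matrix (I d) (I d) F)) +
        Module.finrank F ↥(Fm (x : Matrix (I d) (I d) F)) = 2 * d + 1

/-- INVPAR: an involution of `Omega` has determinant `1` (Helper44.ODet.omega_le_special), and
`det x = (-1) ^ finrank (Fm x)`. -/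
def InvPar : Prop :=
  ∀ (F : Type u) [Field F] [Fintype F], Odd (Fintype.card F) → ∀ (d : ℕ),
    ∀ x : Matrix.GeneralLinearGroup (I d) F, x ∈ Cfsg.Geo.omegaGL (Cfsg.quadFormOdd d F) →
    x ^ 2 = 1 → Even (Module.finrank F ↥(Fm (x : Matrix (I d) (I d) F)))

/-- SPININV: `q ≡ 1 (mod 4)`: the `-1`-eigenspace of an involution of `Omega` is of plus type.
`Fm x` (finrank `2 e`, Sep for the restricted form) is either hyperbolic or `e - 1` hyperbolic
pairs plus an elliptic pair (Helper44.QClass.exists_hyp_even on `↥(Fm x)`).  In the second case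
`x` is the product of the reflections in `e_j + f_j`, `e_j - f_j` (values `1`, `-1`) and in an
orthogonal basis of the elliptic plane (product of values `= -disc/4`, a non-square as `-1` is a
square); the product of all values is a non-square, contradicting
Helper44.OMat.mem_omega_iff_of_mulVec (cf. Helper44.NegPairs.exists_negPairs_iff). -/
def SpinInv : Prop :=
  ∀ (F : Type u) [Field F] [Fintype F], Odd (Fintype.card F) → Fintype.card F % 4 = 1 →
    ∀ (d : ℕ), 1 ≤ d →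
    ∀ x : Matrix.GeneralLinearGroup (I d) F, x ∈ Cfsg.Geo.omegaGL (Cfsg.quadFormOdd d F) →
    x ^ 2 = 1 →
    ∃ U : Submodule F (I d → F), U ≤ Fm (x : Matrix (I d) (I d) F) ∧ TSub d F U ∧
      2 * Module.finrank F ↥U = Module.finrank F ↥(Fm (x : Matrix (I d) (I d) F))

/-- INVGOOD (main : InvDec → InvPar → SpinInv → TsIn → InvGood).  `finrank Fm = 2 e`,
`finrank Fx = 2 (d - e) + 1`.  TsIn: t.s. subspaces of `Fx` of every dim `≤ d - e` and of `Fm` of
every dim `≤ e - 1`; their sum is t.s., invariant.  `m < d`: dims `min m (d - e)` and the rest.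
`m = d`, `q ≡ 1 (4)`: SpinInv gives dim `e` in `Fm`. -/
def InvGood : Prop :=
  ∀ (F : Type u) [Field F] [Fintype F], Odd (Fintype.card F) → ∀ (d m : ℕ), 1 ≤ d → 1 ≤ m →
    m ≤ d → (m < d ∨ Fintype.card F % 4 = 1) →
    ∀ x : Matrix.GeneralLinearGroup (I d) F, x ∈ Cfsg.Geo.omegaGL (Cfsg.quadFormOdd d F) →
    orderOf x = 2 →
    ∃ W : Submodule F (I d → F), Module.finrank F ↥W = m ∧ TSub d F W ∧
      Stab (x : Matrix (I d) (I d) F) W

/-- INVBAD (main : InvDec → TsHalf → InvBad): `q ≡ 3 (mod 4)`.  `x` = product of the reflections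
in `v = e_0` (`Pi.single (inl ()) 1`) and `w = e_1 + f_1` (`Q v = Q w = 1`, `B (v, w) = 0`):
`x e_0 = - e_0`, `x e_1 = - f_1`, `x f_1 = - e_1`, identity on the other basis vectors; in `Omega`
by Helper44.OMat.exists_mem_omega_iff (two reflections, product of values `1`).  `Fm x = span
{v, w}` is anisotropic (`a^2 + b^2 = 0` only for `a = b = 0`, `-1` a non-square).  An invariant
t.s. `W`: `w' - x w' ∈ W ⊓ Fm = ⊥`, so `W ≤ Fx`, and `2 d ≤ finrank Fx = 2 d - 1` (TsHalf, InvDec):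
impossible. -/
def InvBad : Prop :=
  ∀ (F : Type u) [Field F] [Fintype F], Odd (Fintype.card F) → Fintype.card F % 4 = 3 →
    ∀ (d : ℕ), 1 ≤ d →
    ∃ x : Matrix.GeneralLinearGroup (I d) F, x ∈ Cfsg.Geo.omegaGL (Cfsg.quadFormOdd d F) ∧
      orderOf x = 2 ∧
      ∀ W : Submodule F (I d → F), Module.finrank F ↥W = d → TSub d F W →
        ¬ Stab (x : Matrix (I d) (I d) F) W

end Cfsg.Agent.Lib.Helper44.TSStmt
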