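import Mathlib
import Cfsg.Agent.Lib.Helper45.SemiAut

set_option autoImplicit false

/-! Interface for the field coset theorem of `PΩ⁻` (S2737) and relatives, for a general form `Q`:
the automorphism of `PΩ(Q)` given by a semisimilarity `(g, τ)`, forms commuting with one field
automorphism, their similarity groups, twisted powers. -/

namespace Cfsg.Agent.Lib.Helper44.MFld0

open Matrix
open Cfsg.Agent.Lib.Helper45.OmegaAut Cfsg.Agent.Lib.Helper45.SemiAut

universe u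

variable {F : Type u} [Field F] {ι : Type} [Fintype ι] [DecidableEq ι] {Q : (ι → F) → F}

/-! ### the automorphism given by a semisimilarity -/

theorem semi_mem {g : GL ι F} {τ : F ≃+* F} (h : Cfsg.IsSemisimilarityPair Q g τ) {s : GL ι F}
    (hs : s ∈ Cfsg.isometryGroup F Q) :
    g * Matrix.GeneralLinearGroup.map (τ : F →+* F) s * g⁻¹ ∈ Cfsg.isometryGroup F Q := by
  obtain ⟨c, hc⟩ := h
  rw [mem_iso_iff'] at hs ⊢
  intro v
  obtain ⟨w, hw⟩ : ∃ w : ι → F, w = fun k => τ.symm ((((g⁻¹ : GL ι F) : Matrix ι ι F) *ᵥ v) k) :=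
    ⟨_, rfl⟩
  have hv : v = (g : Matrix ι ι F) *ᵥ (fun k => τ (w k)) := by
    rw [hw]
    simp only [RingEquiv.apply_symm_apply]
    rw [Matrix.mulVec_mulVec, ← Units.val_mul, mul_inv_cancel, Units.val_one, Matrix.one_mulVec]
  have e1 : ((g * Matrix.GeneralLinearGroup.map (τ : F →+* F) s * g⁻¹ : GL ι F) : Matrix ι ι F) *ᵥ v
      = (g : Matrix ι ι F) *ᵥ (fun k => τ (((s : Matrix ι ι F) *ᵥ w) k)) := by
    rw [← smap_mulVec]
    conv_lhs => rw [hv]
    rw [Units.val_mul, Units.val_mul, Matrix.mulVec_mulVec, Matrix.mulVec_mulVec]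
    congr 1
    rw [Matrix.mul_assoc, Matrix.mul_assoc, ← Units.val_mul, inv_mul_cancel, Units.val_one,
      Matrix.mul_one]
  rw [e1, hc, hs w, ← hc, ← hv]

theorem semi_mem_inv {g : GL ι F} {τ : F ≃+* F} (h : Cfsg.IsSemisimilarityPair Q g τ) {s : GL ι F}
    (hs : s ∈ Cfsg.isometryGroup F Q) :
    Matrix.GeneralLinearGroup.map (τ.symm : F →+* F) (g⁻¹ * s * g) ∈ Cfsg.isometryGroup F Q := by
  obtain ⟨c, hc⟩ := h
  rw [mem_iso_iff'] at hs ⊢
  intro v
  obtain ⟨y, hy⟩ : ∃ y : ι → F, y = ((g⁻¹ * s * g : GL ι F) : Matrix ι ι F) *ᵥ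
      (fun k => τ (v k)) := ⟨_, rfl⟩
  have e1 : ((Matrix.GeneralLinearGroup.map (τ.symm : F →+* F) (g⁻¹ * s * g) : GL ι F) :
      Matrix ι ι F) *ᵥ v = fun k => τ.symm (y k) := by
    have hv : v = fun k => τ.symm ((fun k => τ (v k)) k) := by
      funext k
      simp
    conv_lhs => rw [hv]
    rw [smap_mulVec, hy]
  have e2 : (g : Matrix ι ι F) *ᵥ y =
      (s : Matrix ι ι F) *ᵥ ((g : Matrix ι ι F) *ᵥ (fun k => τ (v k))) := by
    rw [hy, Units.val_mul, Units.val_mul, Matrix.mulVec_mulVec, Matrix.mulVec_mulVec]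
    congr 1
    rw [← Matrix.mul_assoc, ← Matrix.mul_assoc, ← Units.val_mul, mul_inv_cancel, Units.val_one,
      Matrix.one_mul]
  have e3 := hc (fun k => τ.symm (y k))
  simp only [RingEquiv.apply_symm_apply] at e3
  rw [e2, hs, hc] at e3
  rw [e1]
  have hc0 : (c : F) ≠ 0 := c.ne_zero
  have e4 : τ (Q v) = τ (Q fun k => τ.symm (y k)) := mul_left_cancel₀ hc0 e3
  exact (τ.injective e4).symm

/-- the automorphism of the isometry group given by a semisimilarity -/
def semiIso (g : GL ι F) (τ : F ≃+* F) (h : Cfsg.IsSemisimilarityPair Q g τ) :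
    MulAut ↥(Cfsg.isometryGroup F Q) where
  toFun s := ⟨g * Matrix.GeneralLinearGroup.map (τ : F →+* F) s * g⁻¹, semi_mem h s.2⟩
  invFun s := ⟨Matrix.GeneralLinearGroup.map (τ.symm : F →+* F) (g⁻¹ * s * g), semi_mem_inv h s.2⟩
  left_inv s := Subtype.ext (by
    show Matrix.GeneralLinearGroup.map (τ.symm : F →+* F)
      (g⁻¹ * (g * Matrix.GeneralLinearGroup.map (τ : F →+* F) (s : GL ι F) * g⁻¹) * g) =
        (s : GL ι F)
    have e : g⁻¹ * (g * Matrix.GeneralLinearGroup.map (τ : F →+* F) (s : GL ι F) * g⁻¹) * g =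
        Matrix.GeneralLinearGroup.map (τ : F →+* F) (s : GL ι F) := by group
    rw [e, smap_map_symm])
  right_inv s := Subtype.ext (by
    show g * Matrix.GeneralLinearGroup.map (τ : F →+* F)
      (Matrix.GeneralLinearGroup.map (τ.symm : F →+* F) (g⁻¹ * (s : GL ι F) * g)) * g⁻¹ =
        (s : GL ι F)
    rw [smap_symm_map]
    group)
  map_mul' s t := Subtype.ext (by
    show g * Matrix.GeneralLinearGroup.map (τ : F →+* F) ((s : GL ι F) * (t : GL ι F)) * g⁻¹ =
      g * Matrix.GeneralLinearGroup.map (τ : F →+* F) (s : GL ι F) * g⁻¹ *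
        (g * Matrix.GeneralLinearGroup.map (τ : F →+* F) (t : GL ι F) * g⁻¹)
    rw [map_mul]
    group)

/-- the automorphism of `Ω` given by a semisimilarity -/
def semiOm (g : GL ι F) (τ : F ≃+* F) (h : Cfsg.IsSemisimilarityPair Q g τ) :
    MulAut ↥(Cfsg.Omega F Q) :=
  (@MulAut.characteristic _ _ (Cfsg.Omega F Q) (comm_char _)) (semiIso g τ h)

theorem semiOm_coe (g : GL ι F) (τ : F ≃+* F) (h : Cfsg.IsSemisimilarityPair Q g τ)
    (s : ↥(Cfsg.Omega F Q)) :
    (((semiOm g τ h s : ↥(Cfsg.Omega F Q)) : ↥(Cfsg.isometryGroup F Q)) : GL ι F) =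
      g * Matrix.GeneralLinearGroup.map (τ : F →+* F)
        ((s : ↥(Cfsg.isometryGroup F Q)) : GL ι F) * g⁻¹ := rfl

/-- the automorphism of `PΩ` given by a semisimilarity -/
def semiP (g : GL ι F) (τ : F ≃+* F) (h : Cfsg.IsSemisimilarityPair Q g τ) :
    MulAut (Cfsg.POmega F Q) :=
  quotAut _ (semiOm g τ h)

theorem semiP_mk (g : GL ι F) (τ : F ≃+* F) (h : Cfsg.IsSemisimilarityPair Q g τ)
    (s : ↥(Cfsg.Omega F Q)) :
    semiP g τ h (QuotientGroup.mk s) = QuotientGroup.mk (semiOm g τ h s) := rfl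

/-! ### forms commuting with one field automorphism -/

/-- `Q` commutes with the field automorphism `σ` -/
def InvS (Q : (ι → F) → F) (σ : F ≃+* F) : Prop :=
  ∀ v : ι → F, Q (fun k => σ (v k)) = σ (Q v)

theorem InvS.pair {σ : F ≃+* F} (h : InvS Q σ) : Cfsg.IsSemisimilarityPair Q 1 σ :=
  ⟨1, fun v => by rw [Units.val_one, Matrix.one_mulVec, Units.val_one, one_mul]; exact h v⟩

/-- the standard field automorphism of `PΩ(Q)` for a `σ`-invariant form -/
def csq (Q : (ι → F) → F) (σ : F ≃+* F) (h : InvS Q σ) : MulAut (Cfsg.POmega F Q) :=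
  semiP 1 σ h.pair

/-- the similarity group -/
abbrev GOq (Q : (ι → F) → F) : Type u := ↥(Cfsg.Geo.quadSimilarityGroup (F := F) Q)

theorem map_mem_GOq {σ : F ≃+* F} (h : InvS Q σ) {g : GL ι F}
    (hg : g ∈ Cfsg.Geo.quadSimilarityGroup (F := F) Q) :
    Matrix.GeneralLinearGroup.map (σ : F →+* F) g ∈ Cfsg.Geo.quadSimilarityGroup (F := F) Q := by
  obtain ⟨c, hc⟩ := hg
  refine ⟨Units.map ((σ : F →+* F) : F →* F) c, fun v => ?_⟩
  have hv : v = fun k => σ (σ.symm (v k)) := by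
    funext k
    simp
  have e : ((Units.map ((σ : F →+* F) : F →* F) c : Fˣ) : F) = σ (c : F) := rfl
  rw [hv, smap_mulVec, h, h, hc, map_mul, e]

/-- entrywise field automorphism on similarities of a `σ`-invariant form -/
def mapGOq (Q : (ι → F) → F) (σ : F ≃+* F) (h : InvS Q σ) : GOq Q →* GOq Q where
  toFun g := ⟨Matrix.GeneralLinearGroup.map (σ : F →+* F) g, map_mem_GOq h g.2⟩
  map_one' := Subtype.ext (map_one _)
  map_mul' _ _ := Subtype.ext (map_mul _ _ _)

theorem mapGOq_coe (σ : F ≃+* F) (h : InvS Q σ) (g : GOq Q) :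
    (((mapGOq Q σ h g : GOq Q) : GL ι F) : Matrix ι ι F) =
      ((g : GL ι F) : Matrix ι ι F).map σ := rfl

/-- `g` is a scalar matrix -/
def IsScalarq (g : GOq Q) : Prop :=
  ∃ c : F, ∀ x : ι → F, ((g : GL ι F) : Matrix ι ι F) *ᵥ x = c • x

/-- twisted powers `g σ(g) ⋯ σ^{k-1}(g)` -/
def twq (σ : F ≃+* F) (h : InvS Q σ) (g : GOq Q) : ℕ → GOq Q
  | 0 => 1
  | k + 1 => g * mapGOq Q σ h (twq σ h g k)

theorem twq_zero (σ : F ≃+* F) (h : InvS Q σ) (g : GOq Q) : twq σ h g 0 = 1 := rfl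

theorem twq_succ (σ : F ≃+* F) (h : InvS Q σ) (g : GOq Q) (k : ℕ) :
    twq σ h g (k + 1) = g * mapGOq Q σ h (twq σ h g k) := rfl

end Cfsg.Agent.Lib.Helper44.MFld0
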