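import Mathlib
import Cfsg.Agent.Lib.Helper43.OPlAut
import Cfsg.Agent.Lib.Helper43.H90Fin
import Cfsg.Agent.Lib.Helper44.MaxTS3

set_option autoImplicit false

/-! Interface for the field / graph-field coset theorem of `PΩ⁺_{2m}` (S2736):
similarity group `GO`, entrywise field automorphisms `mapGO`, twisted powers `tw`,
scalars, and `σ`-images of subspaces. -/

namespace Cfsg.Agent.Lib.Helper44.OFld0

open Matrix Module
open Cfsg.Agent.Lib.Helper43.OPlAut Cfsg.Agent.Lib.Helper45.OmegaAut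

universe u

variable {F : Type u} [Field F] {m : ℕ}

/-- the similarity group of the plus form -/
abbrev GO (m : ℕ) (F : Type u) [Field F] : Type u :=
  ↥(Cfsg.Geo.quadSimilarityGroup (F := F) (Cfsg.quadFormPlus m F))

theorem map_mem_GO (σ : F ≃+* F) {g : GL (Fin m ⊕ Fin m) F}
    (hg : g ∈ Cfsg.Geo.quadSimilarityGroup (F := F) (Cfsg.quadFormPlus m F)) :
    Matrix.GeneralLinearGroup.map (σ : F →+* F) g ∈
      Cfsg.Geo.quadSimilarityGroup (F := F) (Cfsg.quadFormPlus m F) := by
  obtain ⟨c, hc⟩ := hg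
  refine ⟨Units.map (σ : F →+* F).toMonoidHom c, fun v => ?_⟩
  have hv : v = fun k => σ (σ.symm (v k)) := by
    funext k
    simp
  rw [hv, map_mulVec, Q_map, Q_map, hc, map_mul]
  rfl

/-- entrywise field automorphism on similarities -/
def mapGO (σ : F ≃+* F) : GO m F →* GO m F where
  toFun g := ⟨Matrix.GeneralLinearGroup.map (σ : F →+* F) g, map_mem_GO σ g.2⟩
  map_one' := Subtype.ext (map_one _)
  map_mul' _ _ := Subtype.ext (map_mul _ _ _)

theorem mapGO_coe (σ : F ≃+* F) (g : GO m F) :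
    (((mapGO σ g : GO m F) : GL (Fin m ⊕ Fin m) F) : Matrix (Fin m ⊕ Fin m) (Fin m ⊕ Fin m) F) =
      ((g : GL (Fin m ⊕ Fin m) F) : Matrix (Fin m ⊕ Fin m) (Fin m ⊕ Fin m) F).map σ := rfl

/-- `g` is a scalar matrix -/
def IsScalar (g : GO m F) : Prop :=
  ∃ c : F, ∀ x : Fin m ⊕ Fin m → F,
    ((g : GL (Fin m ⊕ Fin m) F) : Matrix (Fin m ⊕ Fin m) (Fin m ⊕ Fin m) F) *ᵥ x = c • x

/-- twisted powers `g σ(g) ⋯ σ^{k-1}(g)` -/
def tw (σ : F ≃+* F) (g : GO m F) : ℕ → GO m F
  | 0 => 1
  | k + 1 => g * mapGO σ (tw σ g k)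

theorem tw_zero (σ : F ≃+* F) (g : GO m F) : tw σ g 0 = 1 := rfl

theorem tw_succ (σ : F ≃+* F) (g : GO m F) (k : ℕ) :
    tw σ g (k + 1) = g * mapGO σ (tw σ g k) := rfl

/-! ### `σ`-images of subspaces -/

variable {ι : Type} [Fintype ι]

/-- the image of a subspace under the entrywise field automorphism -/
def sigU (σ : F ≃+* F) (U : Submodule F (ι → F)) : Submodule F (ι → F) where
  carrier := {v | (fun i => σ.symm (v i)) ∈ U}
  add_mem' := by
    intro a b ha hb
    have e : (fun i => σ.symm ((a + b) i)) = (fun i => σ.symm (a i)) + (fun i => σ.symm (b i)) := by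
      funext i
      simp
    show (fun i => σ.symm ((a + b) i)) ∈ U
    rw [e]
    exact U.add_mem ha hb
  zero_mem' := by
    show (fun i => σ.symm ((0 : ι → F) i)) ∈ U
    have e : (fun i => σ.symm ((0 : ι → F) i)) = 0 := by
      funext i
      simp
    rw [e]
    exact U.zero_mem
  smul_mem' := by
    intro c a ha
    have e : (fun i => σ.symm ((c • a) i)) = σ.symm c • (fun i => σ.symm (a i)) := by
      funext i
      simp
    show (fun i => σ.symm ((c • a) i)) ∈ U
    rw [e]
    exact U.smul_mem _ ha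

theorem mem_sigU (σ : F ≃+* F) (U : Submodule F (ι → F)) (v : ι → F) :
    v ∈ sigU σ U ↔ (fun i => σ.symm (v i)) ∈ U := Iff.rfl

theorem map_mem_sigU (σ : F ≃+* F) (U : Submodule F (ι → F)) {u : ι → F} (hu : u ∈ U) :
    (fun i => σ (u i)) ∈ sigU σ U := by
  rw [mem_sigU]
  have e : (fun i => σ.symm (σ (u i))) = u := by
    funext i
    simp
  rw [e]
  exact hu

theorem sigU_inf (σ : F ≃+* F) (U W : Submodule F (ι → F)) :
    sigU σ (U ⊓ W) = sigU σ U ⊓ sigU σ W := by
  ext v
  simp only [mem_sigU, Submodule.mem_inf]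

theorem sigU_mono (σ : F ≃+* F) {U W : Submodule F (ι → F)} (h : U ≤ W) :
    sigU σ U ≤ sigU σ W := fun _ hv => h hv

/-- the entrywise map is a bijection `U → σ(U)` -/
def sigEquiv (σ : F ≃+* F) (U : Submodule F (ι → F)) : ↥U ≃ ↥(sigU σ U) where
  toFun u := ⟨fun i => σ (u.1 i), map_mem_sigU σ U u.2⟩
  invFun v := ⟨fun i => σ.symm (v.1 i), v.2⟩
  left_inv u := by
    apply Subtype.ext
    funext i
    simp
  right_inv v := by
    apply Subtype.ext
    funext i
    simp

theorem finrank_sigU [Finite F] (σ : F ≃+* F) (U : Submodule F (ι → F)) :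
    finrank F ↥(sigU σ U) = finrank F ↥U := by
  have h1 : Nat.card ↥(sigU σ U) = Nat.card ↥U := Nat.card_congr (sigEquiv σ U).symm
  rw [Module.natCard_eq_pow_finrank (K := F) (V := ↥(sigU σ U)),
    Module.natCard_eq_pow_finrank (K := F) (V := ↥U)] at h1
  exact Nat.pow_right_injective (Finite.one_lt_card : 1 < Nat.card F) h1

theorem sigU_sigU_symm (σ : F ≃+* F) (U : Submodule F (ι → F)) :
    sigU σ (sigU σ.symm U) = U := by
  ext v
  simp only [mem_sigU]
  have e : (fun i => σ.symm.symm (σ.symm (v i))) = v := by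
    funext i
    simp
  rw [e]

/-- `σ(g U) = σ(g) σ(U)` -/
theorem sigU_map [DecidableEq ι] (σ : F ≃+* F) (g : Matrix ι ι F) (U : Submodule F (ι → F)) :
    sigU σ (U.map (Matrix.toLin' g)) = (sigU σ U).map (Matrix.toLin' (g.map σ)) := by
  ext v
  simp only [mem_sigU, Submodule.mem_map, Matrix.toLin'_apply]
  constructor
  · rintro ⟨u, hu, hv⟩
    refine ⟨fun i => σ (u i), ?_, ?_⟩
    · have e : (fun i => σ.symm (σ (u i))) = u := by
        funext i
        simp
      rw [e]
      exact hu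
    · have h1 := (RingHom.map_mulVec (σ : F →+* F) g u)
      funext i
      have h2 := congrFun hv i
      have h3 := h1 i
      simp only [RingHom.coe_coe] at h3
      show (g.map σ *ᵥ fun i => σ (u i)) i = v i
      have h4 : (g.map σ *ᵥ fun i => σ (u i)) i = σ ((g *ᵥ u) i) := h3.symm
      rw [h4, h2]
      simp
  · rintro ⟨w, hw, hv⟩
    refine ⟨fun i => σ.symm (w i), hw, ?_⟩
    have h1 := (RingHom.map_mulVec (σ.symm : F →+* F) (g.map σ) w)
    funext i
    have h3 := h1 i
    simp only [RingHom.coe_coe] at h3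
    rw [← hv]
    have e : (g.map σ).map (σ.symm : F →+* F) = g := by
      ext a b
      simp
    rw [h3]
    congr 2
    exact e.symm

/-! ### the field automorphism preserves the two classes -/

open Cfsg.Agent.Lib.Helper44.MaxTS Cfsg.Agent.Lib.Helper44.MaxTS3 Cfsg.Agent.Lib.Helper44.NegPairs
  Cfsg.Agent.Lib.Helper44.QSpace

theorem finrank_plus (m : ℕ) : finrank F (Fin m ⊕ Fin m → F) = 2 * m := by
  rw [Module.finrank_fintype_fun_eq_card, Fintype.card_sum, Fintype.card_fin]
  ring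

theorem ts_sigU [Finite F] (σ : F ≃+* F) {U : Submodule F (Fin m ⊕ Fin m → F)}
    (hU : TS (plusQ m F) m U) : TS (plusQ m F) m (sigU σ U) := by
  refine ⟨by rw [finrank_sigU]; exact hU.1, ?_⟩
  intro v hv
  have h1 : Cfsg.quadFormPlus m F (fun k => σ.symm (v k)) = 0 := hU.2 _ hv
  have hv' : v = fun k => σ (σ.symm (v k)) := by
    funext k
    simp
  rw [hv']
  have e := congrFun (coe_plusQ (F := F) m) (fun k => σ (σ.symm (v k)))
  rw [e, Q_map, h1, map_zero]

theorem sigU_std (σ : F ≃+* F) :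
    sigU σ (LinearMap.ker (LinearMap.funLeft F F (Sum.inr : Fin m → Fin m ⊕ Fin m))) =
      LinearMap.ker (LinearMap.funLeft F F (Sum.inr : Fin m → Fin m ⊕ Fin m)) := by
  ext v
  simp only [mem_sigU, LinearMap.mem_ker]
  constructor
  · intro h
    funext i
    have h1 := congrFun h i
    simp only [LinearMap.funLeft_apply, Pi.zero_apply] at h1 ⊢
    simpa using h1
  · intro h
    funext i
    have h1 := congrFun h i
    simp only [LinearMap.funLeft_apply, Pi.zero_apply] at h1 ⊢
    simp [h1]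

/-- the field automorphism maps every maximal totally singular subspace into its own class -/
theorem even_sigU [Finite F] (σ : F ≃+* F) {U : Submodule F (Fin m ⊕ Fin m → F)}
    (hU : TS (plusQ m F) m U) : Even (m - finrank F ↥(U ⊓ sigU σ U)) := by
  have h0 := ts_std (F := F) m
  have h1 := ts_parity (sep_plusQ (F := F) m) (finrank_plus m) _ hU (ts_sigU σ hU) h0 rfl
  have key : ∀ U₀ : Submodule F (Fin m ⊕ Fin m → F), sigU σ U₀ = U₀ →
      finrank F ↥(U₀ ⊓ sigU σ U) = finrank F ↥(U₀ ⊓ U) := by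
    intro U₀ h
    have e : U₀ ⊓ sigU σ U = sigU σ (U₀ ⊓ U) := by rw [sigU_inf, h]
    rw [e, finrank_sigU]
  have h2 := key _ (sigU_std (m := m) σ)
  rw [h2] at h1
  rw [Nat.even_iff]
  omega

end Cfsg.Agent.Lib.Helper44.OFld0
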