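import Mathlib
import Cfsg.Agent.Lib.Helper44.OFld0

set_option autoImplicit false

/-! Interface for S2736: the class character `ε` of the similarity group of the plus form. -/

namespace Cfsg.Agent.Lib.Helper44.OFld1

open Matrix Module
open Cfsg.Agent.Lib.Helper44.OFld0 Cfsg.Agent.Lib.Helper44.MaxTS Cfsg.Agent.Lib.Helper44.NegPairs

universe u

variable {F : Type u} [Field F] {m : ℕ}

/-- `ε` is the character of `GO⁺_{2m}` whose kernel is the group of similarities preserving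
the two classes of maximal totally singular subspaces. -/
structure IsEps (ε : GO m F →* Multiplicative (ZMod 2)) : Prop where
  pres : ∀ g : GO m F, ε g = 1 ↔ Cfsg.PreservesSingularClasses (Cfsg.quadFormPlus m F)
    ((g : GL (Fin m ⊕ Fin m) F) : Matrix (Fin m ⊕ Fin m) (Fin m ⊕ Fin m) F)
  map : ∀ (σ : F ≃+* F) (g : GO m F), ε (mapGO σ g) = ε g
  scalar : ∀ g : GO m F, IsScalar g → ε g = 1
  refl : ∀ v : Fin m ⊕ Fin m → F, Cfsg.quadFormPlus m F v ≠ 0 → ∀ g : GO m F,
    ((g : GL (Fin m ⊕ Fin m) F) : Matrix (Fin m ⊕ Fin m) (Fin m ⊕ Fin m) F) =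
      Cfsg.reflectionMatrix (Cfsg.quadFormPlus m F) v → ε g ≠ 1
  par : ∀ (g : GO m F) (U : Submodule F (Fin m ⊕ Fin m → F)), TS (plusQ m F) m U →
    (ε g = 1 ↔ Even (m - finrank F ↥(U ⊓ U.map (Matrix.toLin'
      ((g : GL (Fin m ⊕ Fin m) F) : Matrix (Fin m ⊕ Fin m) (Fin m ⊕ Fin m) F)))))

end Cfsg.Agent.Lib.Helper44.OFld1
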