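import Mathlib
import Cfsg.Agent.Lib.Helper44.OFld1
import Cfsg.Agent.Lib.Helper44.QClass
import Cfsg.Agent.Lib.Helper43.H90GL

set_option autoImplicit false

/-! Piece statements for S2736 (field / graph-field coset theorem of `PΩ⁺_{2m}`), as `Prop`s.
Each piece is proved in its own file as `theorem main : OFldStmt.<Name>.{u} := ...`. -/

namespace Cfsg.Agent.Lib.Helper44.OFldStmt

open Matrix Module QuadraticMap
open Cfsg.Agent.Lib.Helper43.OPlAut Cfsg.Agent.Lib.Helper45.OmegaAut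
  Cfsg.Agent.Lib.Helper43.H90Fin
open Cfsg.Agent.Lib.Helper44.OFld0 Cfsg.Agent.Lib.Helper44.OFld1 Cfsg.Agent.Lib.Helper44.MaxTS
  Cfsg.Agent.Lib.Helper44.NegPairs Cfsg.Agent.Lib.Helper44.QSpace
  Cfsg.Agent.Lib.Helper44.QClass

universe u

/-! ### [A2] the standard field automorphisms `cσ` and `Phi` -/

def CσOne : Prop := ∀ (F : Type u) [Field F] (m : ℕ),
  (cσ (RingEquiv.refl F) : MulAut (Cfsg.POmega F (Cfsg.quadFormPlus m F))) = 1

def CσMul : Prop := ∀ (F : Type u) [Field F] (m : ℕ) (σ τ : RingAut F),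
  (cσ (σ * τ) : MulAut (Cfsg.POmega F (Cfsg.quadFormPlus m F))) = cσ σ * cσ τ

def CσMulPhi : Prop := ∀ (F : Type u) [Field F] (m : ℕ) (σ : F ≃+* F) (g : GO m F),
  cσ σ * Phi (Cfsg.quadFormPlus m F) g = Phi (Cfsg.quadFormPlus m F) (mapGO σ g) * cσ σ

def PowEq : Prop := ∀ (F : Type u) [Field F] (m : ℕ) (σ : RingAut F) (g : GO m F) (k : ℕ),
  (Phi (Cfsg.quadFormPlus m F) g * cσ σ) ^ k =
    Phi (Cfsg.quadFormPlus m F) (tw σ g k) * cσ (σ ^ k)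

/-! ### [A3] the kernel of `(g, σ) ↦ Phi g * cσ σ` -/

def KerPhiCσ : Prop := ∀ (F : Type u) [Field F] [Fintype F] (m : ℕ), 3 ≤ m →
  ∀ (g : GO m F) (σ : F ≃+* F), Phi (Cfsg.quadFormPlus m F) g * cσ σ = 1 →
    σ = RingEquiv.refl F ∧ IsScalar g

/-! ### [A4] the class character -/

def ExistsEps : Prop := ∀ (F : Type u) [Field F] [Fintype F] (m : ℕ), 1 ≤ m →
  ∃ ε : GO m F →* Multiplicative (ZMod 2), IsEps ε

/-! ### [A6] unfolding the Prelude predicates -/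

def FieldAutEq : Prop := ∀ (F : Type u) [Field F] (m : ℕ) (σ : F ≃+* F)
  (φ : MulAut (Cfsg.POmega F (Cfsg.quadFormPlus m F))),
  Cfsg.IsFieldAutPOmegaOf (Cfsg.quadFormPlus m F) σ φ → φ = cσ σ

/-- the reflection matrix of a `σ`-invariant form in a `σ`-fixed vector is `σ`-fixed -/
def ReflMap : Prop := ∀ (F : Type u) [Field F] (ι : Type) [Fintype ι] [DecidableEq ι]
  (σ : F ≃+* F) (P : (ι → F) → F), (∀ v : ι → F, P (fun i => σ (v i)) = σ (P v)) →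
  ∀ w : ι → F, (∀ i, σ (w i) = w i) →
    (Cfsg.reflectionMatrix P w).map σ = Cfsg.reflectionMatrix P w

def ReflData : Prop := ∀ (F : Type u) [Field F] (m : ℕ) (v : Fin m ⊕ Fin m → F),
  Cfsg.quadFormPlus m F v ≠ 0 → ∀ (r : GL (Fin m ⊕ Fin m) F),
  (r : Matrix (Fin m ⊕ Fin m) (Fin m ⊕ Fin m) F) =
      Cfsg.reflectionMatrix (Cfsg.quadFormPlus m F) v →
  ∀ (γ : MulAut (Cfsg.POmega F (Cfsg.quadFormPlus m F))),
  Cfsg.IsInducedBySemilinearPOmega (Cfsg.quadFormPlus m F) r (RingEquiv.refl F) γ →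
  ∀ (σ : F ≃+* F), (∀ i, σ (v i) = v i) →
    ∃ ρ : GO m F, (ρ : GL (Fin m ⊕ Fin m) F) = r ∧
      γ = Phi (Cfsg.quadFormPlus m F) ρ ∧ mapGO σ ρ = ρ

def InndiagEq : Prop := ∀ (F : Type u) [Field F] (m : ℕ)
  (ε : GO m F →* Multiplicative (ZMod 2)), IsEps ε →
    Cfsg.inndiagPOmegaPlus m F = ε.ker.map (Phi (Cfsg.quadFormPlus m F))

/-! ### [Ma] Hilbert 90: a twisted cocycle gives a `σ`-invariant form -/

def ExistsForm : Prop := ∀ (F : Type u) [Field F] [Fintype F] (m : ℕ), 1 ≤ m →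
  ∀ (σ : RingAut F) (a : GO m F), IsScalar (tw σ a (orderOf σ)) →
    ∃ (μ d : Fˣ) (h : GL (Fin m ⊕ Fin m) F),
      (μ : F) • ((a : GL (Fin m ⊕ Fin m) F) : Matrix (Fin m ⊕ Fin m) (Fin m ⊕ Fin m) F) *
          ((h : Matrix (Fin m ⊕ Fin m) (Fin m ⊕ Fin m) F).map σ) =
        (h : Matrix (Fin m ⊕ Fin m) (Fin m ⊕ Fin m) F) ∧
      ∀ v : Fin m ⊕ Fin m → F,
        (d : F) * Cfsg.quadFormPlus m F
            ((h : Matrix (Fin m ⊕ Fin m) (Fin m ⊕ Fin m) F) *ᵥ (fun i => σ (v i))) =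
          σ ((d : F) * Cfsg.quadFormPlus m F
            ((h : Matrix (Fin m ⊕ Fin m) (Fin m ⊕ Fin m) F) *ᵥ v))

/-! ### [Mb] descent of a `σ`-invariant quadratic form to the fixed field -/

def ExistsDescent : Prop := ∀ (F : Type u) [Field F] (ι : Type) [Fintype ι] [DecidableEq ι]
  (σ : RingAut F) (P : QuadraticForm F (ι → F)),
  (∀ v : ι → F, P (fun i => σ (v i)) = σ (P v)) →
    ∃ P₀ : QuadraticForm ↥(fixF σ) (ι → ↥(fixF σ)),
      (∀ v : ι → ↥(fixF σ), ((P₀ v : ↥(fixF σ)) : F) = P (fun i => ((v i : ↥(fixF σ)) : F))) ∧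
      (Sep P → Sep P₀)

/-! ### [C1] the class character of a cocycle through the `σ`-twist of a subspace -/

def EpsParity : Prop := ∀ (F : Type u) [Field F] [Fintype F] (m : ℕ), 1 ≤ m →
  ∀ (ε : GO m F →* Multiplicative (ZMod 2)), IsEps ε →
  ∀ (σ : RingAut F) (a : GO m F) (μ : Fˣ) (h : GL (Fin m ⊕ Fin m) F),
    (μ : F) • ((a : GL (Fin m ⊕ Fin m) F) : Matrix (Fin m ⊕ Fin m) (Fin m ⊕ Fin m) F) *
        ((h : Matrix (Fin m ⊕ Fin m) (Fin m ⊕ Fin m) F).map σ) =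
      (h : Matrix (Fin m ⊕ Fin m) (Fin m ⊕ Fin m) F) →
  ∀ U : Submodule F (Fin m ⊕ Fin m → F),
    TS (plusQ m F) m (U.map (Matrix.toLin' (h : Matrix (Fin m ⊕ Fin m) (Fin m ⊕ Fin m) F))) →
      (ε a = 1 ↔ Even (m - finrank F ↥(U ⊓ sigU σ U)))

/-! ### [Mc] the type of the descended form through the `σ`-twist of a subspace -/

def HypParity : Prop := ∀ (F : Type u) [Field F] [Fintype F] (ι : Type) [Fintype ι]
  [DecidableEq ι] (m : ℕ), Fintype.card ι = 2 * m →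
  ∀ (σ : RingAut F) (P : QuadraticForm F (ι → F)), Sep P →
  (∀ v : ι → F, P (fun i => σ (v i)) = σ (P v)) →
  ∀ (P₀ : QuadraticForm ↥(fixF σ) (ι → ↥(fixF σ))),
  (∀ v : ι → ↥(fixF σ), ((P₀ v : ↥(fixF σ)) : F) = P (fun i => ((v i : ↥(fixF σ)) : F))) →
  ∀ U : Submodule F (ι → F), TS P m U →
  (∃ e f : Fin m → (ι → ↥(fixF σ)), IsHyp P₀ e f) →
    Even (m - finrank F ↥(U ⊓ sigU σ U))

def EllParity : Prop := ∀ (F : Type u) [Field F] [Fintype F] (ι : Type) [Fintype ι]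
  [DecidableEq ι] (k : ℕ), Fintype.card ι = 2 * (k + 1) →
  ∀ (σ : RingAut F) (P : QuadraticForm F (ι → F)), Sep P →
  (∀ v : ι → F, P (fun i => σ (v i)) = σ (P v)) →
  ∀ (P₀ : QuadraticForm ↥(fixF σ) (ι → ↥(fixF σ))),
  (∀ v : ι → ↥(fixF σ), ((P₀ v : ↥(fixF σ)) : F) = P (fun i => ((v i : ↥(fixF σ)) : F))) →
  ∀ U : Submodule F (ι → F), TS P (k + 1) U →
  ∀ (e f : Fin k → (ι → ↥(fixF σ))) (x y : ι → ↥(fixF σ)) (ζ : ↥(fixF σ)),
    IsHyp P₀ e f → IsEll P₀ x y ζ →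
    (∀ i, polar P₀ (e i) x = 0 ∧ polar P₀ (e i) y = 0 ∧ polar P₀ (f i) x = 0 ∧
      polar P₀ (f i) y = 0) →
    ¬ Even (k + 1 - finrank F ↥(U ⊓ sigU σ U))

/-! ### [M] twisted conjugacy (helper44) -/

def TwistedConj : Prop := ∀ (F : Type u) [Field F] [Fintype F] (m : ℕ), 1 ≤ m →
  ∀ (ε : GO m F →* Multiplicative (ZMod 2)), IsEps ε →
  ∀ (σ : RingAut F) (a b : GO m F), IsScalar (tw σ a (orderOf σ)) →
    IsScalar (tw σ b (orderOf σ)) → ε a = ε b →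
    ∃ u z : GO m F, ε u = 1 ∧ IsScalar z ∧ b = z * (u * a * (mapGO σ u)⁻¹)

end Cfsg.Agent.Lib.Helper44.OFldStmt
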