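import Mathlib
import Cfsg.Agent.Lib.Helper44.MFld0
import Cfsg.Agent.Lib.Helper44.OFldStmt
import Cfsg.Prelude.Def_KGroupFacts

set_option autoImplicit false

/-! Piece statements for S2737 (field coset theorem of `PΩ⁻_{2m+2}`), as `Prop`s.
Each piece is proved in its own file as `theorem main : <hypothesis pieces> → MFldStmt.<Name>.{u}`. -/

namespace Cfsg.Agent.Lib.Helper44.MFldStmt

open Matrix Module QuadraticMap
open Cfsg.Agent.Lib.Helper45.OmegaAut Cfsg.Agent.Lib.Helper43.H90Fin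
open Cfsg.Agent.Lib.Helper44.MFld0 Cfsg.Agent.Lib.Helper44.MaxTS
  Cfsg.Agent.Lib.Helper44.NegPairs Cfsg.Agent.Lib.Helper44.QSpace
  Cfsg.Agent.Lib.Helper44.QClass

universe u

/-- the index type of the minus form -/
abbrev MI (m : ℕ) : Type := (Fin m ⊕ Fin m) ⊕ Fin 2

/-- anisotropy of the binary part -/
abbrev Aniso {F : Type u} [Field F] (a b : F) : Prop :=
  ∀ z₁ z₂ : F, z₁ ^ 2 + a * z₁ * z₂ + b * z₂ ^ 2 = 0 → z₁ = 0 ∧ z₂ = 0

/-! ### [GA] semilinear basics for a general form -/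

def FieldAutEqQ : Prop := ∀ (F : Type u) [Field F] (ι : Type) [Fintype ι] [DecidableEq ι]
  (Q : (ι → F) → F) (σ : F ≃+* F) (h : InvS Q σ) (φ : MulAut (Cfsg.POmega F Q)),
  Cfsg.IsFieldAutPOmegaOf Q σ φ → φ = csq Q σ h

def CsMulPhiQ : Prop := ∀ (F : Type u) [Field F] (ι : Type) [Fintype ι] [DecidableEq ι]
  (Q : (ι → F) → F) (σ : F ≃+* F) (h : InvS Q σ) (g : GOq Q),
  csq Q σ h * Phi Q g = Phi Q (mapGOq Q σ h g) * csq Q σ h

def PowEqQ : Prop := ∀ (F : Type u) [Field F] (ι : Type) [Fintype ι] [DecidableEq ι]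
  (Q : (ι → F) → F) (σ : F ≃+* F) (h : InvS Q σ) (g : GOq Q) (k : ℕ),
  (Phi Q g * csq Q σ h) ^ k = Phi Q (twq σ h g k) * csq Q σ h ^ k

def InducedEq : Prop := ∀ (F : Type u) [Field F] (ι : Type) [Fintype ι] [DecidableEq ι]
  (Q : (ι → F) → F) (g : GL ι F) (τ : F ≃+* F) (h : Cfsg.IsSemisimilarityPair Q g τ)
  (β : MulAut (Cfsg.POmega F Q)),
  Cfsg.IsInducedBySemilinearPOmega Q g τ β → β = semiP g τ h

def SemiConj : Prop := ∀ (F : Type u) [Field F] (ι : Type) [Fintype ι] [DecidableEq ι]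
  (Q : (ι → F) → F) (g : GL ι F) (τ : F ≃+* F) (h : Cfsg.IsSemisimilarityPair Q g τ)
  (s : GOq Q), ∃ s' : GOq Q,
    (s' : GL ι F) = g * Matrix.GeneralLinearGroup.map (τ : F →+* F) (s : GL ι F) * g⁻¹ ∧
    semiP g τ h * Phi Q s * (semiP g τ h)⁻¹ = Phi Q s'

/-! ### [KM] faithfulness for the minus form -/

def CsOrderMinus : Prop := ∀ (F : Type u) [Field F] [Fintype F] (m : ℕ), 3 ≤ m →
  ∀ (a b : F), Aniso a b → ∀ (σ : RingAut F) (h : InvS (Cfsg.quadFormMinus m F a b) σ),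
    orderOf (csq (Cfsg.quadFormMinus m F a b) σ h) = orderOf σ

def KerPhiMinus : Prop := ∀ (F : Type u) [Field F] [Fintype F] (m : ℕ), 3 ≤ m →
  ∀ (a b : F), Aniso a b → ∀ g : GOq (Cfsg.quadFormMinus m F a b),
    Phi (Cfsg.quadFormMinus m F a b) g = 1 → IsScalarq g

/-! ### [MB] basics of the minus form -/

def MinusInv : Prop := ∀ (F : Type u) [Field F] (m : ℕ) (a b : F) (σ : F ≃+* F),
  σ a = a → σ b = b → InvS (Cfsg.quadFormMinus m F a b) σ

def SepMinus : Prop := ∀ (F : Type u) [Field F] [Fintype F] (m : ℕ) (a b : F),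
  Aniso a b → Sep (minusQ m F a b)

def IsoMinus : Prop := ∀ (F : Type u) [Field F] [Fintype F] (m : ℕ) (a b a' b' : F),
  Aniso a b → Aniso a' b' → ∃ j : GL (MI m) F, ∀ v : MI m → F,
    Cfsg.quadFormMinus m F a' b' ((j : Matrix (MI m) (MI m) F) *ᵥ v) =
      Cfsg.quadFormMinus m F a b v

def InndiagLeRange : Prop := ∀ (F : Type u) [Field F] (m : ℕ) (a b : F),
  Cfsg.inndiagPOmegaMinus m F a b ≤ (Phi (Cfsg.quadFormMinus m F a b)).range

/-! ### [EF] Hilbert 90 for a general invariant form -/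

def ExistsFormQ : Prop := ∀ (F : Type u) [Field F] [Fintype F] (ι : Type) [Fintype ι]
  [DecidableEq ι] (Q : QuadraticForm F (ι → F)), (∃ v, Q v ≠ 0) →
  ∀ (σ : RingAut F) (h : InvS (⇑Q) σ) (g : GOq (⇑Q)), IsScalarq (twq σ h g (orderOf σ)) →
    ∃ (μ d : Fˣ) (H : GL ι F),
      (μ : F) • ((g : GL ι F) : Matrix ι ι F) * ((H : Matrix ι ι F).map σ) = (H : Matrix ι ι F) ∧
      ∀ v : ι → F, (d : F) * Q ((H : Matrix ι ι F) *ᵥ (fun i => σ (v i))) =
        σ ((d : F) * Q ((H : Matrix ι ι F) *ᵥ v))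

/-! ### [NH] forms of a minus-type form are not hyperbolic -/

def NonHypMinus : Prop := ∀ (F : Type u) [Field F] [Fintype F] (m : ℕ) (a b : F), Aniso a b →
  ∀ (σ : RingAut F) (d : Fˣ) (H : GL (MI m) F)
    (P₀ : QuadraticForm ↥(fixF σ) (MI m → ↥(fixF σ))),
    (∀ v : MI m → ↥(fixF σ), ((P₀ v : ↥(fixF σ)) : F) =
      (d : F) * Cfsg.quadFormMinus m F a b
        ((H : Matrix (MI m) (MI m) F) *ᵥ (fun i => ((v i : ↥(fixF σ)) : F)))) →
    ¬ ∃ e f : Fin (m + 1) → (MI m → ↥(fixF σ)), IsHyp P₀ e f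

/-! ### [RK] a quadratic extension contains a root -/

def RootK : Prop := ∀ (F : Type u) [Field F] [Fintype F] (a b : F), Aniso a b →
  ∀ (K : Type u) [Field K] [Algebra F K], Module.finrank F K = 2 →
    ∃ ρ : K, ρ ^ 2 + algebraMap F K a * ρ + algebraMap F K b = 0

/-! ### [GE] the class character of a hyperbolic form -/

def GenEps : Prop := ∀ (K : Type u) [Field K] [Fintype K] (ι : Type) [Fintype ι] [DecidableEq ι]
  (Q : QuadraticForm K (ι → K)) (n : ℕ), Sep Q → Fintype.card ι = 2 * n →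
  (∃ U₀ : Submodule K (ι → K), TS Q n U₀) →
  ∃ ε : GOq (⇑Q) →* Multiplicative (ZMod 2),
    (∀ g : GOq (⇑Q), ε g = 1 ↔
      Cfsg.PreservesSingularClasses (⇑Q) ((g : GL ι K) : Matrix ι ι K)) ∧
    (∀ v : ι → K, Q v ≠ 0 → ∀ g : GOq (⇑Q),
      ((g : GL ι K) : Matrix ι ι K) = Cfsg.reflectionMatrix (⇑Q) v → ε g ≠ 1)

/-! ### [MC] the class character of the minus form through a quadratic extension -/

def MinusCharK : Prop := ∀ (F : Type u) [Field F] [Fintype F] (m : ℕ) (a b : F), Aniso a b →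
  ∀ (K : Type u) [Field K] [Algebra F K], Module.finrank F K = 2 →
  ∃ χ : GOq (Cfsg.quadFormMinus m F a b) →* Multiplicative (ZMod 2),
    (∀ g : GOq (Cfsg.quadFormMinus m F a b), χ g = 1 ↔
      Cfsg.PreservesSingularClasses
        (Cfsg.quadFormMinus m K (algebraMap F K a) (algebraMap F K b))
        (((g : GL (MI m) F) : Matrix (MI m) (MI m) F).map (algebraMap F K))) ∧
    (∀ w : MI m → F, Cfsg.quadFormMinus m F a b w ≠ 0 →
      ∀ ρ : GOq (Cfsg.quadFormMinus m F a b),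
        ((ρ : GL (MI m) F) : Matrix (MI m) (MI m) F) =
          Cfsg.reflectionMatrix (Cfsg.quadFormMinus m F a b) w → χ ρ ≠ 1)

/-! ### [II2] characteristic 2: `Inndiag = Inn` -/

def InndiagInn2 : Prop := ∀ (F : Type u) [Field F] [Fintype F] (m : ℕ), 3 ≤ m →
  ∀ (a b : F), Aniso a b → (2 : F) = 0 →
    Cfsg.inndiagPOmegaMinus m F a b = Cfsg.Inn (Cfsg.POmega F (Cfsg.quadFormMinus m F a b))

/-! ### [NO] odd characteristic: semisimilarities normalise `Inndiag` -/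

def NormalOdd : Prop := ∀ (F : Type u) [Field F] [Fintype F] (m : ℕ) (a b : F), Aniso a b →
  (2 : F) ≠ 0 → ∀ (g : GL (MI m) F) (τ : F ≃+* F)
    (h : Cfsg.IsSemisimilarityPair (Cfsg.quadFormMinus m F a b) g τ),
    ∀ δ ∈ Cfsg.inndiagPOmegaMinus m F a b,
      semiP g τ h * δ * (semiP g τ h)⁻¹ ∈ Cfsg.inndiagPOmegaMinus m F a b

/-! ### [PC] isometric forms have isomorphic `PΩ` -/

def PomegaCongr : Prop := ∀ (F : Type u) [Field F] (ι : Type) [Fintype ι] [DecidableEq ι]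
  (Q Q' : (ι → F) → F) (j : GL ι F), (∀ v : ι → F, Q' ((j : Matrix ι ι F) *ᵥ v) = Q v) →
  ∃ ψ₀ : Cfsg.POmega F Q ≃* Cfsg.POmega F Q', ∀ (s : GOq Q) (s' : GOq Q'),
    (s' : GL ι F) = j * (s : GL ι F) * j⁻¹ →
      (ψ₀.symm.trans (Phi Q s)).trans ψ₀ = Phi Q' s'

/-! ### [ITO] odd characteristic: transport of `Inndiag` between two minus forms -/

def IsoTransportOdd : Prop := ∀ (F : Type u) [Field F] [Fintype F] (m : ℕ) (a b a' b' : F),
  Aniso a b → Aniso a' b' → (2 : F) ≠ 0 →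
  ∃ ψ₀ : Cfsg.POmega F (Cfsg.quadFormMinus m F a b) ≃*
      Cfsg.POmega F (Cfsg.quadFormMinus m F a' b'),
    ∀ β : MulAut (Cfsg.POmega F (Cfsg.quadFormMinus m F a b)),
      β ∈ Cfsg.inndiagPOmegaMinus m F a b ↔
        (ψ₀.symm.trans β).trans ψ₀ ∈ Cfsg.inndiagPOmegaMinus m F a' b'

/-! ### assemblies (helper44) -/

def TwistedConjMinus : Prop := ∀ (F : Type u) [Field F] [Fintype F] (m : ℕ) (a b : F),
  Aniso a b → ∀ (σ : RingAut F) (h : InvS (Cfsg.quadFormMinus m F a b) σ)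
    (g : GOq (Cfsg.quadFormMinus m F a b)), IsScalarq (twq σ h g (orderOf σ)) →
    ∃ (u z ρ : GOq (Cfsg.quadFormMinus m F a b)) (w : MI m → F),
      IsScalarq z ∧ Cfsg.quadFormMinus m F a b w ≠ 0 ∧
      ((ρ : GL (MI m) F) : Matrix (MI m) (MI m) F) =
        Cfsg.reflectionMatrix (Cfsg.quadFormMinus m F a b) w ∧
      g = z * (u * (mapGOq _ σ h u)⁻¹) ∧
      g = z * (u * ρ * (mapGOq _ σ h (u * ρ))⁻¹)

def MinusAdj : Prop := ∀ (F : Type u) [Field F] [Fintype F] (m : ℕ) (a b : F), Aniso a b →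
  ∀ (u ρ : GOq (Cfsg.quadFormMinus m F a b)) (w : MI m → F),
    Cfsg.quadFormMinus m F a b w ≠ 0 →
    ((ρ : GL (MI m) F) : Matrix (MI m) (MI m) F) =
      Cfsg.reflectionMatrix (Cfsg.quadFormMinus m F a b) w →
    Phi (Cfsg.quadFormMinus m F a b) u ∈ Cfsg.inndiagPOmegaMinus m F a b ∨
      Phi (Cfsg.quadFormMinus m F a b) (u * ρ) ∈ Cfsg.inndiagPOmegaMinus m F a b

def TransportT : Prop := ∀ (F : Type u) [Field F] [Fintype F] (m : ℕ), 3 ≤ m →
  ∀ (a b a' b' : F), Aniso a b → Aniso a' b' →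
  ∀ (ψ : Cfsg.POmega F (Cfsg.quadFormMinus m F a b) ≃*
      Cfsg.POmega F (Cfsg.quadFormMinus m F a' b'))
    (β : MulAut (Cfsg.POmega F (Cfsg.quadFormMinus m F a b))),
      β ∈ Cfsg.inndiagPOmegaMinus m F a b ↔
        (ψ.symm.trans β).trans ψ ∈ Cfsg.inndiagPOmegaMinus m F a' b'

end Cfsg.Agent.Lib.Helper44.MFldStmt
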