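import Mathlib
import Cfsg.Agent.Lib.Helper44.OMat
import Cfsg.Agent.Lib.Helper44.ReflProd
import Cfsg.Agent.Lib.Helper44.QDiag

set_option autoImplicit false

namespace Cfsg.Agent.Lib.Helper44.NegOne

open Module QuadraticMap Matrix
open Cfsg.Agent.Lib.Helper44.QSpace Cfsg.Agent.Lib.Helper44.OMat Cfsg.Agent.Lib.Helper44.ReflProd
open Cfsg.Agent.Lib.Helper44.QDiag Cfsg.Agent.Lib.Helper44.Gram Cfsg.Agent.Lib.Helper44.OGroup

variable {F : Type*} [Field F] {ι : Type} [Fintype ι] [DecidableEq ι]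

/-- Gram determinant of a diagonalising basis. -/
theorem det_diag_basis' {V : Type*} [AddCommGroup V] [Module F V] {n : ℕ}
    (Q : QuadraticForm F V) (b : Basis (Fin (n + 1)) F V)
    (h1 : ∀ i j, i ≠ j → polar Q (b i) (b j) = 0) (h2 : ∀ i, i ≠ Fin.last n → Q (b i) = 1) :
    (LinearMap.BilinForm.toMatrix b (polarBilin Q)).det = 2 ^ (n + 1) * Q (b (Fin.last n)) := by
  have hM : LinearMap.BilinForm.toMatrix b (polarBilin Q)
      = Matrix.diagonal (fun i => 2 * Q (b i)) := by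
    ext i j
    rw [LinearMap.BilinForm.toMatrix_apply, Matrix.diagonal_apply]
    by_cases hij : i = j
    · subst hij
      rw [if_pos rfl]
      exact polar_self' Q (b i)
    · rw [if_neg hij]
      exact h1 i j hij
  rw [hM, Matrix.det_diagonal, Finset.prod_mul_distrib, Finset.prod_const, Finset.card_univ,
    Fintype.card_fin, Fin.prod_univ_castSucc]
  have : ∏ i : Fin n, Q (b i.castSucc) = 1 := by
    apply Finset.prod_eq_one
    intro i _
    exact h2 _ (Fin.castSucc_lt_last i).ne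
  rw [this, one_mul]

/-- In even dimension over a finite field of odd order, `-1 ∈ Ω` iff the discriminant (Gram
determinant in any basis) is a square. -/
theorem neg_one_mem_omega_iff [Fintype F] (h2 : (2 : F) ≠ 0) (Q : QuadraticForm F (ι → F))
    (hS : Sep Q) (hn : 2 ≤ Fintype.card ι) (he : Even (Fintype.card ι))
    {κ : Type*} [Fintype κ] [DecidableEq κ] (b' : Basis κ F (ι → F)) :
    (∃ g : ↥(Cfsg.isometryGroup F ⇑Q), g ∈ Cfsg.Omega F ⇑Q ∧
        ((g : GL ι F) : Matrix ι ι F) = -1)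
      ↔ IsSquare (LinearMap.BilinForm.toMatrix b' (polarBilin Q)).det := by
  obtain ⟨k, hk⟩ : ∃ k, Fintype.card ι = k + 1 := ⟨Fintype.card ι - 1, by omega⟩
  obtain ⟨b, hb1, hb2, hb3⟩ := exists_diag_basis h2 k (ι → F) Q
    (by rw [Module.finrank_fintype_fun_eq_card, hk]) hS
  have hbne : ∀ i, Q (b i) ≠ 0 := by
    intro i
    by_cases hi : i = Fin.last k
    · rw [hi]; exact hb3
    · rw [hb2 i hi]; exact one_ne_zero
  have hvs : ∀ v ∈ List.ofFn b, Q v ≠ 0 := by
    intro v hv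
    rw [List.mem_ofFn] at hv
    obtain ⟨j, rfl⟩ := hv
    exact hbne j
  have hD : ∀ x, (-1 : Matrix ι ι F) *ᵥ x = ((List.ofFn b).map (reflE Q)).prod x := by
    intro x
    rw [prod_reflE_basis Q b hbne hb1, Matrix.neg_mulVec, Matrix.one_mulVec]
  rw [exists_mem_omega_iff h2 Q hS hn (-1) (List.ofFn b) hvs hD]
  have hlen : (List.ofFn b).length = k + 1 := List.length_ofFn
  have hprod : ((List.ofFn b).map (fun v => Q v)).prod = Q (b (Fin.last k)) := by
    rw [List.map_ofFn, List.prod_ofFn, Fin.prod_univ_castSucc]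
    have : ∏ i : Fin k, ((fun v => Q v) ∘ ⇑b) i.castSucc = 1 := by
      apply Finset.prod_eq_one
      intro i _
      exact hb2 _ (Fin.castSucc_lt_last i).ne
    rw [this, one_mul]
    rfl
  rw [hlen, hprod]
  obtain ⟨c, hc, hdet⟩ := gram_det_change b' b (polarBilin Q)
  rw [hdet, det_diag_basis' Q b hb1 hb2]
  rw [hk] at he
  obtain ⟨j, hj⟩ := he
  have e0 : (2 : F) ^ (k + 1) = (2 ^ j) ^ 2 := by rw [hj]; ring
  have e1 : c ^ 2 * (2 ^ (k + 1) * Q (b (Fin.last k))) = (c * 2 ^ j) ^ 2 * Q (b (Fin.last k)) := by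
    rw [e0]; ring
  rw [e1, isSquare_sq_mul_iff (mul_ne_zero hc (pow_ne_zero _ h2))]
  constructor
  · intro h; exact h.2
  · intro h; exact ⟨⟨j, hj⟩, h⟩

end Cfsg.Agent.Lib.Helper44.NegOne
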