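import Mathlib
import Cfsg.Agent.Lib.Helper44.MFldStmt

set_option autoImplicit false

/-! Piece statements for S2716 (centraliser and class of a field automorphism of `PΩ⁻_{2m+2}`),
as `Prop`s. Each piece is proved in its own file as
`theorem main : <hypothesis pieces> → MCentStmt.<Name>`.
Notation: `F₀` (universe `v`) is the small field, `F` (universe `u`) the big one, `j : F₀ →+* F`. -/

namespace Cfsg.Agent.Lib.Helper44.MCentStmt

open Matrix Module QuadraticMap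
open Cfsg.Agent.Lib.Helper45.OmegaAut Cfsg.Agent.Lib.Helper43.H90Fin
open Cfsg.Agent.Lib.Helper44.MFld0 Cfsg.Agent.Lib.Helper44.MaxTS
  Cfsg.Agent.Lib.Helper44.NegPairs Cfsg.Agent.Lib.Helper44.QSpace
  Cfsg.Agent.Lib.Helper44.QClass Cfsg.Agent.Lib.Helper44.MFldStmt

universe u v

/-! ### [FC] degree over the fixed field -/

def FixCardP : Prop := ∀ (F : Type u) [Field F] [Fintype F] (p f : ℕ), p.Prime →
  Fintype.card F = p ^ f → ∀ σ : RingAut F,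
    orderOf σ ∣ f ∧ Nat.card ↥(fixF σ) = p ^ (f / orderOf σ)

/-! ### [OD] an automorphism fixing an anisotropic binary form is not an involution -/

def OddOrder : Prop := ∀ (F : Type u) [Field F] [Fintype F] (a b : F), Aniso a b →
  ∀ σ : RingAut F, σ a = a → σ b = b → orderOf σ ≠ 2

/-! ### [EMB] a field of the right size embeds onto the fixed field -/

def ExistsEmb : Prop := ∀ (F₀ : Type v) [Field F₀] [Fintype F₀] (F : Type u) [Field F]
  [Fintype F] (σ : RingAut F), Fintype.card F₀ = Nat.card ↥(fixF σ) →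
  ∃ j : F₀ →+* F, ∀ y : F, σ y = y ↔ ∃ y₀ : F₀, j y₀ = y

/-! ### [MS] base change of similarities -/

def MapSim : Prop := ∀ (F₀ : Type v) [Field F₀] [Fintype F₀] (F : Type u) [Field F] [Fintype F]
  (j : F₀ →+* F) (m : ℕ) (a₀ b₀ : F₀) (g₀ : GL (MI m) F₀),
  g₀ ∈ Cfsg.Geo.quadSimilarityGroup (F := F₀) (Cfsg.quadFormMinus m F₀ a₀ b₀) →
  Matrix.GeneralLinearGroup.map j g₀ ∈
    Cfsg.Geo.quadSimilarityGroup (F := F) (Cfsg.quadFormMinus m F (j a₀) (j b₀))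

/-! ### [DS] descent of rational similarities -/

def DescendSim : Prop := ∀ (F₀ : Type v) [Field F₀] [Fintype F₀] (F : Type u) [Field F]
  [Fintype F] (j : F₀ →+* F) (m : ℕ) (a₀ b₀ : F₀)
  (g : GOq (Cfsg.quadFormMinus m F (j a₀) (j b₀))),
  (∀ i k, ∃ y₀ : F₀, j y₀ = ((g : GL (MI m) F) : Matrix (MI m) (MI m) F) i k) →
  ∃ g₀ : GOq (Cfsg.quadFormMinus m F₀ a₀ b₀),
    ((g₀ : GL (MI m) F₀) : Matrix (MI m) (MI m) F₀).map j =
      ((g : GL (MI m) F) : Matrix (MI m) (MI m) F)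

/-! ### [KC] the kernels of `Phi` correspond -/

def KerCompat : Prop := ∀ (F₀ : Type v) [Field F₀] [Fintype F₀] (F : Type u) [Field F]
  [Fintype F] (j : F₀ →+* F) (m : ℕ), 3 ≤ m → ∀ (a₀ b₀ : F₀), Aniso a₀ b₀ →
  Aniso (j a₀) (j b₀) →
  ∀ (g₀ : GOq (Cfsg.quadFormMinus m F₀ a₀ b₀)) (g : GOq (Cfsg.quadFormMinus m F (j a₀) (j b₀))),
    ((g : GL (MI m) F) : Matrix (MI m) (MI m) F) =
      ((g₀ : GL (MI m) F₀) : Matrix (MI m) (MI m) F₀).map j →
    (Phi (Cfsg.quadFormMinus m F₀ a₀ b₀) g₀ = 1 ↔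
      Phi (Cfsg.quadFormMinus m F (j a₀) (j b₀)) g = 1)

/-! ### [CO], [CT] `Inndiag` corresponds under base change -/

def CompatOdd : Prop := ∀ (F₀ : Type v) [Field F₀] [Fintype F₀] (F : Type u) [Field F]
  [Fintype F] (j : F₀ →+* F) (m : ℕ), 3 ≤ m → ∀ (a₀ b₀ : F₀), Aniso a₀ b₀ →
  Aniso (j a₀) (j b₀) → (2 : F) ≠ 0 →
  ∀ (g₀ : GOq (Cfsg.quadFormMinus m F₀ a₀ b₀)) (g : GOq (Cfsg.quadFormMinus m F (j a₀) (j b₀))),
    ((g : GL (MI m) F) : Matrix (MI m) (MI m) F) =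
      ((g₀ : GL (MI m) F₀) : Matrix (MI m) (MI m) F₀).map j →
    (Phi (Cfsg.quadFormMinus m F₀ a₀ b₀) g₀ ∈ Cfsg.inndiagPOmegaMinus m F₀ a₀ b₀ ↔
      Phi (Cfsg.quadFormMinus m F (j a₀) (j b₀)) g ∈
        Cfsg.inndiagPOmegaMinus m F (j a₀) (j b₀))

def CompatTwo : Prop := ∀ (F₀ : Type v) [Field F₀] [Fintype F₀] (F : Type u) [Field F]
  [Fintype F] (j : F₀ →+* F) (m : ℕ), 3 ≤ m → ∀ (a₀ b₀ : F₀), Aniso a₀ b₀ →
  Aniso (j a₀) (j b₀) → (2 : F) = 0 →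
  ∀ (g₀ : GOq (Cfsg.quadFormMinus m F₀ a₀ b₀)) (g : GOq (Cfsg.quadFormMinus m F (j a₀) (j b₀))),
    ((g : GL (MI m) F) : Matrix (MI m) (MI m) F) =
      ((g₀ : GL (MI m) F₀) : Matrix (MI m) (MI m) F₀).map j →
    (Phi (Cfsg.quadFormMinus m F₀ a₀ b₀) g₀ ∈ Cfsg.inndiagPOmegaMinus m F₀ a₀ b₀ ↔
      Phi (Cfsg.quadFormMinus m F (j a₀) (j b₀)) g ∈
        Cfsg.inndiagPOmegaMinus m F (j a₀) (j b₀))

/-! ### [SQ] square classes are represented over the fixed field of an odd-order automorphism -/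

def SqClass : Prop := ∀ (F : Type u) [Field F] [Fintype F], (2 : F) ≠ 0 →
  ∀ σ : RingAut F, Odd (orderOf σ) → ∀ y : F, y ≠ 0 →
    ∃ e c : F, e ≠ 0 ∧ c ≠ 0 ∧ σ e = e ∧ y = e * c ^ 2

/-! ### [OR] odd characteristic: every isometry is `Ω` times a rational isometry -/

def OrthRat : Prop := ∀ (F : Type u) [Field F] [Fintype F] (m : ℕ), 3 ≤ m → ∀ (a b : F),
  Aniso a b → (2 : F) ≠ 0 → ∀ σ : RingAut F, σ a = a → σ b = b → Odd (orderOf σ) →
  ∀ s : ↥(Cfsg.isometryGroup F (Cfsg.quadFormMinus m F a b)),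
    ∃ (ω : ↥(Cfsg.Omega F (Cfsg.quadFormMinus m F a b)))
      (t : ↥(Cfsg.isometryGroup F (Cfsg.quadFormMinus m F a b))),
      ((t : GL (MI m) F) : Matrix (MI m) (MI m) F).map σ =
        ((t : GL (MI m) F) : Matrix (MI m) (MI m) F) ∧
      s = (ω : ↥(Cfsg.isometryGroup F (Cfsg.quadFormMinus m F a b))) * t

/-! ### [MR] odd characteristic: multipliers are rational up to squares -/

def MultRat : Prop := ∀ (F : Type u) [Field F] [Fintype F] (m : ℕ), 3 ≤ m → ∀ (a b : F),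
  Aniso a b → (2 : F) ≠ 0 → ∀ σ : RingAut F, σ a = a → σ b = b → Odd (orderOf σ) →
  ∀ g : GOq (Cfsg.quadFormMinus m F a b),
    ∃ (g₁ : GOq (Cfsg.quadFormMinus m F a b)) (c : F), c ≠ 0 ∧
      ((g₁ : GL (MI m) F) : Matrix (MI m) (MI m) F).map σ =
        ((g₁ : GL (MI m) F) : Matrix (MI m) (MI m) F) ∧
      ∀ v : MI m → F, Cfsg.quadFormMinus m F a b (((g : GL (MI m) F) : Matrix (MI m) (MI m) F) *ᵥ v)
        = c ^ 2 * Cfsg.quadFormMinus m F a b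
            (((g₁ : GL (MI m) F) : Matrix (MI m) (MI m) F) *ᵥ v)

/-! ### [RDO], [RDT] every similarity is `Ω · scalar · rational` -/

def RatDecompOdd : Prop := ∀ (F : Type u) [Field F] [Fintype F] (m : ℕ), 3 ≤ m → ∀ (a b : F),
  Aniso a b → (2 : F) ≠ 0 → ∀ σ : RingAut F, σ a = a → σ b = b → Odd (orderOf σ) →
  ∀ g : GOq (Cfsg.quadFormMinus m F a b),
    ∃ (ω : ↥(Cfsg.Omega F (Cfsg.quadFormMinus m F a b))) (h : GOq (Cfsg.quadFormMinus m F a b)),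
      ((h : GL (MI m) F) : Matrix (MI m) (MI m) F).map σ =
        ((h : GL (MI m) F) : Matrix (MI m) (MI m) F) ∧
      Phi (Cfsg.quadFormMinus m F a b) g =
        Phi (Cfsg.quadFormMinus m F a b) (inclΩ _ ω) * Phi (Cfsg.quadFormMinus m F a b) h

def RatDecompTwo : Prop := ∀ (F : Type u) [Field F] [Fintype F] (m : ℕ), 3 ≤ m → ∀ (a b : F),
  Aniso a b → (2 : F) = 0 → ∀ σ : RingAut F, σ a = a → σ b = b →
  ∀ g : GOq (Cfsg.quadFormMinus m F a b),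
    ∃ (ω : ↥(Cfsg.Omega F (Cfsg.quadFormMinus m F a b))) (h : GOq (Cfsg.quadFormMinus m F a b)),
      ((h : GL (MI m) F) : Matrix (MI m) (MI m) F).map σ =
        ((h : GL (MI m) F) : Matrix (MI m) (MI m) F) ∧
      Phi (Cfsg.quadFormMinus m F a b) g =
        Phi (Cfsg.quadFormMinus m F a b) (inclΩ _ ω) * Phi (Cfsg.quadFormMinus m F a b) h

end Cfsg.Agent.Lib.Helper44.MCentStmt
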