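import Mathlib

set_option autoImplicit false

namespace Cfsg.Agent.Lib.Helper44.Coh1

variable {Γ : Type*} [Group Γ] {V : Type*} [AddCommGroup V] [Module (ZMod 2) V]

/-- Crossed homomorphisms on a normal subgroup `N` with `Γ = N ∪ tN`, `t² = 1`, are principal
as soon as those on `Γ` are (characteristic two). -/
theorem principal_of_index_two (α : Γ →* (V ≃ₗ[ZMod 2] V)) (N : Subgroup Γ) [hN : N.Normal]
    (t : Γ) (ht : t * t = 1) (hcover : ∀ g, g ∈ N ∨ t * g ∈ N)
    (hR : ∀ d : Γ → V, (∀ g h, d (g * h) = d g + α g (d h)) → ∃ u, ∀ g, d g = α g u - u)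
    (d : Γ → V) (hd : ∀ g ∈ N, ∀ h ∈ N, d (g * h) = d g + α g (d h)) :
    ∃ u, ∀ g ∈ N, d g = α g u - u := by
  classical
  by_cases htN : t ∈ N
  · have hall : ∀ g, g ∈ N := by
      intro g
      rcases hcover g with h | h
      · exact h
      · have := N.mul_mem (N.inv_mem htN) h
        rwa [inv_mul_cancel_left] at this
    obtain ⟨u, hu⟩ := hR d (fun g h => hd g (hall g) h (hall h))
    exact ⟨u, fun g _ => hu g⟩
  have tinv : t⁻¹ = t := inv_eq_of_mul_eq_one_left ht
  have hconj : ∀ g ∈ N, t * g * t ∈ N := by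
    intro g hg
    have := hN.conj_mem g hg t
    rwa [tinv] at this
  have hnot : ∀ x, x ∉ N → t * x ∈ N := fun x hx => (hcover x).resolve_left hx
  have hmix1 : ∀ x ∈ N, ∀ y, y ∉ N → x * y ∉ N := by
    intro x hx y hy h
    apply hy
    have := N.mul_mem (N.inv_mem hx) h
    rwa [inv_mul_cancel_left] at this
  have hmix2 : ∀ x, x ∉ N → ∀ y ∈ N, x * y ∉ N := by
    intro x hx y hy h
    apply hx
    have := N.mul_mem h (N.inv_mem hy)
    rwa [mul_inv_cancel_right] at this
  have ett : ∀ x : Γ, t * (t * x) = x := fun x => by rw [← mul_assoc, ht, one_mul]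
  have hmix3 : ∀ x, x ∉ N → ∀ y, y ∉ N → x * y ∈ N := by
    intro x hx y hy
    have e : x * y = t * (t * x) * t * (t * y) := by
      rw [ett, mul_assoc x t (t * y), ett]
    rw [e]
    exact N.mul_mem (hconj _ (hnot x hx)) (hnot y hy)
  have hα : ∀ g h v, α (g * h) v = α g (α h v) := fun g h v => by rw [map_mul]; rfl
  have hαt : ∀ v, α t (α t v) = v := fun v => by rw [← hα, ht, map_one]; rfl
  have hd1 : d 1 = 0 := by
    have := hd 1 N.one_mem 1 N.one_mem
    rw [mul_one, map_one] at this
    have e : (1 : V ≃ₗ[ZMod 2] V) (d 1) = d 1 := rfl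
    rw [e] at this
    exact left_eq_add.mp this
  set d' : Γ → V := fun g => d g + α t (d (t * g * t)) with hd'
  have d'_apply : ∀ g, d' g = d g + α t (d (t * g * t)) := fun g => rfl
  have h2 : ∀ g ∈ N, ∀ h ∈ N, d' (g * h) = d' g + α g (d' h) := by
    intro g hg h hh
    have e : t * (g * h) * t = (t * g * t) * (t * h * t) := by
      simp only [mul_assoc]
      rw [ett]
    have e2 : t * (t * g * t) = g * t := by rw [mul_assoc t g t, ett]
    rw [d'_apply, d'_apply, d'_apply, e, hd g hg h hh, hd _ (hconj g hg) _ (hconj h hh), map_add,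
      map_add, ← hα, ← hα, e2]
    abel
  have h1 : ∀ g ∈ N, d' (t * g * t) = α t (d' g) := by
    intro g hg
    have e : t * (t * g * t) * t = g := by
      rw [mul_assoc t g t, ett, mul_assoc, ht, mul_one]
    rw [d'_apply, d'_apply, e, map_add, hαt]
    abel
  set dt : Γ → V := fun x => if x ∈ N then d' x else α t (d' (t * x)) with hdt
  have dt_pos : ∀ x, x ∈ N → dt x = d' x := fun x hx => if_pos hx
  have dt_neg : ∀ x, x ∉ N → dt x = α t (d' (t * x)) := fun x hx => if_neg hx
  have hdt_coc : ∀ x y, dt (x * y) = dt x + α x (dt y) := by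
    intro x y
    by_cases hx : x ∈ N <;> by_cases hy : y ∈ N
    · rw [dt_pos _ hx, dt_pos _ hy, dt_pos _ (N.mul_mem hx hy)]
      exact h2 x hx y hy
    · rw [dt_pos _ hx, dt_neg _ hy, dt_neg _ (hmix1 x hx y hy)]
      have e : t * (x * y) = (t * x * t) * (t * y) := by
        simp only [mul_assoc]
        rw [ett]
      have e2 : t * (t * x * t) = x * t := by rw [mul_assoc t x t, ett]
      rw [e, h2 _ (hconj x hx) _ (hnot y hy), map_add, h1 x hx, hαt, ← hα, ← hα, e2]
    · rw [dt_neg _ hx, dt_pos _ hy, dt_neg _ (hmix2 x hx y hy)]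
      have e : t * (x * y) = (t * x) * y := (mul_assoc _ _ _).symm
      rw [e, h2 _ (hnot x hx) y hy, map_add, ← hα, ett]
    · rw [dt_neg _ hx, dt_neg _ hy, dt_pos _ (hmix3 x hx y hy)]
      have e : x * y = t * (t * x) * t * (t * y) := by
        rw [ett, mul_assoc x t (t * y), ett]
      have e2 : t * (t * x) * t = x * t := by rw [ett]
      have h3 := h2 _ (hconj _ (hnot x hx)) _ (hnot y hy)
      rw [← e] at h3
      rw [h3, h1 _ (hnot x hx), ← hα, e2]
  obtain ⟨w, hw⟩ := hR dt hdt_coc
  have hd'1 : d' 1 = 0 := by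
    rw [d'_apply, mul_one, ht, hd1, map_zero, add_zero]
  have htw : α t w = w := by
    have := hw t
    rw [dt_neg _ htN, ht, hd'1, map_zero] at this
    exact sub_eq_zero.mp this.symm
  have hF1 : ∀ g ∈ N, α t (d (t * g * t)) = d g + α g w + w := by
    intro g hg
    have := hw g
    rw [dt_pos _ hg, d'_apply] at this
    have e1 := ZModModule.add_self (d g)
    have e2 := ZModModule.add_self w
    linear_combination (norm := module) this - e1 - e2
  set dh : Γ → V := fun x => if x ∈ N then d x else w + α t (d (t * x)) with hdh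
  have dh_pos : ∀ x, x ∈ N → dh x = d x := fun x hx => if_pos hx
  have dh_neg : ∀ x, x ∉ N → dh x = w + α t (d (t * x)) := fun x hx => if_neg hx
  have hdh_coc : ∀ x y, dh (x * y) = dh x + α x (dh y) := by
    intro x y
    by_cases hx : x ∈ N <;> by_cases hy : y ∈ N
    · rw [dh_pos _ hx, dh_pos _ hy, dh_pos _ (N.mul_mem hx hy)]
      exact hd x hx y hy
    · rw [dh_pos _ hx, dh_neg _ hy, dh_neg _ (hmix1 x hx y hy)]
      have e : t * (x * y) = (t * x * t) * (t * y) := by
        simp only [mul_assoc]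
        rw [ett]
      have e2 : t * (t * x * t) = x * t := by rw [mul_assoc t x t, ett]
      have k1 : α t (d (t * x * t * (t * y))) = d x + α x w + w + α (x * t) (d (t * y)) := by
        rw [hd _ (hconj x hx) _ (hnot y hy), map_add, hF1 x hx, ← hα, e2]
      rw [e, k1, map_add, hα x t]
      have e1 := ZModModule.add_self w
      linear_combination (norm := module) e1
    · rw [dh_neg _ hx, dh_pos _ hy, dh_neg _ (hmix2 x hx y hy)]
      have e : t * (x * y) = (t * x) * y := (mul_assoc _ _ _).symm
      rw [e, hd _ (hnot x hx) y hy, map_add, ← hα, ett]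
      abel
    · rw [dh_neg _ hx, dh_neg _ hy, dh_pos _ (hmix3 x hx y hy)]
      have e : x * y = t * (t * x) * t * (t * y) := by
        rw [ett, mul_assoc x t (t * y), ett]
      have e2 : t * (t * x) * t = x * t := by rw [ett]
      have h3 := hd _ (hconj _ (hnot x hx)) _ (hnot y hy)
      rw [← e, e2] at h3
      have h4 := hF1 _ (hconj _ (hnot x hx))
      have e3 : t * (t * (t * x) * t) * t = t * x := by
        rw [ett, mul_assoc t (x * t) t, mul_assoc x t t, ht, mul_one]
      rw [e3, e2, hα x t w, htw] at h4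
      rw [h3, map_add, hα x t]
      have e1 := ZModModule.add_self w
      have e4 := ZModModule.add_self (α x w)
      linear_combination (norm := module) -h4 - e1 - e4
  obtain ⟨u, hu⟩ := hR dh hdh_coc
  refine ⟨u, fun g hg => ?_⟩
  rw [← hu g, dh_pos _ hg]

end Cfsg.Agent.Lib.Helper44.Coh1
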