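import Mathlib
import Cfsg.Agent.Lib.Helper44.QClass

set_option autoImplicit false

namespace Cfsg.Agent.Lib.Helper44.Coh2

open Module QuadraticMap
open Cfsg.Agent.Lib.Helper44.QSpace Cfsg.Agent.Lib.Helper44.QClass Cfsg.Agent.Lib.Helper44.Split

universe u

variable {V : Type u} [AddCommGroup V] [Module (ZMod 2) V]

theorem z2 (a : ZMod 2) : a = 0 ∨ a = 1 := by revert a; decide

theorem z2_ne {a : ZMod 2} (h : a ≠ 0) : a = 1 := (z2 a).resolve_left h

theorem z2_add (a : ZMod 2) : a + a = 0 := by revert a; decide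

theorem z2_mul (a : ZMod 2) : a * a = a := by revert a; decide

theorem pself (Q : QuadraticForm (ZMod 2) V) (x : V) : polar Q x x = 0 := by
  rw [polar_self']
  have : (2 : ZMod 2) = 0 := by decide
  rw [this, zero_mul]

theorem vadd (x : V) : x + x = 0 := ZModModule.add_self x

theorem ne_zero_of_q {Q : QuadraticForm (ZMod 2) V} {x : V} (h : Q x = 1) : x ≠ 0 := by
  rintro rfl
  rw [QuadraticMap.map_zero] at h
  exact zero_ne_one h

/-- Additivity on the lines of the space of non-singular vectors. -/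
def LineAdd (Q : QuadraticForm (ZMod 2) V) (c : V → ZMod 2) : Prop :=
  ∀ v w, Q v = 1 → Q w = 1 → polar Q v w = 1 → c (v + w) = c v + c w

/-- Every line-additive function on the non-singular vectors is induced by a vector. -/
def Claim (Q : QuadraticForm (ZMod 2) V) : Prop :=
  ∀ c : V → ZMod 2, LineAdd Q c → ∃ u, ∀ v, Q v = 1 → c v = polar Q u v

theorem lineAdd_add {Q : QuadraticForm (ZMod 2) V} {c : V → ZMod 2} (hc : LineAdd Q c) (u : V) :
    LineAdd Q (fun v => c v + polar Q u v) := by
  intro v w hv hw hvw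
  show c (v + w) + polar Q u (v + w) = c v + polar Q u v + (c w + polar Q u w)
  rw [hc v w hv hw hvw, polar_add_right]
  ring

theorem exists_polar_one {Q : QuadraticForm (ZMod 2) V} (hS : Sep Q) {y : V} (hy : y ≠ 0) :
    ∃ a, polar Q a y = 1 := by
  by_contra hcon
  push Not at hcon
  apply hy
  apply hS
  intro a
  rw [polar_comm]
  by_contra h
  exact hcon a (z2_ne h)

/-- Prescribed inner products with two distinct nonzero vectors. -/
theorem exists_pair_vals {Q : QuadraticForm (ZMod 2) V} (hS : Sep Q) {y z : V} (hy : y ≠ 0)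
    (hz : z ≠ 0) (hyz : y ≠ z) (α β : ZMod 2) : ∃ w, polar Q w y = α ∧ polar Q w z = β := by
  obtain ⟨a, ha⟩ := exists_polar_one hS hy
  have hz' : z + polar Q a z • y ≠ 0 := by
    intro h
    rcases z2 (polar Q a z) with h0 | h0
    · rw [h0, zero_smul, add_zero] at h
      exact hz h
    · rw [h0, one_smul] at h
      apply hyz
      have e := vadd y
      linear_combination (norm := module) e - h
  obtain ⟨b, hb⟩ := exists_polar_one hS hz'
  rw [polar_add_right, polar_smul_r] at hb
  refine ⟨α • a + (β + polar Q a z * α) • (b + polar Q b y • a), ?_, ?_⟩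
  · rw [polar_add_left, polar_smul_l, polar_smul_l, polar_add_left, polar_smul_l, ha]
    have := z2_add (polar Q b y)
    linear_combination (β + polar Q a z * α) * this
  · rw [polar_add_left, polar_smul_l, polar_smul_l, polar_add_left, polar_smul_l]
    have := z2_add (polar Q a z * α)
    linear_combination (β + polar Q a z * α) * hb + this

section perp

variable {Q : QuadraticForm (ZMod 2) V}

theorem mem_P {a b x : V} : x ∈ perp2 (polarBilin Q) a b ↔ polar Q a x = 0 ∧ polar Q b x = 0 :=
  mem_perp2 _ _ _ _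

theorem sepP (hS : Sep Q) {a b : V} (hab : polar Q a b = 1) :
    Sep (res Q (perp2 (polarBilin Q) a b)) := by
  intro x hx
  have := perp2_sep (polarBilin Q) (pB_symm Q) hS (pself Q a) (pself Q b) hab (x : V) x.2
    (fun y hy => hx ⟨y, hy⟩)
  exact Subtype.ext this

theorem finP [FiniteDimensional (ZMod 2) V] {a b : V} (hab : polar Q a b = 1) :
    finrank (ZMod 2) (perp2 (polarBilin Q) a b) + 2 = finrank (ZMod 2) V :=
  finrank_perp2 (polarBilin Q) (pB_symm Q) (pself Q a) (pself Q b) hab

/-- Decomposition along a pair with inner product one. -/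
theorem decomp {a b : V} (hab : polar Q a b = 1) (v : V) :
    ∃ v' ∈ perp2 (polarBilin Q) a b, v = v' + polar Q v b • a + polar Q v a • b := by
  refine ⟨v - polar Q b v • a - polar Q a v • b,
    proj_mem_perp2 (polarBilin Q) (pB_symm Q) (pself Q a) (pself Q b) hab v, ?_⟩
  rw [polar_comm Q v b, polar_comm Q v a]
  abel

end perp

section steps

variable {Q : QuadraticForm (ZMod 2) V}

theorem q_decomp {e f v' : V} (κ μ : ZMod 2) (p1 : polar Q v' e = 0) (p2 : polar Q v' f = 0)
    (hef : polar Q e f = 1) :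
    Q (v' + κ • e + μ • f) = Q v' + κ * κ * Q e + μ * μ * Q f + κ * μ := by
  simp only [q_add, q_smul, polar_add_left, polar_smul_l, polar_smul_r, p1, p2, hef]
  ring

/-- A function invariant under adding adjacent non-singular vectors of a connected subspace is
constant on its non-singular vectors. -/
theorem const_of_conn (P : Submodule (ZMod 2) V) (A : V → ZMod 2)
    (hA : ∀ x ∈ P, ∀ y ∈ P, Q x = 1 → Q y = 1 → polar Q x y = 1 → A (x + y) = A x)
    (hconn : ∀ v ∈ P, ∀ w ∈ P, Q v = 1 → Q w = 1 → v ≠ w → polar Q v w = 0 →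
      ∃ z ∈ P, Q z = 1 ∧ polar Q v z = 1 ∧ polar Q w z = 1)
    (x x' : V) (hx : x ∈ P) (hx' : x' ∈ P) (hq : Q x = 1) (hq' : Q x' = 1) : A x = A x' := by
  have adj : ∀ v ∈ P, ∀ w ∈ P, Q v = 1 → Q w = 1 → polar Q v w = 1 → A v = A w := by
    intro v hv w hw qv qw hvw
    have h1 := hA v hv (v + w) (P.add_mem hv hw) qv (by rw [q_add, qv, qw, hvw]; decide)
      (by rw [polar_add_right, pself, hvw, zero_add])
    have e : v + (v + w) = w := by
      have := vadd v
      linear_combination (norm := module) this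
    rw [e] at h1
    exact h1.symm
  by_cases hxx : x = x'
  · rw [hxx]
  rcases z2 (polar Q x x') with h | h
  · obtain ⟨z, hz, qz, h1, h2⟩ := hconn x hx x' hx' hq hq' hxx h
    rw [adj x hx z hz hq qz h1, adj x' hx' z hz hq' qz h2]
  · exact adj x hx x' hx' hq hq' h

/-- Extension of the linearity claim along a hyperbolic plane. -/
theorem claim_hyp_step (hS : Sep Q) {e f : V} (he : Q e = 0) (hf : Q f = 0)
    (hef : polar Q e f = 1) (hC : Claim (res Q (perp2 (polarBilin Q) e f)))
    (hne : ∃ x ∈ perp2 (polarBilin Q) e f, Q x = 1)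
    (hconn : ∀ v ∈ perp2 (polarBilin Q) e f, ∀ w ∈ perp2 (polarBilin Q) e f, Q v = 1 → Q w = 1 →
      v ≠ w → polar Q v w = 0 →
      ∃ z ∈ perp2 (polarBilin Q) e f, Q z = 1 ∧ polar Q v z = 1 ∧ polar Q w z = 1)
    (hI3 : ∀ y ∈ perp2 (polarBilin Q) e f, y ≠ 0 → Q y = 0 →
      ∃ x ∈ perp2 (polarBilin Q) e f, Q x = 1 ∧ polar Q x y = 0) : Claim Q := by
  intro c hc
  obtain ⟨u', hu'⟩ := hC (fun x => c x.1) (fun v w hv hw hvw => hc v.1 w.1 hv hw hvw)
  have hc1 := lineAdd_add hc (u' : V)
  set c1 : V → ZMod 2 := fun v => c v + polar Q (u' : V) v with hc1def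
  have c1P : ∀ x ∈ perp2 (polarBilin Q) e f, Q x = 1 → c1 x = 0 := by
    intro x hx hq
    have := hu' ⟨x, hx⟩ hq
    show c x + polar Q (u' : V) x = 0
    have e2 : c x = polar Q (u' : V) x := this
    rw [e2]
    exact z2_add _
  obtain ⟨x₀, hx₀, qx₀⟩ := hne
  have pe : ∀ x ∈ perp2 (polarBilin Q) e f, polar Q x e = 0 := fun x hx => by
    rw [polar_comm]; exact (mem_P.mp hx).1
  have pf : ∀ x ∈ perp2 (polarBilin Q) e f, polar Q x f = 0 := fun x hx => by
    rw [polar_comm]; exact (mem_P.mp hx).2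
  -- the functions `x ↦ c1 (x + e)` and `x ↦ c1 (x + f)` are constant
  have key : ∀ h : V, Q h = 0 → (∀ x ∈ perp2 (polarBilin Q) e f, polar Q x h = 0) →
      ∀ x ∈ perp2 (polarBilin Q) e f, Q x = 1 → c1 (x + h) = c1 (x₀ + h) := by
    intro h qh ph x hx qx
    apply const_of_conn (perp2 (polarBilin Q) e f) (fun x => c1 (x + h)) _ hconn x x₀ hx hx₀ qx qx₀
    intro x hx y hy qx qy hxy
    show c1 (x + y + h) = c1 (x + h)
    have e1 : x + y + h = (x + h) + y := by abel
    rw [e1, hc1 (x + h) y (by rw [q_add, qx, qh, ph x hx]; decide) qy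
      (by rw [polar_add_left, hxy, polar_comm Q h y, ph y hy, add_zero]), c1P y hy qy, add_zero]
  set α := c1 (x₀ + e) with hα
  set β := c1 (x₀ + f) with hβ
  have hc2 := lineAdd_add hc1 (β • e + α • f)
  set c2 : V → ZMod 2 := fun v => c1 v + polar Q (β • e + α • f) v with hc2def
  have c2_apply : ∀ v, c2 v = c1 v + (β * polar Q e v + α * polar Q f v) := by
    intro v
    show c1 v + polar Q (β • e + α • f) v = _
    rw [polar_add_left, polar_smul_l, polar_smul_l]
  have c2P : ∀ x ∈ perp2 (polarBilin Q) e f, Q x = 1 → c2 x = 0 := by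
    intro x hx hq
    rw [c2_apply, c1P x hx hq, (mem_P.mp hx).1, (mem_P.mp hx).2]
    ring
  have c2e : ∀ x ∈ perp2 (polarBilin Q) e f, Q x = 1 → c2 (x + e) = 0 := by
    intro x hx hq
    rw [c2_apply, key e he pe x hx hq, polar_add_right, polar_add_right, (mem_P.mp hx).1,
      (mem_P.mp hx).2, pself, polar_comm Q f e, hef]
    have := z2_add α
    linear_combination this
  have c2f : ∀ x ∈ perp2 (polarBilin Q) e f, Q x = 1 → c2 (x + f) = 0 := by
    intro x hx hq
    rw [c2_apply, key f hf pf x hx hq, polar_add_right, polar_add_right, (mem_P.mp hx).1,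
      (mem_P.mp hx).2, pself, hef]
    have := z2_add β
    linear_combination this
  have c2zero : ∀ v, Q v = 1 → c2 v = 0 := by
    intro v hv
    obtain ⟨v', hv', hdec⟩ := decomp hef v
    have qdec : Q v = Q v' + polar Q v f * polar Q v e := by
      conv_lhs => rw [hdec]
      rw [q_decomp _ _ (pe v' hv') (pf v' hv') hef, he, hf]
      ring
    rw [hv] at qdec
    rcases z2 (polar Q v f) with h1 | h1 <;> rcases z2 (polar Q v e) with h2 | h2
    · rw [h1, h2, zero_smul, zero_smul, add_zero, add_zero] at hdec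
      rw [h1, h2, mul_zero, add_zero] at qdec
      rw [hdec]
      exact c2P v' hv' qdec.symm
    · rw [h1, h2, zero_smul, one_smul, add_zero] at hdec
      rw [h1, h2, zero_mul, add_zero] at qdec
      rw [hdec]
      exact c2f v' hv' qdec.symm
    · rw [h1, h2, zero_smul, one_smul, add_zero] at hdec
      rw [h1, h2, mul_zero, add_zero] at qdec
      rw [hdec]
      exact c2e v' hv' qdec.symm
    · rw [h1, h2, one_smul, one_smul] at hdec
      rw [h1, h2, mul_one] at qdec
      have qv' : Q v' = 0 := by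
        linear_combination -qdec
      by_cases hv0 : v' = 0
      · have e1 : v = (x₀ + e) + (x₀ + f) := by
          rw [hdec, hv0]
          have := vadd x₀
          linear_combination (norm := module) -this
        rw [e1, hc2 (x₀ + e) (x₀ + f) (by rw [q_add, qx₀, he, pe x₀ hx₀]; decide)
          (by rw [q_add, qx₀, hf, pf x₀ hx₀]; decide)
          (by rw [polar_add_left, polar_add_right, polar_add_right, pself, pf x₀ hx₀,
            polar_comm Q e x₀, pe x₀ hx₀, hef]; decide), c2e x₀ hx₀ qx₀, c2f x₀ hx₀ qx₀]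
        decide
      · obtain ⟨x, hx, qx, hxv⟩ := hI3 v' hv' hv0 qv'
        have hx2 : x + v' ∈ perp2 (polarBilin Q) e f := Submodule.add_mem _ hx hv'
        have qx2 : Q (x + v') = 1 := by rw [q_add, qx, qv', hxv]; decide
        have e1 : v = (x + e) + ((x + v') + f) := by
          rw [hdec]
          have := vadd x
          linear_combination (norm := module) -this
        rw [e1, hc2 (x + e) ((x + v') + f) (by rw [q_add, qx, he, pe x hx]; decide)
          (by rw [q_add, qx2, hf, pf _ hx2]; decide)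
          (by rw [polar_add_left, polar_add_right, polar_add_right, polar_add_right, pself, hxv,
            pf x hx, polar_comm Q e (x + v'), pe _ hx2, hef]; decide), c2e x hx qx,
          c2f _ hx2 qx2]
        decide
  refine ⟨(u' : V) + (β • e + α • f), fun v hv => ?_⟩
  have := c2zero v hv
  have e3 : c2 v = c v + polar Q (u' : V) v + polar Q (β • e + α • f) v := rfl
  rw [e3] at this
  rw [polar_add_left]
  have t1 := z2_add (polar Q (u' : V) v)
  have t2 := z2_add (polar Q (β • e + α • f) v)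
  linear_combination this - t1 - t2

/-- Singular vectors with prescribed inner products against a totally singular pair. -/
theorem exists_sing_vals (hS : Sep Q) {y z : V} (hy : y ≠ 0) (hz : z ≠ 0) (hyz : y ≠ z)
    (qy : Q y = 0) (hzy : polar Q z y = 0) (β : ZMod 2) :
    ∃ w, Q w = 0 ∧ polar Q w y = 1 ∧ polar Q w z = β := by
  obtain ⟨w₀, h1, h2⟩ := exists_pair_vals hS hy hz hyz 1 β
  rcases z2 (Q w₀) with h | h
  · exact ⟨w₀, h, h1, h2⟩
  · refine ⟨w₀ + y, ?_, ?_, ?_⟩
    · rw [q_add, h, qy, h1]; decide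
    · rw [polar_add_left, h1, pself, add_zero]
    · rw [polar_add_left, h2, polar_comm Q y z, hzy, add_zero]

/-- Extension of the linearity claim along an anisotropic plane. -/
theorem claim_ell_step (hS : Sep Q) {a b : V} (ha : Q a = 1) (hb : Q b = 1)
    (hab : polar Q a b = 1) (hC : Claim (res Q (perp2 (polarBilin Q) a b)))
    (hline : ∀ y ∈ perp2 (polarBilin Q) a b, y ≠ 0 → Q y = 0 →
      ∃ z ∈ perp2 (polarBilin Q) a b, z ≠ 0 ∧ z ≠ y ∧ Q z = 0 ∧ polar Q z y = 0) : Claim Q := by
  intro c hc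
  obtain ⟨u', hu'⟩ := hC (fun x => c x.1) (fun v w hv hw hvw => hc v.1 w.1 hv hw hvw)
  have hc1 := lineAdd_add hc (u' : V)
  set c1 : V → ZMod 2 := fun v => c v + polar Q (u' : V) v with hc1def
  have c1P : ∀ x ∈ perp2 (polarBilin Q) a b, Q x = 1 → c1 x = 0 := by
    intro x hx hq
    have := hu' ⟨x, hx⟩ hq
    show c x + polar Q (u' : V) x = 0
    have e2 : c x = polar Q (u' : V) x := this
    rw [e2]
    exact z2_add _
  have pa : ∀ x ∈ perp2 (polarBilin Q) a b, polar Q x a = 0 := fun x hx => by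
    rw [polar_comm]; exact (mem_P.mp hx).1
  have pb : ∀ x ∈ perp2 (polarBilin Q) a b, polar Q x b = 0 := fun x hx => by
    rw [polar_comm]; exact (mem_P.mp hx).2
  have hc2 := lineAdd_add hc1 (c1 b • a + c1 a • b)
  set c2 : V → ZMod 2 := fun v => c1 v + polar Q (c1 b • a + c1 a • b) v with hc2def
  have c2_apply : ∀ v, c2 v = c1 v + (c1 b * polar Q a v + c1 a * polar Q b v) := by
    intro v
    show c1 v + polar Q (c1 b • a + c1 a • b) v = _
    rw [polar_add_left, polar_smul_l, polar_smul_l]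
  have c2P : ∀ x ∈ perp2 (polarBilin Q) a b, Q x = 1 → c2 x = 0 := by
    intro x hx hq
    rw [c2_apply, c1P x hx hq, (mem_P.mp hx).1, (mem_P.mp hx).2]
    ring
  have c2a : c2 a = 0 := by
    rw [c2_apply, pself, polar_comm Q b a, hab]
    have := z2_add (c1 a)
    linear_combination this
  have c2b : c2 b = 0 := by
    rw [c2_apply, pself, hab]
    have := z2_add (c1 b)
    linear_combination this
  have qab : Q (a + b) = 1 := by rw [q_add, ha, hb, hab]; decide
  have c2ab : c2 (a + b) = 0 := by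
    rw [hc2 a b ha hb hab, c2a, c2b, add_zero]
  -- γ
  have qya : ∀ y ∈ perp2 (polarBilin Q) a b, Q y = 0 → Q (y + a) = 1 := by
    intro y hy qy
    rw [q_add, qy, ha, pa y hy]; decide
  have gb : ∀ y ∈ perp2 (polarBilin Q) a b, Q y = 0 → c2 (y + b) = c2 (y + a) := by
    intro y hy qy
    have e1 : y + b = (y + a) + (a + b) := by
      have := vadd a
      linear_combination (norm := module) -this
    rw [e1, hc2 (y + a) (a + b) (qya y hy qy) qab
      (by rw [polar_add_left, polar_add_right, polar_add_right, pa y hy, pb y hy, pself, hab]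
          decide), c2ab, add_zero]
  have gab : ∀ y ∈ perp2 (polarBilin Q) a b, Q y = 0 → c2 (y + a + b) = c2 (y + a) := by
    intro y hy qy
    rw [hc2 (y + a) b (qya y hy qy) hb (by rw [polar_add_left, pb y hy, hab, zero_add]), c2b,
      add_zero]
  have rel2 : ∀ y₁ ∈ perp2 (polarBilin Q) a b, ∀ y₂ ∈ perp2 (polarBilin Q) a b, Q y₁ = 0 →
      Q y₂ = 0 → polar Q y₁ y₂ = 1 → c2 (y₁ + a) = c2 (y₂ + a) := by
    intro y₁ h₁ y₂ h₂ q₁ q₂ h12
    have e1 : y₁ + y₂ = (y₁ + a) + (y₂ + a) := by
      have := vadd a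
      linear_combination (norm := module) -this
    have h3 := hc2 (y₁ + a) (y₂ + a) (qya y₁ h₁ q₁) (qya y₂ h₂ q₂)
      (by rw [polar_add_left, polar_add_right, polar_add_right, h12, pa y₁ h₁, polar_comm Q a y₂,
        pa y₂ h₂, pself]; decide)
    rw [← e1, c2P (y₁ + y₂) (Submodule.add_mem _ h₁ h₂) (by rw [q_add, q₁, q₂, h12]; decide)] at h3
    have := z2_add (c2 (y₂ + a))
    linear_combination -h3 - this
  have rel3 : ∀ y₁ ∈ perp2 (polarBilin Q) a b, ∀ y₂ ∈ perp2 (polarBilin Q) a b, Q y₁ = 0 →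
      Q y₂ = 0 → polar Q y₁ y₂ = 0 → c2 (y₁ + y₂ + a) = c2 (y₁ + a) + c2 (y₂ + a) := by
    intro y₁ h₁ y₂ h₂ q₁ q₂ h12
    have e1 : y₁ + y₂ + a + b = (y₁ + a) + (y₂ + b) := by abel
    have q12 : Q (y₁ + y₂) = 0 := by rw [q_add, q₁, q₂, h12]; decide
    have qyb : Q (y₂ + b) = 1 := by rw [q_add, q₂, hb, pb y₂ h₂]; decide
    have h3 := hc2 (y₁ + a) (y₂ + b) (qya y₁ h₁ q₁) qyb
      (by rw [polar_add_left, polar_add_right, polar_add_right, h12, pb y₁ h₁, polar_comm Q a y₂,
        pa y₂ h₂, hab]; decide)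
    rw [← e1, gab (y₁ + y₂) (Submodule.add_mem _ h₁ h₂) q12, gb y₂ h₂ q₂] at h3
    exact h3
  have hSP := sepP hS hab
  have gzero : ∀ y ∈ perp2 (polarBilin Q) a b, Q y = 0 → c2 (y + a) = 0 := by
    intro y hy qy
    by_cases hy0 : y = 0
    · rw [hy0, zero_add, c2a]
    obtain ⟨z, hz, hz0, hzy, qz, pzy⟩ := hline y hy hy0 qy
    have hy0' : (⟨y, hy⟩ : perp2 (polarBilin Q) a b) ≠ 0 := fun h => hy0 (congrArg Subtype.val h)
    have hz0' : (⟨z, hz⟩ : perp2 (polarBilin Q) a b) ≠ 0 := fun h => hz0 (congrArg Subtype.val h)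
    have hyz' : (⟨y, hy⟩ : perp2 (polarBilin Q) a b) ≠ ⟨z, hz⟩ := fun h =>
      hzy (congrArg Subtype.val h).symm
    obtain ⟨w₁, qw₁, p1, p2⟩ := exists_sing_vals hSP hy0' hz0' hyz' qy pzy 1
    obtain ⟨w₂, qw₂, p3, p4⟩ := exists_sing_vals hSP hy0' hz0' hyz' qy pzy 0
    have k1 := rel2 w₁ w₁.2 y hy qw₁ qy p1
    have k2 := rel2 w₁ w₁.2 z hz qw₁ qz p2
    have k3 := rel2 w₂ w₂.2 y hy qw₂ qy p3
    have pyz : polar Q y z = 0 := by rw [polar_comm]; exact pzy
    have qyz : Q (y + z) = 0 := by rw [q_add, qy, qz, pyz]; decide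
    have k4 := rel2 w₂ w₂.2 (y + z) (Submodule.add_mem _ hy hz) qw₂ qyz (by
      have e1 : polar Q (w₂ : V) y = 1 := p3
      have e2 : polar Q (w₂ : V) z = 0 := p4
      rw [polar_add_right, e1, e2, add_zero])
    have k5 := rel3 y hy z hz qy qz pyz
    linear_combination -k1 + k2 + k3 - k4 - k5
  have c2zero : ∀ v, Q v = 1 → c2 v = 0 := by
    intro v hv
    obtain ⟨v', hv', hdec⟩ := decomp hab v
    have qdec : Q v = Q v' + polar Q v b * polar Q v b + polar Q v a * polar Q v a
        + polar Q v b * polar Q v a := by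
      conv_lhs => rw [hdec]
      rw [q_decomp _ _ (pa v' hv') (pb v' hv') hab, ha, hb]
      ring
    rw [hv] at qdec
    rcases z2 (polar Q v b) with h1 | h1 <;> rcases z2 (polar Q v a) with h2 | h2
    · rw [h1, h2, zero_smul, zero_smul, add_zero, add_zero] at hdec
      rw [h1, h2] at qdec
      rw [hdec]
      exact c2P v' hv' (by linear_combination -qdec)
    · rw [h1, h2, zero_smul, one_smul, add_zero] at hdec
      rw [h1, h2] at qdec
      have qv' : Q v' = 0 := by linear_combination -qdec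
      rw [hdec, gb v' hv' qv']
      exact gzero v' hv' qv'
    · rw [h1, h2, zero_smul, one_smul, add_zero] at hdec
      rw [h1, h2] at qdec
      have qv' : Q v' = 0 := by linear_combination -qdec
      rw [hdec]
      exact gzero v' hv' qv'
    · rw [h1, h2, one_smul, one_smul] at hdec
      rw [h1, h2] at qdec
      have qv' : Q v' = 0 := by
        have := z2_add (1 : ZMod 2)
        linear_combination -qdec - this
      rw [hdec, gab v' hv' qv']
      exact gzero v' hv' qv'
  refine ⟨(u' : V) + (c1 b • a + c1 a • b), fun v hv => ?_⟩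
  have := c2zero v hv
  have e3 : c2 v = c v + polar Q (u' : V) v + polar Q (c1 b • a + c1 a • b) v := rfl
  rw [e3] at this
  rw [polar_add_left]
  have t1 := z2_add (polar Q (u' : V) v)
  have t2 := z2_add (polar Q (c1 b • a + c1 a • b) v)
  linear_combination this - t1 - t2

end steps

end Cfsg.Agent.Lib.Helper44.Coh2
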