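import Mathlib
import Cfsg.Agent.Lib.Helper44.Coh2

set_option autoImplicit false

namespace Cfsg.Agent.Lib.Helper44.Coh3

open Module QuadraticMap
open Cfsg.Agent.Lib.Helper44.QSpace Cfsg.Agent.Lib.Helper44.QClass Cfsg.Agent.Lib.Helper44.Split
open Cfsg.Agent.Lib.Helper44.Coh2

universe u

variable {V : Type u} [AddCommGroup V] [Module (ZMod 2) V]

/-- No hyperbolic system with `k` pairs. -/
def NonHyp (Q : QuadraticForm (ZMod 2) V) (k : ℕ) : Prop := ∀ e f : Fin k → V, ¬ IsHyp Q e f

variable {Q : QuadraticForm (ZMod 2) V}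

theorem nonhyp_perp2 {k : ℕ} (h : NonHyp Q (k + 1)) {e₀ f₀ : V} (he : Q e₀ = 0) (hf : Q f₀ = 0)
    (hef : polar Q e₀ f₀ = 1) : NonHyp (res Q (perp2 (polarBilin Q) e₀ f₀)) k :=
  fun _ _ hH => h _ _ (isHyp_cons he hf hef hH)

theorem aniso_of_nonhyp (hS : Sep Q) (h : NonHyp Q 1) {y : V} (hy : y ≠ 0) : Q y = 1 := by
  by_contra hq
  have qy : Q y = 0 := (z2 (Q y)).resolve_right hq
  obtain ⟨f, hf, hyf⟩ := exists_hyp_pair hS hy qy
  apply h (fun _ => y) (fun _ => f)
  refine ⟨fun _ => qy, fun _ => hf, fun i j => ?_, fun _ _ => pself Q y, fun _ _ => pself Q f⟩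
  rw [if_pos (Subsingleton.elim i j)]
  exact hyf

variable [FiniteDimensional (ZMod 2) V]

/-- The claim for an anisotropic plane. -/
theorem claim_two (hS : Sep Q) (hfin : finrank (ZMod 2) V = 2) (h : NonHyp Q 1) : Claim Q := by
  have : Nontrivial V := Module.nontrivial_of_finrank_pos (R := ZMod 2) (by omega)
  obtain ⟨x, hx⟩ := exists_ne_zero hS
  have qx : Q x = 1 := z2_ne hx
  obtain ⟨y, hy⟩ := exists_polar_one hS (ne_zero_of_q qx)
  have hy0 : y ≠ 0 := by
    rintro rfl
    simp at hy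
  have qy : Q y = 1 := aniso_of_nonhyp hS h hy0
  have hxy : polar Q x y = 1 := by rw [polar_comm]; exact hy
  have hfP := finP (Q := Q) hxy
  have hsub : Subsingleton (perp2 (polarBilin Q) x y) := by
    rw [← Module.finrank_zero_iff (R := ZMod 2)]
    omega
  apply claim_ell_step hS qx qy hxy
  · intro c _
    refine ⟨0, fun v hv => ?_⟩
    exfalso
    rw [Subsingleton.elim v 0] at hv
    simp at hv
  · intro z hz hz0
    exfalso
    apply hz0
    have := Subsingleton.elim (⟨z, hz⟩ : perp2 (polarBilin Q) x y) 0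
    exact congrArg Subtype.val this

/-- The claim for an elliptic four-dimensional space. -/
theorem claim_four (hS : Sep Q) (hfin : finrank (ZMod 2) V = 4) (h : NonHyp Q 2) : Claim Q := by
  obtain ⟨e₀, he0, he⟩ := exists_singular hS (by omega)
  obtain ⟨f₀, hf, hef⟩ := exists_hyp_pair hS he0 he
  have hSP := sepP hS hef
  have hfP := finP (Q := Q) hef
  have hNH := nonhyp_perp2 h he hf hef
  have an : ∀ y ∈ perp2 (polarBilin Q) e₀ f₀, y ≠ 0 → Q y = 1 := by
    intro y hy hy0
    exact aniso_of_nonhyp hSP hNH (y := ⟨y, hy⟩) (fun hc => hy0 (congrArg Subtype.val hc))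
  have : Nontrivial (perp2 (polarBilin Q) e₀ f₀) :=
    Module.nontrivial_of_finrank_pos (R := ZMod 2) (by omega)
  apply claim_hyp_step hS he hf hef (claim_two hSP (by omega) hNH)
  · obtain ⟨x, hx⟩ := exists_ne_zero hSP
    exact ⟨x.1, x.2, z2_ne hx⟩
  · intro v hv w hw qv qw hvw hp
    exfalso
    have h1 := an (v + w) (Submodule.add_mem _ hv hw) (by
      intro h0
      apply hvw
      have := vadd w
      linear_combination (norm := module) h0 - this)
    rw [q_add, qv, qw, hp] at h1
    revert h1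
    decide
  · intro y hy hy0 qy
    exfalso
    have := an y hy hy0
    rw [qy] at this
    exact zero_ne_one this

/-- In an elliptic four-dimensional space the orthogonal complement of a hyperbolic pair is
anisotropic. -/
theorem aniso_perp_four (hS : Sep Q) (h : NonHyp Q 2) {y f : V} (qy : Q y = 0) (qf : Q f = 0)
    (hyf : polar Q y f = 1) {x : V} (hx : x ∈ perp2 (polarBilin Q) y f) (hx0 : x ≠ 0) :
    Q x = 1 :=
  aniso_of_nonhyp (sepP hS hyf) (nonhyp_perp2 h qy qf hyf) (y := ⟨x, hx⟩)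
    (fun hc => hx0 (congrArg Subtype.val hc))

theorem no_ts_pair_four (hS : Sep Q) (h : NonHyp Q 2) {s z : V} (hs : s ≠ 0) (hz : z ≠ 0)
    (hzs : z ≠ s) (qs : Q s = 0) (qz : Q z = 0) (hsz : polar Q s z = 0) : False := by
  obtain ⟨f, qf, hsf⟩ := exists_hyp_pair hS hs qs
  have hmem : z + polar Q z f • s ∈ perp2 (polarBilin Q) s f := by
    rw [mem_P]
    constructor
    · rw [polar_add_right, polar_smul_r, pself, hsz]
      ring
    · rw [polar_add_right, polar_smul_r, polar_comm Q f s, hsf, polar_comm Q f z]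
      have := z2_add (polar Q z f)
      linear_combination this
  have hne : z + polar Q z f • s ≠ 0 := by
    intro h0
    rcases z2 (polar Q z f) with h1 | h1
    · rw [h1, zero_smul, add_zero] at h0
      exact hz h0
    · rw [h1, one_smul] at h0
      apply hzs
      have := vadd s
      linear_combination (norm := module) h0 - this
  have h1 := aniso_perp_four hS h qs qf hsf hmem hne
  rw [q_add, q_smul, qz, qs, polar_smul_r, polar_comm Q z s, hsz] at h1
  simp at h1

theorem hI3_four (hS : Sep Q) (hfin : finrank (ZMod 2) V = 4) (h : NonHyp Q 2) {y : V}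
    (hy : y ≠ 0) (qy : Q y = 0) : ∃ x, Q x = 1 ∧ polar Q x y = 0 := by
  obtain ⟨f, qf, hyf⟩ := exists_hyp_pair hS hy qy
  have hfP := finP (Q := Q) hyf
  have : Nontrivial (perp2 (polarBilin Q) y f) :=
    Module.nontrivial_of_finrank_pos (R := ZMod 2) (by omega)
  obtain ⟨x, hx⟩ := exists_ne (0 : perp2 (polarBilin Q) y f)
  refine ⟨x.1, aniso_perp_four hS h qy qf hyf x.2 (fun hc => hx (Subtype.ext hc)), ?_⟩
  rw [polar_comm]
  exact (mem_P.mp x.2).1

theorem conn_four (hS : Sep Q) (h : NonHyp Q 2) {v w : V} (qv : Q v = 1) (qw : Q w = 1)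
    (hvw : v ≠ w) (hp : polar Q v w = 0) : ∃ z, Q z = 1 ∧ polar Q v z = 1 ∧ polar Q w z = 1 := by
  obtain ⟨z₀, h1, h2⟩ := exists_pair_vals hS (ne_zero_of_q qv) (ne_zero_of_q qw) hvw 1 1
  rcases z2 (Q z₀) with hq | hq
  · exfalso
    have hs0 : v + w ≠ 0 := by
      intro h0
      apply hvw
      have := vadd w
      linear_combination (norm := module) h0 - this
    have pz1 : polar Q (z₀ + v) v = 1 := by rw [polar_add_left, h1, pself, add_zero]
    have ps1 : polar Q (v + w) v = 0 := by
      rw [polar_add_left, pself, polar_comm Q w v, hp, add_zero]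
    have hz0 : z₀ + v ≠ 0 := by
      intro h0
      rw [h0] at pz1
      simp at pz1
    have hzs : z₀ + v ≠ v + w := by
      intro h0
      rw [h0, ps1] at pz1
      exact zero_ne_one pz1
    apply no_ts_pair_four hS h hs0 hz0 hzs
    · rw [q_add, qv, qw, hp]; decide
    · rw [q_add, hq, qv, h1]; decide
    · rw [polar_add_left, polar_add_right, polar_add_right, polar_comm Q v z₀, h1, pself,
        polar_comm Q w z₀, h2, polar_comm Q w v, hp]
      decide
  · exact ⟨z₀, hq, by rw [polar_comm]; exact h1, by rw [polar_comm]; exact h2⟩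

/-- The claim for an elliptic six-dimensional space. -/
theorem claim_six (hS : Sep Q) (hfin : finrank (ZMod 2) V = 6) (h : NonHyp Q 3) : Claim Q := by
  obtain ⟨e₀, he0, he⟩ := exists_singular hS (by omega)
  obtain ⟨f₀, hf, hef⟩ := exists_hyp_pair hS he0 he
  have hSP := sepP hS hef
  have hfP := finP (Q := Q) hef
  have hNH := nonhyp_perp2 h he hf hef
  have hfin4 : finrank (ZMod 2) (perp2 (polarBilin Q) e₀ f₀) = 4 := by omega
  have : Nontrivial (perp2 (polarBilin Q) e₀ f₀) :=
    Module.nontrivial_of_finrank_pos (R := ZMod 2) (by omega)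
  apply claim_hyp_step hS he hf hef (claim_four hSP hfin4 hNH)
  · obtain ⟨x, hx⟩ := exists_ne_zero hSP
    exact ⟨x.1, x.2, z2_ne hx⟩
  · intro v hv w hw qv qw hvw hp
    obtain ⟨z, qz, p1, p2⟩ := conn_four hSP hNH (v := ⟨v, hv⟩) (w := ⟨w, hw⟩) qv qw
      (fun hc => hvw (congrArg Subtype.val hc)) hp
    exact ⟨z.1, z.2, qz, p1, p2⟩
  · intro y hy hy0 qy
    obtain ⟨x, qx, px⟩ := hI3_four hSP hfin4 hNH (y := ⟨y, hy⟩)
      (fun hc => hy0 (congrArg Subtype.val hc)) qy
    exact ⟨x.1, x.2, qx, px⟩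

/-- The claim for an eight-dimensional space containing an anisotropic plane with elliptic
orthogonal complement. -/
theorem claim_eight (hS : Sep Q) (hfin : finrank (ZMod 2) V = 8) {a b : V} (ha : Q a = 1)
    (hb : Q b = 1) (hab : polar Q a b = 1)
    (h : NonHyp (res Q (perp2 (polarBilin Q) a b)) 3) : Claim Q := by
  have hSP := sepP hS hab
  have hfP := finP (Q := Q) hab
  have hfin6 : finrank (ZMod 2) (perp2 (polarBilin Q) a b) = 6 := by omega
  apply claim_ell_step hS ha hb hab (claim_six hSP hfin6 h)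
  intro y hy hy0 qy
  have hy0' : (⟨y, hy⟩ : perp2 (polarBilin Q) a b) ≠ 0 := fun hc => hy0 (congrArg Subtype.val hc)
  obtain ⟨f, qf, hyf⟩ := exists_hyp_pair hSP hy0' qy
  have hS2 := sepP hSP hyf
  have hf2 := finP (Q := res Q (perp2 (polarBilin Q) a b)) hyf
  obtain ⟨z, hz0, qz⟩ := exists_singular hS2 (by omega)
  have hzm := mem_P.mp z.2
  refine ⟨z.1.1, z.1.2, ?_, ?_, qz, ?_⟩
  · intro hc
    apply hz0
    apply Subtype.ext
    apply Subtype.ext
    exact hc
  · intro hc
    have h1 : polar Q (f : V) (z.1 : V) = 0 := hzm.2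
    have h2 : polar Q y (f : V) = 1 := hyf
    rw [hc, polar_comm, h2] at h1
    exact one_ne_zero h1
  · have h1 : polar Q y (z.1 : V) = 0 := hzm.1
    rw [polar_comm]
    exact h1

end Cfsg.Agent.Lib.Helper44.Coh3
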