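import Mathlib
import Cfsg.Agent.Lib.Helper44.Der5

set_option autoImplicit false

namespace Cfsg.Agent.Lib.Helper44.SymO1

open Module QuadraticMap

/-- Weight modulo 4 of a vector over the field with two elements. -/
def wt4 {ι : Type*} [Fintype ι] (x : ι → ZMod 2) : ZMod 4 := ∑ i, if x i = 1 then 1 else 0

theorem wt4_comp {ι : Type*} [Fintype ι] (e : ι ≃ ι) (x : ι → ZMod 2) :
    wt4 (fun i => x (e i)) = wt4 x :=
  Equiv.sum_comp e (fun i => if x i = 1 then (1 : ZMod 4) else 0)

theorem wt4_cons {n : ℕ} (a : ZMod 2) (x : Fin n → ZMod 2) :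
    wt4 (Fin.cons a x : Fin (n + 1) → ZMod 2) = (if a = 1 then 1 else 0) + wt4 x := by
  unfold wt4
  rw [Fin.sum_univ_succ]
  simp only [Fin.cons_zero, Fin.cons_succ]

theorem wt4_snoc {n : ℕ} (x : Fin n → ZMod 2) (a : ZMod 2) :
    wt4 (Fin.snoc x a : Fin (n + 1) → ZMod 2) = wt4 x + (if a = 1 then 1 else 0) := by
  unfold wt4
  rw [Fin.sum_univ_castSucc]
  simp only [Fin.snoc_castSucc, Fin.snoc_last]

/-- Parity. -/
def par : ZMod 4 →+ ZMod 2 where
  toFun := fun j => if j = 1 ∨ j = 3 then 1 else 0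
  map_zero' := by decide
  map_add' := by decide

theorem par_apply (j : ZMod 4) : par j = if j = 1 ∨ j = 3 then 1 else 0 := rfl

theorem sum_eq_par {ι : Type*} [Fintype ι] (x : ι → ZMod 2) : ∑ i, x i = par (wt4 x) := by
  unfold wt4
  rw [map_sum]
  apply Finset.sum_congr rfl
  intro i _
  generalize x i = a
  revert a
  decide

/-- The quadratic form `Σ_{i ≤ j} w_i w_j`. -/
def QT (n : ℕ) : QuadraticForm (ZMod 2) (Fin n → ZMod 2) :=
  Matrix.toQuadraticForm' (Matrix.of fun i j : Fin n => if i ≤ j then (1 : ZMod 2) else 0)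

theorem QT_apply (n : ℕ) (w : Fin n → ZMod 2) :
    QT n w = ∑ i, ∑ j, if i ≤ j then w i * w j else 0 := by
  unfold QT Matrix.toQuadraticForm'
  rw [LinearMap.BilinMap.toQuadraticMap_apply, Matrix.toLinearMap₂'_apply]
  apply Finset.sum_congr rfl
  intro i _
  apply Finset.sum_congr rfl
  intro j _
  simp only [Matrix.of_apply, smul_eq_mul]
  split_ifs <;> simp

theorem QT_cons (n : ℕ) (a : ZMod 2) (w : Fin n → ZMod 2) :
    QT (n + 1) (Fin.cons a w) = a * a + a * ∑ i, w i + QT n w := by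
  rw [QT_apply, QT_apply, Fin.sum_univ_succ]
  simp only [Fin.cons_zero, Fin.cons_succ, Fin.sum_univ_succ, Fin.zero_le, if_true,
    Fin.succ_le_succ_iff, Finset.mul_sum]
  have : ∀ i : Fin n, ¬ (Fin.succ i ≤ 0) := fun i => by simp
  simp only [this, if_false, zero_add]

/-- Value of `QT` in terms of the weight. -/
def phi (j : ZMod 4) : ZMod 2 := if j = 1 ∨ j = 2 then 1 else 0

theorem QT_eq : ∀ (n : ℕ) (w : Fin n → ZMod 2), QT n w = phi (wt4 w) := by
  intro n
  induction n with
  | zero =>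
    intro w
    rw [QT_apply]
    simp only [wt4, phi, Finset.univ_eq_empty, Finset.sum_empty]
    decide
  | succ n ih =>
    intro w
    rw [← Fin.cons_self_tail w, QT_cons, wt4_cons, ih, sum_eq_par]
    generalize wt4 (Fin.tail w) = j
    generalize w 0 = a
    revert a j
    decide

theorem polar_QT_single (n : ℕ) (w : Fin n → ZMod 2) (j : Fin n) :
    polar (QT n) w (Pi.single j 1) = ∑ i, w i + w j := by
  unfold QT Matrix.toQuadraticForm'
  rw [LinearMap.BilinMap.polar_toQuadraticMap, Matrix.toLinearMap₂'_apply,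
    Matrix.toLinearMap₂'_apply]
  have hA : ∀ i : Fin n, (∑ l : Fin n, w i • (Pi.single j (1 : ZMod 2) : Fin n → ZMod 2) l •
      (Matrix.of fun i j : Fin n => if i ≤ j then (1 : ZMod 2) else 0) i l)
      = if i ≤ j then w i else 0 := by
    intro i
    rw [Finset.sum_eq_single j (fun b _ hb => by simp [Pi.single_apply, hb])
      (fun h => absurd (Finset.mem_univ _) h)]
    simp
  have hB : (∑ i : Fin n, ∑ l : Fin n, (Pi.single j (1 : ZMod 2) : Fin n → ZMod 2) i • w l •
      (Matrix.of fun i j : Fin n => if i ≤ j then (1 : ZMod 2) else 0) i l)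
      = ∑ l : Fin n, if j ≤ l then w l else 0 := by
    rw [Finset.sum_eq_single j (fun b _ hb => by simp [Pi.single_apply, hb])
      (fun h => absurd (Finset.mem_univ _) h)]
    simp
  rw [Finset.sum_congr rfl (fun i _ => hA i), hB]
  have h1 : ∑ i, w i + w j = ∑ i, (w i + if i = j then w i else 0) := by
    rw [Finset.sum_add_distrib, Finset.sum_ite_eq', if_pos (Finset.mem_univ _)]
  rw [h1, ← Finset.sum_add_distrib]
  apply Finset.sum_congr rfl
  intro i _
  rcases lt_trichotomy i j with h | h | h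
  · simp [h.le, h.not_ge, h.ne]
  · subst h
    simp
  · simp [h.le, h.not_ge, h.ne']

theorem sep_QT {n : ℕ} (hn : Even n) : QSpace.Sep (QT n) := by
  intro w hw
  have h2 : ∀ a : ZMod 2, a + a = 0 := by decide
  have h1 : ∀ j, w j = ∑ i, w i := by
    intro j
    have := hw (Pi.single j 1)
    rw [polar_QT_single] at this
    have e := h2 (w j)
    linear_combination e - this
  have h3 : ∑ i, w i = 0 := by
    have : ∑ j : Fin n, w j = ∑ _j : Fin n, ∑ i, w i := Finset.sum_congr rfl (fun j _ => h1 j)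
    rw [Finset.sum_const, Finset.card_univ, Fintype.card_fin] at this
    obtain ⟨t, rfl⟩ := hn
    rw [this, add_nsmul]
    exact h2 _
  funext j
  rw [h1 j, h3]
  rfl

/-- Weighted count of all vectors by weight class. -/
def S (n : ℕ) (g : ZMod 4 → ℤ) : ℤ := ∑ w : Fin n → ZMod 2, g (wt4 w)

theorem S_zero (g : ZMod 4 → ℤ) : S 0 g = g 0 := by
  unfold S
  rw [Fintype.sum_unique]
  simp [wt4]

theorem S_succ (n : ℕ) (g : ZMod 4 → ℤ) : S (n + 1) g = S n (fun j => g j + g (1 + j)) := by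
  unfold S
  rw [← Equiv.sum_comp (Fin.consEquiv (fun _ : Fin (n + 1) => ZMod 2)), Fintype.sum_prod_type]
  have hu : (Finset.univ : Finset (ZMod 2)) = {0, 1} := by decide
  rw [hu, Finset.sum_pair (by decide), ← Finset.sum_add_distrib]
  apply Finset.sum_congr rfl
  intro w _
  have e0 : (Fin.consEquiv fun _ : Fin (n + 1) => ZMod 2) (0, w) = Fin.cons 0 w := rfl
  have e1 : (Fin.consEquiv fun _ : Fin (n + 1) => ZMod 2) (1, w) = Fin.cons 1 w := rfl
  rw [e0, e1, wt4_cons, wt4_cons]
  simp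

theorem S_const (n : ℕ) (c : ℤ) : S n (fun _ => c) = 2 ^ n * c := by
  unfold S
  rw [Finset.sum_const, Finset.card_univ, Fintype.card_fun, ZMod.card, Fintype.card_fin]
  simp

/-- Indicator of the zero set of `phi`. -/
def g0 (j : ZMod 4) : ℤ := if phi j = 0 then 1 else 0

theorem S_four (n : ℕ) : S (n + 4) g0 = 10 * 2 ^ n - 4 * S n g0 := by
  rw [S_succ, S_succ, S_succ, S_succ]
  have : (fun j : ZMod 4 => g0 j + g0 (1 + j) + (g0 (1 + j) + g0 (1 + (1 + j)))
      + (g0 (1 + j) + g0 (1 + (1 + j)) + (g0 (1 + (1 + j)) + g0 (1 + (1 + (1 + j)))))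
      + (g0 (1 + j) + g0 (1 + (1 + j)) + (g0 (1 + (1 + j)) + g0 (1 + (1 + (1 + j))))
      + (g0 (1 + (1 + j)) + g0 (1 + (1 + (1 + j))) + (g0 (1 + (1 + (1 + j)))
      + g0 (1 + (1 + (1 + (1 + j))))))))
      = fun j => 10 - 4 * g0 j := by
    funext j
    revert j
    decide
  rw [this]
  unfold S
  rw [Finset.sum_sub_distrib, ← Finset.mul_sum, Finset.sum_const, Finset.card_univ,
    Fintype.card_fun, ZMod.card, Fintype.card_fin]
  simp
  ring

theorem S_closed (k : ℕ) : S (4 * k + 2) g0 = 2 ^ (4 * k + 1) - (-1) ^ k * 2 ^ (2 * k) := by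
  induction k with
  | zero =>
    rw [S_succ, S_succ, S_zero]
    decide
  | succ k ih =>
    have : 4 * (k + 1) + 2 = 4 * k + 2 + 4 := by ring
    rw [this, S_four, ih]
    ring

theorem card_zero_QT (n : ℕ) :
    (Nat.card {w : Fin n → ZMod 2 // QT n w = 0} : ℤ) = S n g0 := by
  classical
  rw [Nat.card_eq_fintype_card, Fintype.card_subtype, Finset.card_filter]
  unfold S g0
  push_cast
  apply Finset.sum_congr rfl
  intro w _
  rw [QT_eq]

end Cfsg.Agent.Lib.Helper44.SymO1
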