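import Mathlib
import Cfsg.Agent.Lib.Helper44.SymO1

set_option autoImplicit false

namespace Cfsg.Agent.Lib.Helper44.SymO2

open Module QuadraticMap
open Cfsg.Agent.Lib.Helper44.QSpace Cfsg.Agent.Lib.Helper44.QClass
open Cfsg.Agent.Lib.Helper44.NegPairs Cfsg.Agent.Lib.Helper44.QCount
open Cfsg.Agent.Lib.Helper44.QBasis Cfsg.Agent.Lib.Helper44.SpinCount
open Cfsg.Agent.Lib.Helper44.SymO1

theorem card_zero_plus (m : ℕ) :
    (Nat.card {v : Fin m ⊕ Fin m → ZMod 2 // plusQ m (ZMod 2) v = 0} : ℤ) * 2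
      = 2 ^ (m + 1) + (2 ^ m - 1) * 2 ^ m := by
  have h := card_plusForm_mul (F := ZMod 2) (κ := Fin m) (0 : ZMod 2)
  rw [if_pos rfl, ZMod.card, Fintype.card_fin] at h
  have h1 : 1 ≤ 2 ^ m := Nat.one_le_two_pow
  have h' : Nat.card {v : Fin m ⊕ Fin m → ZMod 2 // plusQ m (ZMod 2) v = 0} * 2
      = 2 ^ (m + 1) + (2 ^ m - 1) * 2 ^ m := h
  have := congrArg (Nat.cast : ℕ → ℤ) h'
  push_cast [Nat.cast_sub h1] at this
  exact this

theorem card_zero_minus (n : ℕ) :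
    (Nat.card {v : (Fin n ⊕ Fin n) ⊕ Fin 2 → ZMod 2 // minusQ n (ZMod 2) 1 1 v = 0} : ℤ) * 2
      = 2 ^ (n + 1) + 4 * ((2 ^ n - 1) * 2 ^ n) := by
  set R : (Fin 2 → ZMod 2) → ZMod 2 := fun w => w 0 ^ 2 + 1 * w 0 * w 1 + 1 * w 1 ^ 2 with hR
  have h := card_hypForm_mul (F := ZMod 2) (κ := Fin n) (τ := Fin 2) R (0 : ZMod 2)
  have hR1 : Nat.card {w : Fin 2 → ZMod 2 // R w = 0} = 1 := by
    rw [Nat.card_eq_one_iff_unique]
    have key : ∀ a b : ZMod 2, a ^ 2 + 1 * a * b + 1 * b ^ 2 = 0 → a = 0 ∧ b = 0 := by decide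
    refine ⟨⟨?_⟩, ⟨⟨0, by simp [hR]⟩⟩⟩
    rintro ⟨w, hw⟩ ⟨w', hw'⟩
    apply Subtype.ext
    obtain ⟨e0, e1⟩ := key _ _ hw
    obtain ⟨e0', e1'⟩ := key _ _ hw'
    funext i
    fin_cases i
    · exact e0.trans e0'.symm
    · exact e1.trans e1'.symm
  rw [hR1, one_mul, ZMod.card, Fintype.card_fin, Fintype.card_fin] at h
  have h1 : 1 ≤ 2 ^ n := Nat.one_le_two_pow
  have h' : Nat.card {v : (Fin n ⊕ Fin n) ⊕ Fin 2 → ZMod 2 // minusQ n (ZMod 2) 1 1 v = 0} * 2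
      = 2 ^ (n + 1) + 2 ^ 2 * ((2 ^ n - 1) * 2 ^ n) := h
  have := congrArg (Nat.cast : ℕ → ℤ) h'
  push_cast [Nat.cast_sub h1] at this
  rw [this]

section iso

universe u

variable {F : Type*} [Field F] {V : Type u} [AddCommGroup V] [Module F V] [FiniteDimensional F V]

/-- A form with a hyperbolic basis is isometric to the plus-type form. -/
theorem exists_iso_plus (Q : QuadraticForm F V) {m : ℕ} {e f : Fin m → V} (hH : IsHyp Q e f)
    (hfin : finrank F V = 2 * m) :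
    ∃ Ψ : V ≃ₗ[F] (Fin m ⊕ Fin m → F), ∀ v, plusQ m F (Ψ v) = Q v := by
  have her : ∀ (i : Fin m) (t : Fin 0), polar Q (e i) (Fin.elim0 t : V) = 0 := fun i t => t.elim0
  have hfr : ∀ (i : Fin m) (t : Fin 0), polar Q (f i) (Fin.elim0 t : V) = 0 := fun i t => t.elim0
  have hli : LinearIndependent F (Fin.elim0 : Fin 0 → V) := linearIndependent_empty_type
  obtain ⟨bs, hbs⟩ := exists_hyp_basis hH (Fin.elim0 : Fin 0 → V) hli her hfr
    (by rw [Fintype.card_fin, hfin]; ring)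
  refine ⟨bs.equivFun.trans (LinearEquiv.funCongrLeft F F (Equiv.sumEmpty (Fin m ⊕ Fin m) (Fin 0)).symm),
    fun v => ?_⟩
  rw [q_eq_hyp hH (Fin.elim0 : Fin 0 → V) her hfr bs hbs v]
  simp only [Finset.univ_eq_empty, Finset.sum_empty, QuadraticMap.map_zero, add_zero]
  rfl

end iso

/-- Transfer of the number of zeros along an isometry. -/
theorem card_zero_congr {F : Type*} [Field F] {V W : Type*} [AddCommGroup V] [Module F V]
    [AddCommGroup W] [Module F W] {Q : QuadraticForm F V} {Q' : QuadraticForm F W}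
    (Ψ : V ≃ₗ[F] W) (h : ∀ v, Q' (Ψ v) = Q v) :
    Nat.card {v : V // Q v = 0} = Nat.card {w : W // Q' w = 0} :=
  Nat.card_congr (Ψ.toEquiv.subtypeEquiv (fun v => by
    show Q v = 0 ↔ Q' (Ψ v) = 0
    rw [h]))

theorem QT_plus (k : ℕ) (hk : Odd k) :
    ∃ Ψ : (Fin (4 * k + 2) → ZMod 2) ≃ₗ[ZMod 2] (Fin (2 * k + 1) ⊕ Fin (2 * k + 1) → ZMod 2),
      ∀ v, plusQ (2 * k + 1) (ZMod 2) (Ψ v) = QT (4 * k + 2) v := by
  have hfin : finrank (ZMod 2) (Fin (4 * k + 2) → ZMod 2) = 2 * (2 * k + 1) := by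
    rw [Module.finrank_fin_fun]; ring
  have hS : Sep (QT (4 * k + 2)) := sep_QT ⟨2 * k + 1, by ring⟩
  have hc : (Nat.card {w : Fin (4 * k + 2) → ZMod 2 // QT (4 * k + 2) w = 0} : ℤ)
      = 2 ^ (4 * k + 1) + 2 ^ (2 * k) := by
    rw [card_zero_QT, S_closed, hk.neg_one_pow]
    ring
  rcases exists_hyp_even (F := ZMod 2) (2 * k) _ (QT (4 * k + 2)) hfin hS with
    ⟨e, f, hH⟩ | ⟨e, f, x, y, ζ, hH, hE, hO⟩
  · exact exists_iso_plus _ hH hfin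
  · exfalso
    have : CharP (ZMod 2) 2 := ZMod.charP 2
    obtain ⟨Ψ, hΨ⟩ := Der5.exists_iso_minus (F := ZMod 2) (QT (4 * k + 2)) (a := 1) (b := 1)
      (by decide) hH hE hO hfin
    have h1 := card_zero_congr Ψ hΨ
    have h2 := card_zero_minus (2 * k)
    rw [← h1, hc] at h2
    have hA : (0 : ℤ) < 2 ^ (2 * k) := by positivity
    have e1 : (2 : ℤ) ^ (4 * k + 1) = 2 * (2 ^ (2 * k)) ^ 2 := by
      rw [← pow_mul, ← pow_succ']
      congr 1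
      ring
    have e2 : (2 : ℤ) ^ (2 * k + 1) = 2 * 2 ^ (2 * k) := by rw [pow_succ']
    rw [e1, e2] at h2
    nlinarith

theorem QT_minus (k : ℕ) (hk : Even k) :
    ∃ Ψ : (Fin (4 * k + 2) → ZMod 2) ≃ₗ[ZMod 2] ((Fin (2 * k) ⊕ Fin (2 * k)) ⊕ Fin 2 → ZMod 2),
      ∀ v, minusQ (2 * k) (ZMod 2) 1 1 (Ψ v) = QT (4 * k + 2) v := by
  have hfin : finrank (ZMod 2) (Fin (4 * k + 2) → ZMod 2) = 2 * (2 * k + 1) := by
    rw [Module.finrank_fin_fun]; ring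
  have hS : Sep (QT (4 * k + 2)) := sep_QT ⟨2 * k + 1, by ring⟩
  have hc : (Nat.card {w : Fin (4 * k + 2) → ZMod 2 // QT (4 * k + 2) w = 0} : ℤ)
      = 2 ^ (4 * k + 1) - 2 ^ (2 * k) := by
    rw [card_zero_QT, S_closed, hk.neg_one_pow]
    ring
  rcases exists_hyp_even (F := ZMod 2) (2 * k) _ (QT (4 * k + 2)) hfin hS with
    ⟨e, f, hH⟩ | ⟨e, f, x, y, ζ, hH, hE, hO⟩
  · exfalso
    obtain ⟨Ψ, hΨ⟩ := exists_iso_plus _ hH hfin
    have h1 := card_zero_congr Ψ hΨ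
    have h2 := card_zero_plus (2 * k + 1)
    rw [← h1, hc] at h2
    have hA : (0 : ℤ) < 2 ^ (2 * k) := by positivity
    have e1 : (2 : ℤ) ^ (4 * k + 1) = 2 * (2 ^ (2 * k)) ^ 2 := by
      rw [← pow_mul, ← pow_succ']
      congr 1
      ring
    have e2 : (2 : ℤ) ^ (2 * k + 1) = 2 * 2 ^ (2 * k) := by rw [pow_succ']
    have e3 : (2 : ℤ) ^ (2 * k + 1 + 1) = 4 * 2 ^ (2 * k) := by rw [pow_succ, pow_succ]; ring
    rw [e1, e2, e3] at h2
    nlinarith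
  · have : CharP (ZMod 2) 2 := ZMod.charP 2
    exact Der5.exists_iso_minus (F := ZMod 2) (QT (4 * k + 2)) (a := 1) (b := 1)
      (by decide) hH hE hO hfin

end Cfsg.Agent.Lib.Helper44.SymO2
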