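import Mathlib
import Cfsg.Agent.Lib.Helper44.Coh1
import Cfsg.Agent.Lib.Helper44.Coh3
import Cfsg.Agent.Lib.Helper44.Inv8
import Cfsg.Agent.Lib.Helper44.SymO2

set_option autoImplicit false

namespace Cfsg.Agent.Lib.Helper44.Coh4

open Module QuadraticMap
open Cfsg.Agent.Lib.Helper44.QSpace Cfsg.Agent.Lib.Helper44.QClass Cfsg.Agent.Lib.Helper44.Split
open Cfsg.Agent.Lib.Helper44.OGroup Cfsg.Agent.Lib.Helper44.Omega2 Cfsg.Agent.Lib.Helper44.CD2a
open Cfsg.Agent.Lib.Helper44.Coh2 Cfsg.Agent.Lib.Helper44.Coh3
open Cfsg.Agent.Lib.Helper44.Spinor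

universe u

variable {V : Type u} [AddCommGroup V] [Module (ZMod 2) V] {Q : QuadraticForm (ZMod 2) V}

theorem refl1 {v : V} (qv : Q v = 1) (x : V) : reflE Q v x = x + polar Q x v • v := by
  rw [reflE_apply, qv, inv_one, one_mul]
  have := vadd (polar Q x v • v)
  linear_combination (norm := module) -this

/-- Crossed homomorphisms on the full orthogonal group are principal, given the linearity
claim. -/
theorem principal_O (hS : Sep Q) (hCD : CDP Q) (hC : Claim Q) (d : ↥(O Q) → V)
    (hd : ∀ g h : ↥(O Q), d (g * h) = d g + (g : V ≃ₗ[ZMod 2] V) (d h)) :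
    ∃ u, ∀ g : ↥(O Q), d g = (g : V ≃ₗ[ZMod 2] V) u - u := by
  classical
  have hd1 : d 1 = 0 := by
    have := hd 1 1
    rw [mul_one] at this
    have e : ((1 : ↥(O Q)) : V ≃ₗ[ZMod 2] V) (d 1) = d 1 := rfl
    rw [e] at this
    exact left_eq_add.mp this
  have coe_refl : ∀ v x, ((refl Q v : ↥(O Q)) : V ≃ₗ[ZMod 2] V) x = reflE Q v x := fun _ _ => rfl
  -- (2)
  have s2 : ∀ v, Q v = 1 → polar Q (d (refl Q v)) v = 0 := by
    intro v qv
    have h1 := hd (refl Q v) (refl Q v)
    rw [refl_mul_self, hd1, coe_refl, refl1 qv] at h1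
    have h2 : polar Q (d (refl Q v)) v • v = 0 := by
      have := vadd (d (refl Q v))
      linear_combination (norm := module) -h1 - this
    rcases smul_eq_zero.mp h2 with h3 | h3
    · exact h3
    · exact absurd h3 (ne_zero_of_q qv)
  -- (3)
  have s3 : ∀ v w, Q v = 1 → Q w = 1 → v ≠ w → polar Q v w = 0 →
      polar Q (d (refl Q w)) v = 0 := by
    intro v w qv qw hvw hp
    have hcomm : refl Q v * refl Q w = refl Q w * refl Q v := by
      apply Subtype.ext
      apply LinearEquiv.ext
      intro x
      show reflE Q v (reflE Q w x) = reflE Q w (reflE Q v x)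
      rw [refl1 qw, refl1 qv, refl1 qv, refl1 qw, polar_add_left, polar_add_left, polar_smul_l,
        polar_smul_l, polar_comm Q w v, hp]
      module
    have h1 := hd (refl Q v) (refl Q w)
    have h2 := hd (refl Q w) (refl Q v)
    rw [hcomm, h2, coe_refl, coe_refl, refl1 qw, refl1 qv] at h1
    have h3 : polar Q (d (refl Q w)) v • v = polar Q (d (refl Q v)) w • w := by
      linear_combination (norm := module) -h1
    rcases z2 (polar Q (d (refl Q w)) v) with h4 | h4
    · exact h4
    · exfalso
      rw [h4, one_smul] at h3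
      rcases z2 (polar Q (d (refl Q v)) w) with h5 | h5
      · rw [h5, zero_smul] at h3
        exact ne_zero_of_q qv h3
      · rw [h5, one_smul] at h3
        exact hvw h3
  -- (4)
  have s4 : ∀ w x, Q w = 1 → polar Q x w = 0 → polar Q (d (refl Q w)) x = 0 := by
    intro w x qw hx
    rcases z2 (Q x) with qx | qx
    · by_cases hx0 : x = 0
      · rw [hx0]; simp
      have h1 := s3 (x + w) w (by rw [q_add, qx, qw, hx]; decide) qw (by
        intro h0
        apply hx0
        linear_combination (norm := module) h0) (by rw [polar_add_left, hx, pself, add_zero])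
      rw [polar_add_right, s2 w qw, add_zero] at h1
      exact h1
    · by_cases hxw : x = w
      · rw [hxw]; exact s2 w qw
      · exact s3 x w qx qw hxw hx
  -- (5)
  have s5 : ∀ w, Q w = 1 → ∃ κ : ZMod 2, d (refl Q w) = κ • w := by
    intro w qw
    obtain ⟨z, hz⟩ := exists_polar_one hS (ne_zero_of_q qw)
    refine ⟨polar Q (d (refl Q w)) z, ?_⟩
    have h0 : d (refl Q w) + polar Q (d (refl Q w)) z • w = 0 := by
      apply hS
      intro x
      have h1 := s4 w (x + polar Q x w • z) qw (by
        rw [polar_add_left, polar_smul_l, hz, mul_one]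
        exact z2_add _)
      rw [polar_add_right, polar_smul_r] at h1
      rw [polar_add_left, polar_smul_l, polar_comm Q w x]
      linear_combination h1
    have := vadd (polar Q (d (refl Q w)) z • w)
    linear_combination (norm := module) h0 - this
  -- (6)
  set c : V → ZMod 2 := fun w => if d (refl Q w) = 0 then 0 else 1 with hc
  have s6 : ∀ w, Q w = 1 → d (refl Q w) = c w • w := by
    intro w qw
    obtain ⟨κ, hκ⟩ := s5 w qw
    by_cases h0 : d (refl Q w) = 0
    · have : c w = 0 := if_pos h0
      rw [this, zero_smul, h0]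
    · have : c w = 1 := if_neg h0
      rw [this, one_smul, hκ]
      rcases z2 κ with h1 | h1
      · rw [h1, zero_smul] at hκ
        exact absurd hκ h0
      · rw [h1, one_smul]
  -- (7)
  have s7 : LineAdd Q c := by
    intro v w qv qw hvw
    have qvw : Q (v + w) = 1 := by rw [q_add, qv, qw, hvw]; decide
    have hconj : refl Q (v + w) = refl Q v * refl Q w * refl Q v := by
      apply Subtype.ext
      have h1 := conj_reflE (reflE_mem Q v) w
      rw [reflE_inv, refl1 qv, polar_comm Q w v, hvw, one_smul, add_comm w v] at h1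
      exact h1.symm
    have h1 := hd (refl Q v * refl Q w) (refl Q v)
    rw [hd (refl Q v) (refl Q w), ← hconj, s6 _ qvw, s6 v qv, s6 w qw] at h1
    have e1 : ((refl Q v * refl Q w : ↥(O Q)) : V ≃ₗ[ZMod 2] V) (c v • v)
        = reflE Q v (reflE Q w (c v • v)) := rfl
    have e_w : reflE Q v w = v + w := by
      rw [refl1 qv, polar_comm Q w v, hvw, one_smul, add_comm]
    have e_wv : reflE Q w v = v + w := by rw [refl1 qw, hvw, one_smul]
    have e_vv : reflE Q v (v + w) = w := by
      rw [map_add, e_w, refl1 qv, pself, zero_smul, add_zero]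
      have := vadd v
      linear_combination (norm := module) this
    rw [e1, coe_refl, map_smul, map_smul, map_smul, e_wv, e_vv, e_w] at h1
    have h2 : (c (v + w) + c v + c w) • (v + w) = 0 := by
      have t1 := vadd (c v • v)
      have t2 := vadd (c w • w)
      have t3 := vadd (c w • v)
      have t4 := vadd (c v • w)
      linear_combination (norm := module) h1 + t1 + t2 + t3 + t4
    rcases smul_eq_zero.mp h2 with h3 | h3
    · have t1 := z2_add (c v)
      have t2 := z2_add (c w)
      linear_combination h3 - t1 - t2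
    · exact absurd h3 (ne_zero_of_q qvw)
  obtain ⟨u, hu⟩ := hC c s7
  have s8 : ∀ v, Q v = 1 → d (refl Q v) = reflE Q v u - u := by
    intro v qv
    rw [s6 v qv, hu v qv, refl1 qv]
    abel
  have s9 : ∀ vs : List V, (∀ v ∈ vs, Q v ≠ 0) →
      d ((vs.map (refl Q)).prod) = (((vs.map (refl Q)).prod : ↥(O Q)) : V ≃ₗ[ZMod 2] V) u - u := by
    intro vs
    induction vs with
    | nil =>
      intro _
      rw [List.map_nil, List.prod_nil, hd1]
      show (0 : V) = u - u
      rw [sub_self]
    | cons v vs ih =>
      intro hvs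
      have qv : Q v = 1 := z2_ne (hvs v List.mem_cons_self)
      rw [List.map_cons, List.prod_cons, hd, ih (fun x hx => hvs x (List.mem_cons_of_mem _ hx)),
        s8 v qv, coe_refl, map_sub]
      show _ = reflE Q v ((((vs.map (refl Q)).prod : ↥(O Q)) : V ≃ₗ[ZMod 2] V) u) - u
      abel
  refine ⟨u, fun g => ?_⟩
  obtain ⟨vs, hvs, hg⟩ := hCD g.1 g.2
  have e : g = (vs.map (refl Q)).prod := by
    apply Subtype.ext
    rw [coe_prod_refl]
    exact hg
  rw [e]
  exact s9 vs hvs

/-- Crossed homomorphisms on the commutator subgroup of the orthogonal group are principal,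
given the linearity claim. -/
theorem principal_comm [FiniteDimensional (ZMod 2) V] [Nontrivial V] (hS : Sep Q) (hG : Good Q)
    (hC : Claim Q) (d : ↥(O Q) → V)
    (hd : ∀ g ∈ commutator ↥(O Q), ∀ h ∈ commutator ↥(O Q),
      d (g * h) = d g + (g : V ≃ₗ[ZMod 2] V) (d h)) :
    ∃ u, ∀ g ∈ commutator ↥(O Q), d g = (g : V ≃ₗ[ZMod 2] V) u - u := by
  have : CharP (ZMod 2) 2 := ZMod.charP 2
  have hCD : CDP Q := cdp_two hS hG
  obtain ⟨v₀, hv₀⟩ := exists_ne_zero hS
  have hN : (commutator ↥(O Q)).Normal := by
    rw [commutator_def]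
    infer_instance
  refine Coh1.principal_of_index_two (O Q).subtype (commutator ↥(O Q)) (refl Q v₀)
    (refl_mul_self Q v₀) ?_ (principal_O hS hCD hC) d hd
  intro g
  obtain ⟨vs, hvs, hg⟩ := hCD g.1 g.2
  have e : g = (vs.map (refl Q)).prod := by
    apply Subtype.ext
    rw [coe_prod_refl]
    exact hg
  rcases Nat.even_or_odd vs.length with he | ho
  · left
    rw [e]
    exact even_prod_mem_commutator hS hG vs hvs he
  · right
    rw [e]
    have := even_prod_mem_commutator hS hG (v₀ :: vs) (by
      intro x hx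
      rcases List.mem_cons.mp hx with rfl | hx
      · exact hv₀
      · exact hvs x hx) (by
      rw [List.length_cons]
      exact ho.add_one)
    rwa [List.map_cons, List.prod_cons] at this

end Cfsg.Agent.Lib.Helper44.Coh4
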