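import Mathlib
import Cfsg.Agent.Lib.Helper44.Coh4

set_option autoImplicit false

namespace Cfsg.Agent.Lib.Helper44.Coh5

open Module QuadraticMap
open Cfsg.Agent.Lib.Helper44.QSpace Cfsg.Agent.Lib.Helper44.QClass Cfsg.Agent.Lib.Helper44.Split
open Cfsg.Agent.Lib.Helper44.OGroup Cfsg.Agent.Lib.Helper44.Omega2 Cfsg.Agent.Lib.Helper44.CD2a
open Cfsg.Agent.Lib.Helper44.Coh2 Cfsg.Agent.Lib.Helper44.Coh3 Cfsg.Agent.Lib.Helper44.Coh4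
open Cfsg.Agent.Lib.Helper44.OMat Cfsg.Agent.Lib.Helper44.OMat2 Cfsg.Agent.Lib.Helper44.NegPairs

/-- Matrix form: crossed homomorphisms of `Ω(Q)` into the natural module are principal. -/
theorem principal_omega {ι : Type} [Fintype ι] [DecidableEq ι] [Nonempty ι]
    (Q : QuadraticForm (ZMod 2) (ι → ZMod 2)) (hS : Sep Q) (hG : Good Q) (hC : Claim Q)
    (f : ↥(Cfsg.Omega (ZMod 2) ⇑Q) → (ι → ZMod 2))
    (hf : ∀ g h : ↥(Cfsg.Omega (ZMod 2) ⇑Q), f (g * h) = f g + Matrix.mulVec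
      (((g : ↥(Cfsg.isometryGroup (ZMod 2) ⇑Q)) : GL ι (ZMod 2)) : Matrix ι ι (ZMod 2)) (f h)) :
    ∃ v : ι → ZMod 2, ∀ g : ↥(Cfsg.Omega (ZMod 2) ⇑Q), f g = Matrix.mulVec
      (((g : ↥(Cfsg.isometryGroup (ZMod 2) ⇑Q)) : GL ι (ZMod 2)) : Matrix ι ι (ZMod 2)) v - v := by
  classical
  have mem : ∀ x : ↥(O Q), x ∈ commutator ↥(O Q) →
      (isoEquiv Q).symm x ∈ Cfsg.Omega (ZMod 2) ⇑Q := by
    intro x hx
    rw [mem_omega_iff, MulEquiv.apply_symm_apply]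
    exact hx
  set d : ↥(O Q) → (ι → ZMod 2) := fun x =>
    if h : (isoEquiv Q).symm x ∈ Cfsg.Omega (ZMod 2) ⇑Q then f ⟨(isoEquiv Q).symm x, h⟩ else 0
    with hd
  have dpos : ∀ x (hx : x ∈ commutator ↥(O Q)), d x = f ⟨(isoEquiv Q).symm x, mem x hx⟩ :=
    fun x hx => dif_pos (mem x hx)
  obtain ⟨u, hu⟩ := principal_comm hS hG hC d (by
    intro g hg h hh
    rw [dpos g hg, dpos h hh, dpos (g * h) (Subgroup.mul_mem _ hg hh)]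
    have e : (⟨(isoEquiv Q).symm (g * h), mem _ (Subgroup.mul_mem _ hg hh)⟩ :
        ↥(Cfsg.Omega (ZMod 2) ⇑Q))
        = ⟨(isoEquiv Q).symm g, mem g hg⟩ * ⟨(isoEquiv Q).symm h, mem h hh⟩ :=
      Subtype.ext (map_mul (isoEquiv Q).symm g h)
    rw [e, hf]
    congr 1
    exact isoEquiv_symm_mulVec Q g _)
  refine ⟨u, fun g => ?_⟩
  have hx : isoEquiv Q g.1 ∈ commutator ↥(O Q) := (mem_omega_iff Q g.1).mp g.2
  have h1 := hu (isoEquiv Q g.1) hx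
  rw [dpos _ hx] at h1
  have e : (⟨(isoEquiv Q).symm (isoEquiv Q g.1), mem _ hx⟩ : ↥(Cfsg.Omega (ZMod 2) ⇑Q)) = g :=
    Subtype.ext ((isoEquiv Q).symm_apply_apply g.1)
  rw [e] at h1
  rw [h1]
  rfl

theorem hab11 : ∀ z₁ z₂ : ZMod 2, z₁ ^ 2 + 1 * z₁ * z₂ + 1 * z₂ ^ 2 = 0 → z₁ = 0 ∧ z₂ = 0 := by
  decide

theorem nonhyp_minus (n : ℕ) : NonHyp (minusQ n (ZMod 2) 1 1) (n + 1) := by
  intro e f hH
  have hfin : finrank (ZMod 2) ((Fin n ⊕ Fin n) ⊕ Fin 2 → ZMod 2) = 2 * (n + 1) := by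
    rw [Module.finrank_fintype_fun_eq_card]
    simp only [Fintype.card_sum, Fintype.card_fin]
    ring
  obtain ⟨Ψ, hΨ⟩ := SymO2.exists_iso_plus _ hH hfin
  have h1 := SymO2.card_zero_congr Ψ hΨ
  have h2 := SymO2.card_zero_minus n
  have h3 := SymO2.card_zero_plus (n + 1)
  rw [h1, h3] at h2
  have hA : (0 : ℤ) < 2 ^ n := by positivity
  rw [pow_succ, pow_succ] at h2
  have : (4 : ℤ) * 2 ^ n = 0 := by linear_combination h2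
  omega

theorem claim_minus1 : Claim (minusQ 1 (ZMod 2) 1 1) := by
  have : CharP (ZMod 2) 2 := ZMod.charP 2
  apply claim_four (Inv6.sep_minusQ_two 1 1 1 hab11) _ (nonhyp_minus 1)
  rw [Module.finrank_fintype_fun_eq_card]
  rfl

theorem claim_minus2 : Claim (minusQ 2 (ZMod 2) 1 1) := by
  have : CharP (ZMod 2) 2 := ZMod.charP 2
  apply claim_six (Inv6.sep_minusQ_two 2 1 1 hab11) _ (nonhyp_minus 2)
  rw [Module.finrank_fintype_fun_eq_card]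
  rfl

/-- First vector of an anisotropic plane in the plus-type space of dimension eight. -/
def va : Fin 4 ⊕ Fin 4 → ZMod 2 := Pi.single (Sum.inl 0) 1 + Pi.single (Sum.inr 0) 1

/-- Second vector of an anisotropic plane in the plus-type space of dimension eight. -/
def vb : Fin 4 ⊕ Fin 4 → ZMod 2 :=
  Pi.single (Sum.inl 0) 1 + Pi.single (Sum.inl 1) 1 + Pi.single (Sum.inr 1) 1

theorem q_va : plusQ 4 (ZMod 2) va = 1 := by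
  show Cfsg.quadFormPlus 4 (ZMod 2) va = 1
  unfold Cfsg.quadFormPlus va
  decide

theorem q_vb : plusQ 4 (ZMod 2) vb = 1 := by
  show Cfsg.quadFormPlus 4 (ZMod 2) vb = 1
  unfold Cfsg.quadFormPlus vb
  decide

theorem q_vab : plusQ 4 (ZMod 2) (va + vb) = 1 := by
  show Cfsg.quadFormPlus 4 (ZMod 2) (va + vb) = 1
  unfold Cfsg.quadFormPlus va vb
  decide

theorem polar_vab : polar (plusQ 4 (ZMod 2)) va vb = 1 := by
  unfold polar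
  rw [q_vab, q_va, q_vb]
  decide

theorem claim_plus4 : Claim (plusQ 4 (ZMod 2)) := by
  have : CharP (ZMod 2) 2 := ZMod.charP 2
  have hfin : finrank (ZMod 2) (Fin 4 ⊕ Fin 4 → ZMod 2) = 8 := by
    rw [Module.finrank_fintype_fun_eq_card]
    rfl
  apply claim_eight (sep_plusQ 4) hfin q_va q_vb polar_vab
  intro e f hH
  obtain ⟨h1, h2, h3, h4, h5⟩ := hH
  have hH' : IsHyp (plusQ 4 (ZMod 2)) (fun i => ((e i : perp2 (polarBilin (plusQ 4 (ZMod 2))) va vb)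
      : Fin 4 ⊕ Fin 4 → ZMod 2)) (fun i => (f i : Fin 4 ⊕ Fin 4 → ZMod 2)) :=
    ⟨fun i => h1 i, fun i => h2 i, fun i j => h3 i j, fun i j => h4 i j, fun i j => h5 i j⟩
  have hE : IsEll (plusQ 4 (ZMod 2)) va vb 1 := ⟨q_va, polar_vab, q_vb, by decide⟩
  have horth : ∀ i, polar (plusQ 4 (ZMod 2)) ((e i : perp2 (polarBilin (plusQ 4 (ZMod 2))) va vb)
      : Fin 4 ⊕ Fin 4 → ZMod 2) va = 0 ∧
      polar (plusQ 4 (ZMod 2)) (e i : Fin 4 ⊕ Fin 4 → ZMod 2) vb = 0 ∧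
      polar (plusQ 4 (ZMod 2)) (f i : Fin 4 ⊕ Fin 4 → ZMod 2) va = 0 ∧
      polar (plusQ 4 (ZMod 2)) (f i : Fin 4 ⊕ Fin 4 → ZMod 2) vb = 0 := by
    intro i
    have me := mem_P.mp (e i).2
    have mf := mem_P.mp (f i).2
    refine ⟨?_, ?_, ?_, ?_⟩
    · rw [polar_comm]; exact me.1
    · rw [polar_comm]; exact me.2
    · rw [polar_comm]; exact mf.1
    · rw [polar_comm]; exact mf.2
  obtain ⟨Ψ, hΨ⟩ := Der5.exists_iso_minus (F := ZMod 2) (plusQ 4 (ZMod 2)) (a := 1) (b := 1)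
    hab11 hH' hE horth (by rw [hfin])
  have k1 := SymO2.card_zero_congr Ψ hΨ
  have k2 := SymO2.card_zero_plus 4
  have k3 := SymO2.card_zero_minus 3
  rw [k1, k3] at k2
  norm_num at k2

/-- The three vanishing statements, in matrix form. -/
theorem h1_minus1 (f : ↥(Cfsg.Omega (ZMod 2) (Cfsg.quadFormMinus 1 (ZMod 2) 1 1)) →
      ((Fin 1 ⊕ Fin 1) ⊕ Fin 2 → ZMod 2))
    (hf : ∀ g h : ↥(Cfsg.Omega (ZMod 2) (Cfsg.quadFormMinus 1 (ZMod 2) 1 1)),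
      f (g * h) = f g + Matrix.mulVec (((g : ↥(Cfsg.isometryGroup (ZMod 2)
        (Cfsg.quadFormMinus 1 (ZMod 2) 1 1))) : GL ((Fin 1 ⊕ Fin 1) ⊕ Fin 2) (ZMod 2)) :
        Matrix ((Fin 1 ⊕ Fin 1) ⊕ Fin 2) ((Fin 1 ⊕ Fin 1) ⊕ Fin 2) (ZMod 2)) (f h)) :
    ∃ v : (Fin 1 ⊕ Fin 1) ⊕ Fin 2 → ZMod 2,
      ∀ g : ↥(Cfsg.Omega (ZMod 2) (Cfsg.quadFormMinus 1 (ZMod 2) 1 1)),
      f g = Matrix.mulVec (((g : ↥(Cfsg.isometryGroup (ZMod 2)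
        (Cfsg.quadFormMinus 1 (ZMod 2) 1 1))) : GL ((Fin 1 ⊕ Fin 1) ⊕ Fin 2) (ZMod 2)) :
        Matrix ((Fin 1 ⊕ Fin 1) ⊕ Fin 2) ((Fin 1 ⊕ Fin 1) ⊕ Fin 2) (ZMod 2)) v - v := by
  have : CharP (ZMod 2) 2 := ZMod.charP 2
  have hS := Inv6.sep_minusQ_two (F := ZMod 2) 1 1 1 hab11
  exact principal_omega (minusQ 1 (ZMod 2) 1 1) hS (Inv8.good_minusQ hS hab11) claim_minus1 f hf

theorem h1_minus2 (f : ↥(Cfsg.Omega (ZMod 2) (Cfsg.quadFormMinus 2 (ZMod 2) 1 1)) →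
      ((Fin 2 ⊕ Fin 2) ⊕ Fin 2 → ZMod 2))
    (hf : ∀ g h : ↥(Cfsg.Omega (ZMod 2) (Cfsg.quadFormMinus 2 (ZMod 2) 1 1)),
      f (g * h) = f g + Matrix.mulVec (((g : ↥(Cfsg.isometryGroup (ZMod 2)
        (Cfsg.quadFormMinus 2 (ZMod 2) 1 1))) : GL ((Fin 2 ⊕ Fin 2) ⊕ Fin 2) (ZMod 2)) :
        Matrix ((Fin 2 ⊕ Fin 2) ⊕ Fin 2) ((Fin 2 ⊕ Fin 2) ⊕ Fin 2) (ZMod 2)) (f h)) :
    ∃ v : (Fin 2 ⊕ Fin 2) ⊕ Fin 2 → ZMod 2,
      ∀ g : ↥(Cfsg.Omega (ZMod 2) (Cfsg.quadFormMinus 2 (ZMod 2) 1 1)),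
      f g = Matrix.mulVec (((g : ↥(Cfsg.isometryGroup (ZMod 2)
        (Cfsg.quadFormMinus 2 (ZMod 2) 1 1))) : GL ((Fin 2 ⊕ Fin 2) ⊕ Fin 2) (ZMod 2)) :
        Matrix ((Fin 2 ⊕ Fin 2) ⊕ Fin 2) ((Fin 2 ⊕ Fin 2) ⊕ Fin 2) (ZMod 2)) v - v := by
  have : CharP (ZMod 2) 2 := ZMod.charP 2
  have hS := Inv6.sep_minusQ_two (F := ZMod 2) 2 1 1 hab11
  exact principal_omega (minusQ 2 (ZMod 2) 1 1) hS (Inv8.good_minusQ hS hab11) claim_minus2 f hf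

theorem h1_plus4 (f : ↥(Cfsg.Omega (ZMod 2) (Cfsg.quadFormPlus 4 (ZMod 2))) →
      (Fin 4 ⊕ Fin 4 → ZMod 2))
    (hf : ∀ g h : ↥(Cfsg.Omega (ZMod 2) (Cfsg.quadFormPlus 4 (ZMod 2))),
      f (g * h) = f g + Matrix.mulVec (((g : ↥(Cfsg.isometryGroup (ZMod 2)
        (Cfsg.quadFormPlus 4 (ZMod 2)))) : GL (Fin 4 ⊕ Fin 4) (ZMod 2)) :
        Matrix (Fin 4 ⊕ Fin 4) (Fin 4 ⊕ Fin 4) (ZMod 2)) (f h)) :
    ∃ v : Fin 4 ⊕ Fin 4 → ZMod 2,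
      ∀ g : ↥(Cfsg.Omega (ZMod 2) (Cfsg.quadFormPlus 4 (ZMod 2))),
      f g = Matrix.mulVec (((g : ↥(Cfsg.isometryGroup (ZMod 2)
        (Cfsg.quadFormPlus 4 (ZMod 2)))) : GL (Fin 4 ⊕ Fin 4) (ZMod 2)) :
        Matrix (Fin 4 ⊕ Fin 4) (Fin 4 ⊕ Fin 4) (ZMod 2)) v - v := by
  have : CharP (ZMod 2) 2 := ZMod.charP 2
  have hS := sep_plusQ (F := ZMod 2) 4
  have hG : Good (plusQ 4 (ZMod 2)) := good_of_card' hS (Or.inr (by decide))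
  exact principal_omega (plusQ 4 (ZMod 2)) hS hG claim_plus4 f hf

end Cfsg.Agent.Lib.Helper44.Coh5
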