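import Mathlib
import Cfsg.Prelude.Def_Classical
import Cfsg.Agent.S2620

set_option autoImplicit false

namespace Cfsg.Agent.Lib.Helper44.Dickson

open Matrix

variable {F : Type*} [Field F] {m : ℕ}

/-- The block matrix `[[A, B], [C, D]]` preserves the hyperbolic form `Σ x_i y_i`. -/
def IsIso (A B C D : Matrix (Fin m) (Fin m) F) : Prop :=
  ∀ x, Cfsg.quadFormPlus m F (fromBlocks A B C D *ᵥ x) = Cfsg.quadFormPlus m F x

theorem gram_rel {M : Matrix (Fin m ⊕ Fin m) (Fin m ⊕ Fin m) F}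
    (h : ∀ x, Cfsg.quadFormPlus m F (M *ᵥ x) = Cfsg.quadFormPlus m F x) :
    Mᵀ * fromBlocks (0 : Matrix (Fin m) (Fin m) F) 1 1 0 * M = fromBlocks 0 1 1 0 := by
  have hp : ∀ x y, QuadraticMap.polar (Cfsg.quadFormPlus m F) (M *ᵥ x) (M *ᵥ y)
      = QuadraticMap.polar (Cfsg.quadFormPlus m F) x y := by
    intro x y
    unfold QuadraticMap.polar
    rw [← Matrix.mulVec_add, h, h, h]
  apply Matrix.toBilin'.injective
  apply LinearMap.ext₂
  intro x y
  have := hp x y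
  rw [Cfsg.Agent.S2620.polar_plus, Cfsg.Agent.S2620.polar_plus] at this
  rw [← this, Matrix.toBilin'_apply', Matrix.toBilin'_apply', ← Matrix.mulVec_mulVec,
    ← Matrix.mulVec_mulVec, Matrix.dotProduct_mulVec, Matrix.vecMul_transpose]

theorem quadFormPlus_col (A C : Matrix (Fin m) (Fin m) F) (i : Fin m) :
    Cfsg.quadFormPlus m F (Sum.elim (fun k => A k i) (fun k => C k i)) = (Aᵀ * C) i i := by
  unfold Cfsg.quadFormPlus
  simp [Matrix.mul_apply]

/-- The relations satisfied by the blocks of an isometry of the hyperbolic form. -/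
theorem rel {A B C D : Matrix (Fin m) (Fin m) F} (h : IsIso A B C D) :
    (∀ i, (Aᵀ * C) i i = 0) ∧ (∀ i, (Bᵀ * D) i i = 0) ∧ Cᵀ * A + Aᵀ * C = 0 ∧
      Cᵀ * B + Aᵀ * D = 1 ∧ Dᵀ * A + Bᵀ * C = 1 ∧ Dᵀ * B + Bᵀ * D = 0 := by
  have hg := gram_rel h
  rw [fromBlocks_transpose, fromBlocks_multiply, fromBlocks_multiply] at hg
  simp only [Matrix.mul_zero, Matrix.mul_one, zero_add, add_zero] at hg
  rw [fromBlocks_inj] at hg
  obtain ⟨h1, h2, h3, h4⟩ := hg
  refine ⟨?_, ?_, h1, h2, h3, h4⟩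
  · intro i
    have := h (Pi.single (Sum.inl i) 1)
    have e : fromBlocks A B C D *ᵥ (Pi.single (Sum.inl i) 1)
        = Sum.elim (fun k => A k i) (fun k => C k i) := by
      funext k
      rcases k with k | k <;> simp
    rw [e, quadFormPlus_col] at this
    rw [this]
    unfold Cfsg.quadFormPlus
    simp
  · intro i
    have := h (Pi.single (Sum.inr i) 1)
    have e : fromBlocks A B C D *ᵥ (Pi.single (Sum.inr i) 1)
        = Sum.elim (fun k => B k i) (fun k => D k i) := by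
      funext k
      rcases k with k | k <;> simp
    rw [e, quadFormPlus_col] at this
    rw [this]
    unfold Cfsg.quadFormPlus
    simp

/-- The inverse of an isometry, in blocks. -/
theorem isIso_inv {A B C D : Matrix (Fin m) (Fin m) F} (h : IsIso A B C D) :
    IsIso Dᵀ Bᵀ Cᵀ Aᵀ := by
  obtain ⟨-, -, h1, h2, h3, h4⟩ := rel h
  have hNM : fromBlocks Dᵀ Bᵀ Cᵀ Aᵀ * fromBlocks A B C D = 1 := by
    rw [fromBlocks_multiply, h1, h2, h3, h4, fromBlocks_one]
  have hMN : fromBlocks A B C D * fromBlocks Dᵀ Bᵀ Cᵀ Aᵀ = 1 := mul_eq_one_comm.mp hNM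
  intro x
  have := h (fromBlocks Dᵀ Bᵀ Cᵀ Aᵀ *ᵥ x)
  rw [Matrix.mulVec_mulVec, hMN, Matrix.one_mulVec] at this
  exact this.symm

theorem rel' {A B C D : Matrix (Fin m) (Fin m) F} (h : IsIso A B C D) :
    (∀ i, (D * Cᵀ) i i = 0) ∧ (∀ i, (B * Aᵀ) i i = 0) ∧ C * Dᵀ + D * Cᵀ = 0 ∧
      C * Bᵀ + D * Aᵀ = 1 ∧ A * Dᵀ + B * Cᵀ = 1 ∧ A * Bᵀ + B * Aᵀ = 0 := by
  have := rel (isIso_inv h)
  simpa only [Matrix.transpose_transpose] using this

/-- In characteristic two the trace of a product of two alternating matrices vanishes. -/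
theorem trace_mul_alt [CharP F 2] {X Y : Matrix (Fin m) (Fin m) F} (hX : Xᵀ + X = 0)
    (hX0 : ∀ i, X i i = 0) (hY : Yᵀ + Y = 0) : (X * Y).trace = 0 := by
  have hXs : ∀ i j, X j i = X i j := by
    intro i j
    have := congrFun (congrFun hX i) j
    simp only [Matrix.add_apply, Matrix.transpose_apply, Matrix.zero_apply] at this
    have h2 : X j i = - X i j := eq_neg_of_add_eq_zero_left this
    rw [h2, CharTwo.neg_eq]
  have hYs : ∀ i j, Y j i = Y i j := by
    intro i j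
    have := congrFun (congrFun hY i) j
    simp only [Matrix.add_apply, Matrix.transpose_apply, Matrix.zero_apply] at this
    have h2 : Y j i = - Y i j := eq_neg_of_add_eq_zero_left this
    rw [h2, CharTwo.neg_eq]
  have e : (X * Y).trace = ∑ p ∈ (Finset.univ : Finset (Fin m × Fin m)), X p.1 p.2 * Y p.2 p.1 := by
    rw [Matrix.trace, ← Finset.univ_product_univ, Finset.sum_product]
    apply Finset.sum_congr rfl
    intro i _
    rw [Matrix.diag_apply, Matrix.mul_apply]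
  rw [e]
  apply Finset.sum_involution (fun p _ => (p.2, p.1))
  · intro p _
    rw [hXs p.1 p.2, hYs p.2 p.1]
    exact CharTwo.add_self_eq_zero _
  · intro p _ hne heq
    have h12 : p.2 = p.1 := congrArg Prod.fst heq
    apply hne
    rw [h12, hX0, zero_mul]
  · intro p _
    exact Finset.mem_univ _
  · intro p _
    rfl

theorem trace_cyc (P Q R S : Matrix (Fin m) (Fin m) F) :
    (P * Q * R * S).trace = ((Q * R) * (S * P)).trace := by
  rw [show P * Q * R * S = P * (Q * R * S) by simp only [Matrix.mul_assoc], Matrix.trace_mul_comm]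
  simp only [Matrix.mul_assoc]

/-- Additivity of the Dickson invariant `tr(Bᵀ C)` in characteristic two. -/
theorem trace_mul [CharP F 2] {A B C D A' B' C' D' : Matrix (Fin m) (Fin m) F}
    (h : IsIso A B C D) (h' : IsIso A' B' C' D') :
    ((A * B' + B * D')ᵀ * (C * A' + D * C')).trace = (Bᵀ * C).trace + (B'ᵀ * C').trace := by
  obtain ⟨d1, d2, r1, r2, r3, r4⟩ := rel h
  obtain ⟨d1', d2', r1', r2', r3', r4'⟩ := rel' h'
  -- the four alternating matrices
  have a1 : (Aᵀ * C)ᵀ + Aᵀ * C = 0 := by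
    rw [Matrix.transpose_mul, Matrix.transpose_transpose]; exact r1
  have a2 : (Bᵀ * D)ᵀ + Bᵀ * D = 0 := by
    rw [Matrix.transpose_mul, Matrix.transpose_transpose]; exact r4
  have a3 : (A' * B'ᵀ)ᵀ + A' * B'ᵀ = 0 := by
    rw [Matrix.transpose_mul, Matrix.transpose_transpose, add_comm]; exact r4'
  have a3d : ∀ i, (A' * B'ᵀ) i i = 0 := by
    intro i
    have : (A' * B'ᵀ) i i = ((B' * A'ᵀ)ᵀ) i i := by
      rw [Matrix.transpose_mul, Matrix.transpose_transpose]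
    rw [this, Matrix.transpose_apply]
    exact d2' i
  have a4 : (C' * D'ᵀ)ᵀ + C' * D'ᵀ = 0 := by
    rw [Matrix.transpose_mul, Matrix.transpose_transpose, add_comm]; exact r1'
  have a4d : ∀ i, (C' * D'ᵀ) i i = 0 := by
    intro i
    have : (C' * D'ᵀ) i i = ((D' * C'ᵀ)ᵀ) i i := by
      rw [Matrix.transpose_mul, Matrix.transpose_transpose]
    rw [this, Matrix.transpose_apply]
    exact d1' i
  have t1 : (B'ᵀ * Aᵀ * C * A').trace = 0 := by
    rw [trace_cyc]
    exact trace_mul_alt a1 d1 a3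
  have t4 : (D'ᵀ * Bᵀ * D * C').trace = 0 := by
    rw [trace_cyc]
    exact trace_mul_alt a2 d2 a4
  have hAD : Aᵀ * D = 1 - Cᵀ * B := by rw [← r2]; abel
  have hAD' : A' * D'ᵀ = 1 - B' * C'ᵀ := by rw [← r3']; abel
  have t2 : (B'ᵀ * Aᵀ * D * C').trace = (B'ᵀ * C').trace - (Cᵀ * B * C' * B'ᵀ).trace := by
    rw [trace_cyc, hAD, Matrix.sub_mul, Matrix.one_mul, Matrix.trace_sub,
      Matrix.trace_mul_comm C' B'ᵀ]
    simp only [Matrix.mul_assoc]
  have t3 : (D'ᵀ * Bᵀ * C * A').trace = (Bᵀ * C).trace - (Cᵀ * B * C' * B'ᵀ).trace := by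
    rw [trace_cyc, hAD', Matrix.mul_sub, Matrix.mul_one, Matrix.trace_sub]
    congr 1
    have e1 : (Bᵀ * C * (B' * C'ᵀ))ᵀ = (C' * B'ᵀ) * (Cᵀ * B) := by
      simp only [Matrix.transpose_mul, Matrix.transpose_transpose]
    rw [← Matrix.trace_transpose, e1, Matrix.trace_mul_comm]
    simp only [Matrix.mul_assoc]
  have expand : (A * B' + B * D')ᵀ * (C * A' + D * C')
      = B'ᵀ * Aᵀ * C * A' + B'ᵀ * Aᵀ * D * C' + D'ᵀ * Bᵀ * C * A' + D'ᵀ * Bᵀ * D * C' := by
    simp only [Matrix.transpose_add, Matrix.transpose_mul, Matrix.add_mul, Matrix.mul_add,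
      Matrix.mul_assoc]
    abel
  rw [expand, Matrix.trace_add, Matrix.trace_add, Matrix.trace_add, t1, t2, t3, t4]
  have h2 : (Cᵀ * B * C' * B'ᵀ).trace + (Cᵀ * B * C' * B'ᵀ).trace = 0 :=
    CharTwo.add_self_eq_zero _
  linear_combination -h2

theorem toBlocks₁₂_mul (M M' : Matrix (Fin m ⊕ Fin m) (Fin m ⊕ Fin m) F) :
    (M * M').toBlocks₁₂ = M.toBlocks₁₁ * M'.toBlocks₁₂ + M.toBlocks₁₂ * M'.toBlocks₂₂ := by
  conv_lhs => rw [← fromBlocks_toBlocks M, ← fromBlocks_toBlocks M', fromBlocks_multiply]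
  rw [toBlocks_fromBlocks₁₂]

theorem toBlocks₂₁_mul (M M' : Matrix (Fin m ⊕ Fin m) (Fin m ⊕ Fin m) F) :
    (M * M').toBlocks₂₁ = M.toBlocks₂₁ * M'.toBlocks₁₁ + M.toBlocks₂₂ * M'.toBlocks₂₁ := by
  conv_lhs => rw [← fromBlocks_toBlocks M, ← fromBlocks_toBlocks M', fromBlocks_multiply]
  rw [toBlocks_fromBlocks₂₁]

theorem isIso_of_mem (g : ↥(Cfsg.isometryGroup F (Cfsg.quadFormPlus m F))) :
    IsIso ((g : GL (Fin m ⊕ Fin m) F) : Matrix (Fin m ⊕ Fin m) (Fin m ⊕ Fin m) F).toBlocks₁₁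
      ((g : GL (Fin m ⊕ Fin m) F) : Matrix (Fin m ⊕ Fin m) (Fin m ⊕ Fin m) F).toBlocks₁₂
      ((g : GL (Fin m ⊕ Fin m) F) : Matrix (Fin m ⊕ Fin m) (Fin m ⊕ Fin m) F).toBlocks₂₁
      ((g : GL (Fin m ⊕ Fin m) F) : Matrix (Fin m ⊕ Fin m) (Fin m ⊕ Fin m) F).toBlocks₂₂ := by
  intro x
  rw [fromBlocks_toBlocks]
  exact g.2 x x

/-- The Dickson invariant `g ↦ tr(Bᵀ C)` of the orthogonal group of the hyperbolic form in
characteristic two, as a homomorphism to the additive group of `F`. -/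
def dickson (m : ℕ) (F : Type*) [Field F] [CharP F 2] :
    ↥(Cfsg.isometryGroup F (Cfsg.quadFormPlus m F)) →* Multiplicative F where
  toFun g := Multiplicative.ofAdd
    ((((g : GL (Fin m ⊕ Fin m) F) : Matrix (Fin m ⊕ Fin m) (Fin m ⊕ Fin m) F).toBlocks₁₂)ᵀ
      * ((g : GL (Fin m ⊕ Fin m) F) : Matrix (Fin m ⊕ Fin m) (Fin m ⊕ Fin m) F).toBlocks₂₁).trace
  map_one' := by
    have : ((1 : GL (Fin m ⊕ Fin m) F) : Matrix (Fin m ⊕ Fin m) (Fin m ⊕ Fin m) F).toBlocks₁₂ = 0 := by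
      ext i j
      simp [Matrix.toBlocks₁₂, Matrix.one_apply]
    simp only [OneMemClass.coe_one, this, Matrix.transpose_zero, Matrix.zero_mul,
      Matrix.trace_zero, ofAdd_zero]
  map_mul' g h := by
    rw [← ofAdd_add]
    congr 1
    have := trace_mul (isIso_of_mem g) (isIso_of_mem h)
    rw [← this]
    simp only [Subgroup.coe_mul, Units.val_mul, toBlocks₁₂_mul, toBlocks₂₁_mul]

theorem dickson_apply [CharP F 2] (g : ↥(Cfsg.isometryGroup F (Cfsg.quadFormPlus m F))) :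
    Multiplicative.toAdd (dickson m F g)
      = ((((g : GL (Fin m ⊕ Fin m) F) : Matrix (Fin m ⊕ Fin m) (Fin m ⊕ Fin m) F).toBlocks₁₂)ᵀ
      * ((g : GL (Fin m ⊕ Fin m) F) : Matrix (Fin m ⊕ Fin m) (Fin m ⊕ Fin m) F).toBlocks₂₁).trace :=
  rfl

theorem dickson_eq_one_of_mem_omega [CharP F 2]
    {g : ↥(Cfsg.isometryGroup F (Cfsg.quadFormPlus m F))}
    (hg : g ∈ Cfsg.Omega F (Cfsg.quadFormPlus m F)) : dickson m F g = 1 :=
  Abelianization.commutator_subset_ker (dickson m F) hg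

end Cfsg.Agent.Lib.Helper44.Dickson
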