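import Mathlib
import Cfsg.Agent.Lib.Helper5.SLGen

set_option autoImplicit false

namespace Cfsg.Agent.Lib.Helper44.GLAb

open Matrix

variable {F : Type*} [Field F] {ι : Type*} [DecidableEq ι] [Fintype ι]

/-- The diagonal matrix with `t` at `i` and `1` elsewhere. -/
noncomputable def dgM (i : ι) (t : F) : Matrix ι ι F :=
  Matrix.diagonal (Function.update (fun _ => (1 : F)) i t)

theorem det_dgM (i : ι) (t : F) : (dgM i t).det = t := by
  unfold dgM
  rw [Matrix.det_diagonal, Finset.prod_update_of_mem (Finset.mem_univ i)]
  simp

/-- The diagonal matrix with `t` at `i` and `1` elsewhere, as an element of `GL`. -/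
noncomputable def dg (i : ι) (t : Fˣ) : GL ι F :=
  Matrix.GeneralLinearGroup.mkOfDetNeZero (dgM i (t : F)) (by rw [det_dgM]; exact t.ne_zero)

theorem coe_dg (i : ι) (t : Fˣ) : ((dg i t : GL ι F) : Matrix ι ι F) = dgM i (t : F) := rfl

theorem det_dg (i : ι) (t : Fˣ) : Matrix.GeneralLinearGroup.det (dg i t) = t := by
  apply Units.ext
  rw [Matrix.GeneralLinearGroup.val_det_apply, coe_dg, det_dgM]

theorem dgM_mulVec (i : ι) (t : F) (x : ι → F) :
    dgM i t *ᵥ x = Function.update x i (t * x i) := by
  unfold dgM
  funext k
  rw [Matrix.mulVec_diagonal]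
  by_cases hk : k = i
  · subst hk
    simp
  · simp [hk]

theorem dgM_transpose (i : ι) (t : F) : (dgM i t)ᵀ = dgM i t := by
  unfold dgM
  exact Matrix.diagonal_transpose _

theorem dgM_mul (i : ι) (s t : F) : dgM i s * dgM i t = dgM i (s * t) := by
  unfold dgM
  rw [Matrix.diagonal_mul_diagonal]
  congr 1
  funext k
  by_cases hk : k = i
  · subst hk
    simp
  · simp [hk]

theorem dgM_one (i : ι) : dgM i (1 : F) = 1 := by
  unfold dgM
  rw [← Matrix.diagonal_one]
  congr 1
  funext k
  by_cases hk : k = i
  · subst hk
    simp
  · simp [hk]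

theorem dg_inv (i : ι) (t : Fˣ) : (dg i t)⁻¹ = dg i t⁻¹ := by
  apply inv_eq_of_mul_eq_one_right
  apply Units.ext
  show dgM i (t : F) * dgM i ((t⁻¹ : Fˣ) : F) = 1
  rw [dgM_mul, ← Units.val_mul, mul_inv_cancel, Units.val_one, dgM_one]

theorem dgM_mul_transvection {i j : ι} (hij : i ≠ j) (a c : F) :
    dgM i a * (1 + Matrix.single i j c) = (1 + Matrix.single i j (a * c)) * dgM i a := by
  unfold dgM
  ext k l
  rw [Matrix.diagonal_mul, Matrix.mul_diagonal]
  simp only [Matrix.add_apply, Matrix.one_apply, Matrix.single_apply, Function.update_apply]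
  by_cases hk : k = i
  · subst hk
    by_cases hl : l = j
    · subst hl
      simp [hij, hij.symm]
    · by_cases hkl : k = l
      · subst hkl
        simp [hij.symm]
      · simp [hkl, Ne.symm hl]
  · by_cases hkl : k = l
    · subst hkl
      simp [hk, Ne.symm hk]
    · simp [hk, hkl, Ne.symm hk]

/-- A homomorphism from `GL` to a commutative group kills `SL`, except for `GL₂(𝔽₂)`. -/
theorem map_toGL_eq_one [Fintype F] {M : Type*} [CommGroup M]
    (hcase : Fintype.card F ≠ 2 ∨ Fintype.card ι ≠ 2) (ψ : GL ι F →* M)
    (S : Matrix.SpecialLinearGroup ι F) :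
    ψ (Matrix.SpecialLinearGroup.toGL S) = 1 := by
  rcases subsingleton_or_nontrivial ι with hι | hι
  · rw [Subsingleton.elim S 1, map_one, map_one]
  · by_cases hF : Fintype.card F ≠ 2
    · -- transvections are commutators in GL
      classical
      obtain ⟨a, ha0, ha1⟩ : ∃ a : F, a ≠ 0 ∧ a ≠ 1 := by
        by_contra hcon
        push Not at hcon
        have hsub : (Finset.univ : Finset F) ⊆ {0, 1} := by
          intro x _
          by_cases hx : x = 0
          · simp [hx]
          · simp [hcon x hx]
        have h1 := Finset.card_le_card hsub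
        have h2 : ({0, 1} : Finset F).card ≤ 2 := Finset.card_le_two
        rw [Finset.card_univ] at h1
        have h3 : 1 < Fintype.card F := Fintype.one_lt_card
        omega
      have ha1' : a - 1 ≠ 0 := sub_ne_zero.mpr ha1
      refine Cfsg.Agent.Lib.Helper5.SLGen.transvection_induction
        (fun S => ψ (Matrix.SpecialLinearGroup.toGL S) = 1) ?_ ?_ S
      · intro i j hij c
        have key : ∀ c' : F, ψ (Matrix.SpecialLinearGroup.toGL
            (Matrix.SpecialLinearGroup.transvection hij (a * c')))
            = ψ (Matrix.SpecialLinearGroup.toGL (Matrix.SpecialLinearGroup.transvection hij c')) := by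
          intro c'
          have e : dg i (Units.mk0 a ha0)
              * Matrix.SpecialLinearGroup.toGL (Matrix.SpecialLinearGroup.transvection hij c')
              = Matrix.SpecialLinearGroup.toGL (Matrix.SpecialLinearGroup.transvection hij (a * c'))
                * dg i (Units.mk0 a ha0) := by
            apply Units.ext
            show dgM i a * (1 + Matrix.single i j c') = (1 + Matrix.single i j (a * c')) * dgM i a
            exact dgM_mul_transvection hij a c'
          have e2 := congrArg ψ e
          rw [map_mul, map_mul, mul_comm] at e2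
          exact (mul_right_cancel e2).symm
        have hsplit : (Matrix.SpecialLinearGroup.transvection hij (a * ((a - 1)⁻¹ * c))
              : Matrix.SpecialLinearGroup ι F)
            = Matrix.SpecialLinearGroup.transvection hij ((a - 1)⁻¹ * c)
              * Matrix.SpecialLinearGroup.transvection hij c := by
          apply Subtype.ext
          show (1 : Matrix ι ι F) + Matrix.single i j (a * ((a - 1)⁻¹ * c))
            = (1 + Matrix.single i j ((a - 1)⁻¹ * c)) * (1 + Matrix.single i j c)
          rw [add_mul, mul_add, mul_add, Matrix.one_mul, Matrix.mul_one, Matrix.one_mul,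
            Matrix.single_mul_single_of_ne _ _ _ _ hij.symm, add_zero, add_assoc,
            ← Matrix.single_add]
          congr 2
          field_simp
          ring
        have h1 := key ((a - 1)⁻¹ * c)
        rw [hsplit, map_mul, map_mul] at h1
        exact mul_eq_left.mp h1
      · intro A B hA hB
        show ψ (Matrix.SpecialLinearGroup.toGL (A * B)) = 1
        rw [map_mul, map_mul, hA, hB, one_mul]
    · -- perfectness of SL for at least three indices
      have h3 : 3 ≤ Fintype.card ι := by
        have h1 : 1 < Fintype.card ι := Fintype.one_lt_card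
        have h2 : Fintype.card ι ≠ 2 := by
          rcases hcase with h | h
          · exact absurd h hF
          · exact h
        omega
      have htop := Cfsg.Agent.Lib.Helper5.SLGen.commutator_eq_top_of_three (F := F) h3
      have hmem : S ∈ commutator (Matrix.SpecialLinearGroup ι F) := by
        rw [htop]; exact Subgroup.mem_top S
      exact Abelianization.commutator_subset_ker (ψ.comp Matrix.SpecialLinearGroup.toGL) hmem

/-- A homomorphism from `GL` to a commutative group factors through the determinant,
except for `GL₂(𝔽₂)`. -/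
theorem map_eq_map_dg [Fintype F] {M : Type*} [CommGroup M]
    (hcase : Fintype.card F ≠ 2 ∨ Fintype.card ι ≠ 2) (ψ : GL ι F →* M) (i : ι) (A : GL ι F) :
    ψ A = ψ (dg i (Matrix.GeneralLinearGroup.det A)) := by
  set D := dg i (Matrix.GeneralLinearGroup.det A) with hD
  have hdet : Matrix.GeneralLinearGroup.det (A * D⁻¹) = 1 := by
    rw [map_mul, map_inv, hD, det_dg, mul_inv_cancel]
  have hdet' : ((A * D⁻¹ : GL ι F) : Matrix ι ι F).det = 1 := by
    have := congrArg Units.val hdet
    rwa [Matrix.GeneralLinearGroup.val_det_apply] at this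
  have e : Matrix.SpecialLinearGroup.toGL (⟨((A * D⁻¹ : GL ι F) : Matrix ι ι F), hdet'⟩ :
      Matrix.SpecialLinearGroup ι F) = A * D⁻¹ := by
    apply Units.ext
    rfl
  have h1 := map_toGL_eq_one hcase ψ ⟨((A * D⁻¹ : GL ι F) : Matrix ι ι F), hdet'⟩
  rw [e, map_mul, map_inv, mul_inv_eq_one] at h1
  exact h1

end Cfsg.Agent.Lib.Helper44.GLAb
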