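import Mathlib

set_option autoImplicit false

namespace Cfsg.Agent.Lib.Helper44.IndexTwo

open scoped commutatorElement

/-- Let `G` be generated by a set `R` of involutions, and let `S` be a normal subgroup containing
all products of two elements of `R`.  Then every subgroup of index two of `S` contains the
commutator subgroup of `G`. -/
theorem commutator_subgroupOf_le_of_index_two {G : Type*} [Group G] (S : Subgroup G) [S.Normal]
    (R : Set G) (hR1 : ∀ r ∈ R, r * r = 1) (hR2 : ∀ r ∈ R, ∀ r' ∈ R, r * r' ∈ S)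
    (hgen : ∀ g : G, ∃ l : List G, (∀ x ∈ l, x ∈ R) ∧ g = l.prod)
    (H : Subgroup ↥S) (hH : H.index = 2) : (commutator G).subgroupOf S ≤ H := by
  set N := Subgroup.normalClosure {x : G | ∃ y : ↥S, x = (y : G) * (y : G)} with hN
  have hNH : N ≤ H.map S.subtype := by
    rw [hN]
    unfold Subgroup.normalClosure
    rw [Subgroup.closure_le]
    intro x hx
    rw [Group.mem_conjugatesOfSet_iff] at hx
    obtain ⟨a, ⟨y, rfl⟩, hconj⟩ := hx
    rw [isConj_iff] at hconj
    obtain ⟨c, rfl⟩ := hconj
    have hmem : c * (y : G) * c⁻¹ ∈ S := Subgroup.Normal.conj_mem inferInstance (y : G) y.2 c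
    refine ⟨(⟨c * (y : G) * c⁻¹, hmem⟩ : ↥S) * ⟨c * (y : G) * c⁻¹, hmem⟩,
      Subgroup.mul_self_mem_of_index_two hH _, ?_⟩
    show c * (y : G) * c⁻¹ * (c * (y : G) * c⁻¹) = c * ((y : G) * (y : G)) * c⁻¹
    group
  have h1 : ∀ r ∈ R, ∀ r' ∈ R, Commute (QuotientGroup.mk' N r) (QuotientGroup.mk' N r') := by
    intro r hr r' hr'
    have hsq : (r * r') * (r * r') ∈ N :=
      Subgroup.subset_normalClosure ⟨⟨r * r', hR2 r hr r' hr'⟩, rfl⟩
    have e1 : QuotientGroup.mk' N ((r * r') * (r * r')) = 1 :=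
      (QuotientGroup.eq_one_iff _).mpr hsq
    have e2 : QuotientGroup.mk' N (r * r) = 1 := by rw [hR1 r hr, map_one]
    have e3 : QuotientGroup.mk' N (r' * r') = 1 := by rw [hR1 r' hr', map_one]
    rw [map_mul, map_mul] at e1
    rw [map_mul] at e2 e3
    show QuotientGroup.mk' N r * QuotientGroup.mk' N r' = QuotientGroup.mk' N r' * QuotientGroup.mk' N r
    have e4 := eq_inv_of_mul_eq_one_left e1
    rw [mul_inv_rev, inv_eq_of_mul_eq_one_left e2, inv_eq_of_mul_eq_one_left e3] at e4
    exact e4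
  have h2 : ∀ r ∈ R, ∀ g : G, Commute (QuotientGroup.mk' N r) (QuotientGroup.mk' N g) := by
    intro r hr g
    obtain ⟨l, hl, rfl⟩ := hgen g
    rw [map_list_prod]
    apply Commute.list_prod_right
    intro x hx
    rw [List.mem_map] at hx
    obtain ⟨y, hy, rfl⟩ := hx
    exact h1 r hr y (hl y hy)
  have h3 : ∀ a b : G, Commute (QuotientGroup.mk' N a) (QuotientGroup.mk' N b) := by
    intro a b
    obtain ⟨l, hl, rfl⟩ := hgen a
    rw [map_list_prod]
    apply Commute.list_prod_left
    intro x hx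
    rw [List.mem_map] at hx
    obtain ⟨y, hy, rfl⟩ := hx
    exact h2 y (hl y hy) b
  have hle : commutator G ≤ N := by
    rw [commutator_def, Subgroup.commutator_le]
    intro a _ b _
    rw [← QuotientGroup.eq_one_iff (N := N)]
    show QuotientGroup.mk' N (a * b * a⁻¹ * b⁻¹) = 1
    rw [map_mul, map_mul, map_mul, map_inv, map_inv, (h3 a b).eq, mul_inv_cancel_right,
      mul_inv_cancel]
  intro x hx
  rw [Subgroup.mem_subgroupOf] at hx
  obtain ⟨y, hy, hyx⟩ := hNH (hle hx)
  have : y = x := Subtype.ext hyx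
  rw [← this]
  exact hy

/-- A subgroup of index two containing a subgroup of index two is equal to it. -/
theorem eq_of_le_of_index_two {G : Type*} [Group G] {K H : Subgroup G} (hle : K ≤ H)
    (hK : K.index = 2) (hH : H.index = 2) : H = K := by
  apply le_antisymm _ hle
  have h := Subgroup.relIndex_mul_index hle
  rw [hK, hH] at h
  have h1 : K.relIndex H = 1 := by omega
  exact Subgroup.relIndex_eq_one.mp h1

end Cfsg.Agent.Lib.Helper44.IndexTwo
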