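import Mathlib
import Cfsg.Prelude.Def_Classical
import Cfsg.Agent.Lib.Helper44.GLAb
import Cfsg.Agent.Lib.Helper44.NegPairs
import Cfsg.Agent.Lib.Helper44.ReflProd2

set_option autoImplicit false

namespace Cfsg.Agent.Lib.Helper44.Levi

open Module QuadraticMap Matrix
open Cfsg.Agent.Lib.Helper44.QSpace Cfsg.Agent.Lib.Helper44.OGroup Cfsg.Agent.Lib.Helper44.OMat
open Cfsg.Agent.Lib.Helper44.NegPairs Cfsg.Agent.Lib.Helper44.ReflProd2
open Cfsg.Agent.Lib.Helper44.Spinor Cfsg.Agent.Lib.Helper44.GLAb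

variable {F : Type*} [Field F] {m : ℕ}

/-- The matrix `diag(A, A⁻ᵀ)`. -/
def leviM (A : GL (Fin m) F) : Matrix (Fin m ⊕ Fin m) (Fin m ⊕ Fin m) F :=
  Matrix.fromBlocks (A : Matrix (Fin m) (Fin m) F) 0 0
    ((A⁻¹ : GL (Fin m) F) : Matrix (Fin m) (Fin m) F)ᵀ

theorem leviM_mul (A B : GL (Fin m) F) : leviM (A * B) = leviM A * leviM B := by
  unfold leviM
  rw [Matrix.fromBlocks_multiply]
  simp only [Matrix.mul_zero, Matrix.zero_mul, add_zero, zero_add, _root_.mul_inv_rev,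
    Units.val_mul, Matrix.transpose_mul]

theorem leviM_one : leviM (1 : GL (Fin m) F) = 1 := by
  unfold leviM
  simp [Matrix.fromBlocks_one]

/-- `A ↦ diag(A, A⁻ᵀ)` as a homomorphism of general linear groups. -/
def leviGL : GL (Fin m) F →* GL (Fin m ⊕ Fin m) F where
  toFun A := ⟨leviM A, leviM A⁻¹, by rw [← leviM_mul, mul_inv_cancel, leviM_one],
    by rw [← leviM_mul, inv_mul_cancel, leviM_one]⟩
  map_one' := Units.ext leviM_one
  map_mul' A B := Units.ext (leviM_mul A B)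

theorem coe_leviGL (A : GL (Fin m) F) :
    ((leviGL A : GL (Fin m ⊕ Fin m) F) : Matrix (Fin m ⊕ Fin m) (Fin m ⊕ Fin m) F) = leviM A := rfl

theorem leviM_mulVec (A : GL (Fin m) F) (x : Fin m ⊕ Fin m → F) :
    leviM A *ᵥ x = Sum.elim ((A : Matrix (Fin m) (Fin m) F) *ᵥ (x ∘ Sum.inl))
      (((A⁻¹ : GL (Fin m) F) : Matrix (Fin m) (Fin m) F)ᵀ *ᵥ (x ∘ Sum.inr)) := by
  unfold leviM
  conv_lhs => rw [← Sum.elim_comp_inl_inr x, Matrix.fromBlocks_mulVec]
  simp

theorem plus_eq_dot (x : Fin m ⊕ Fin m → F) :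
    Cfsg.quadFormPlus m F x = (x ∘ Sum.inl) ⬝ᵥ (x ∘ Sum.inr) := rfl

theorem leviGL_mem (A : GL (Fin m) F) :
    leviGL A ∈ Cfsg.isometryGroup F ⇑(plusQ m F) := by
  intro x _
  show Cfsg.quadFormPlus m F (leviM A *ᵥ x) = Cfsg.quadFormPlus m F x
  rw [plus_eq_dot, plus_eq_dot, leviM_mulVec, Sum.elim_comp_inl, Sum.elim_comp_inr,
    Matrix.dotProduct_mulVec, Matrix.vecMul_transpose, Matrix.mulVec_mulVec, ← Units.val_mul,
    inv_mul_cancel, Units.val_one, Matrix.one_mulVec]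

/-- `A ↦ diag(A, A⁻ᵀ)` as a homomorphism into the isometry group of the hyperbolic form. -/
def levi (m : ℕ) (F : Type*) [Field F] :
    GL (Fin m) F →* ↥(Cfsg.isometryGroup F ⇑(plusQ m F)) :=
  leviGL.codRestrict _ leviGL_mem

theorem coe_levi (A : GL (Fin m) F) :
    (((levi m F A : ↥(Cfsg.isometryGroup F ⇑(plusQ m F))) : GL (Fin m ⊕ Fin m) F)
      : Matrix (Fin m ⊕ Fin m) (Fin m ⊕ Fin m) F) = leviM A := rfl

/-- the vector `e_i - t f_i` -/
def wvec (i : Fin m) (t : F) : Fin m ⊕ Fin m → F :=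
  Pi.single (Sum.inl i) 1 - Pi.single (Sum.inr i) t

theorem q_wvec (i : Fin m) (t : F) : plusQ m F (wvec i t) = -t := by
  show Cfsg.quadFormPlus m F (wvec i t) = -t
  unfold Cfsg.quadFormPlus wvec
  simp [Pi.single_apply]

theorem polar_wvec (x : Fin m ⊕ Fin m → F) (i : Fin m) (t : F) :
    polar (plusQ m F) x (wvec i t) = x (Sum.inr i) - t * x (Sum.inl i) := by
  unfold wvec
  have e : (Pi.single (Sum.inr i) t : Fin m ⊕ Fin m → F) = t • Pi.single (Sum.inr i) 1 := by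
    funext k
    simp [Pi.single_apply]
  rw [polar_sub_right, e, polar_smul_r]
  have h1 := polar_single (plusQ m F) id (plus_H1 m) x (Sum.inl i)
  have h2 := polar_single (plusQ m F) id (plus_H1 m) x (Sum.inr i)
  simp only [id, Sum.swap_inl, Sum.swap_inr] at h1 h2
  rw [h1, h2]

/-- The action of `diag(t, 1, …, 1; t⁻¹, 1, …, 1)`. -/
theorem leviM_dg_mulVec (i : Fin m) (t : Fˣ) (x : Fin m ⊕ Fin m → F) :
    leviM (dg i t) *ᵥ x = Sum.elim (Function.update (x ∘ Sum.inl) i ((t : F) * x (Sum.inl i)))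
      (Function.update (x ∘ Sum.inr) i (((t⁻¹ : Fˣ) : F) * x (Sum.inr i))) := by
  rw [leviM_mulVec, dg_inv, coe_dg, coe_dg, dgM_transpose, dgM_mulVec, dgM_mulVec]
  rfl

/-- `diag(t, 1, …; t⁻¹, 1, …)` is the product of the reflections in `e - f` and `e - t f`. -/
theorem leviM_dg_eq_refl (i : Fin m) (t : Fˣ) (x : Fin m ⊕ Fin m → F) :
    leviM (dg i t) *ᵥ x
      = reflE (plusQ m F) (wvec i 1) (reflE (plusQ m F) (wvec i (t : F)) x) := by
  rw [leviM_dg_mulVec, reflE_apply, reflE_apply, q_wvec, q_wvec, polar_sub_left, polar_smul_l,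
    polar_wvec, polar_wvec, polar_wvec]
  have ht : (t : F) ≠ 0 := t.ne_zero
  unfold wvec
  funext k
  rcases k with k | k
  · by_cases hk : k = i
    · subst hk
      simp
      field_simp
      ring
    · simp [hk]
  · by_cases hk : k = i
    · subst hk
      simp
      field_simp
      ring
    · simp [hk]

end Cfsg.Agent.Lib.Helper44.Levi
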