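import Mathlib
import Cfsg.Agent.Lib.Helper44.MFldStmt
import Cfsg.Agent.Lib.Helper45.OmegaAutKer

set_option autoImplicit false

/-! S2737: the final assembly from the pieces. -/

namespace Cfsg.Agent.Lib.Helper44.MFldFin

open Matrix Module
open Cfsg.Agent.Lib.Helper45.OmegaAut Cfsg.Agent.Lib.Helper45.OmegaAutKer
open Cfsg.Agent.Lib.Helper44.MFld0 Cfsg.Agent.Lib.Helper44.MFldStmt

universe u

set_option maxHeartbeats 1000000 in
/-- **S2737** from the pieces -/
theorem final_of (hFA : FieldAutEqQ.{u}) (hCM : CsMulPhiQ.{u}) (hPE : PowEqQ.{u})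
    (hCO : CsOrderMinus.{u}) (hKP : KerPhiMinus.{u}) (hMI : MinusInv.{u})
    (hILR : InndiagLeRange.{u}) (hTC : TwistedConjMinus.{u}) (hMA : MinusAdj.{u})
    (hTT : TransportT.{u})
    {F : Type u} [Field F] [Fintype F] {m : ℕ} (hm : 3 ≤ m) (a b : F) (hab : Aniso a b)
    (x δ : MulAut (Cfsg.POmega F (Cfsg.quadFormMinus m F a b)))
    (hx : Cfsg.IsFieldAutClassPOmegaMinus m x) {r : ℕ} (hr : r.Prime) (hxr : orderOf x = r)
    (hδ : δ ∈ Cfsg.inndiagPOmegaMinus m F a b) :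
    orderOf (δ * x) = r ↔ Cfsg.IsConjUnder (Cfsg.inndiagPOmegaMinus m F a b) x (δ * x) := by
  constructor
  · intro hord
    obtain ⟨a', b', ψ, σ, hab', hσ, hσa, hσb, hφ⟩ := hx
    have hInv : InvS (Cfsg.quadFormMinus m F a' b') σ := hMI F m a' b' σ hσa hσb
    have hΨx : MulAut.congr ψ x = csq _ σ hInv := hFA F (MI m) _ σ hInv _ hφ
    have hδ' : MulAut.congr ψ δ ∈ Cfsg.inndiagPOmegaMinus m F a' b' :=
      (hTT F m hm a b a' b' hab hab' ψ δ).1 hδ
    obtain ⟨g, hg⟩ := hILR F m a' b' hδ'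
    have hx₀ : orderOf (csq (Cfsg.quadFormMinus m F a' b') σ hInv) = r := by
      rw [← hΨx, MulEquiv.orderOf_eq, hxr]
    have hσr : orderOf σ = r := by
      rw [← hCO F m hm a' b' hab' σ hInv]
      exact hx₀
    have hy₀ : orderOf (Phi (Cfsg.quadFormMinus m F a' b') g *
        csq (Cfsg.quadFormMinus m F a' b') σ hInv) = r := by
      rw [hg, ← hΨx, ← map_mul, MulEquiv.orderOf_eq, hord]
    have h1 : (Phi (Cfsg.quadFormMinus m F a' b') g *
        csq (Cfsg.quadFormMinus m F a' b') σ hInv) ^ r = 1 := by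
      rw [← hy₀]
      exact pow_orderOf_eq_one _
    rw [hPE F (MI m) _ σ hInv g r] at h1
    have h2 : csq (Cfsg.quadFormMinus m F a' b') σ hInv ^ r = 1 := by
      rw [← hx₀]
      exact pow_orderOf_eq_one _
    rw [h2, mul_one] at h1
    have hsc : IsScalarq (twq σ hInv g (orderOf σ)) := by
      rw [hσr]
      exact hKP F m hm a' b' hab' _ h1
    obtain ⟨u, z, ρ, w, hz, hw, hρ, hg1, hg2⟩ := hTC F m a' b' hab' σ hInv g hsc
    obtain ⟨c, hc⟩ := hz
    have hz1 : Phi (Cfsg.quadFormMinus m F a' b') z = 1 := Phi_eq_one_of_scalar _ z c hc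
    have conj : ∀ u' : GOq (Cfsg.quadFormMinus m F a' b'),
        g = z * (u' * (mapGOq _ σ hInv u')⁻¹) →
        Phi (Cfsg.quadFormMinus m F a' b') g * csq (Cfsg.quadFormMinus m F a' b') σ hInv =
          Phi (Cfsg.quadFormMinus m F a' b') u' * csq (Cfsg.quadFormMinus m F a' b') σ hInv *
            (Phi (Cfsg.quadFormMinus m F a' b') u')⁻¹ := by
      intro u' hu'
      have e1 : csq (Cfsg.quadFormMinus m F a' b') σ hInv *
          Phi (Cfsg.quadFormMinus m F a' b') u' =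
          Phi (Cfsg.quadFormMinus m F a' b') (mapGOq _ σ hInv u') *
            csq (Cfsg.quadFormMinus m F a' b') σ hInv := hCM F (MI m) _ σ hInv u'
      have e2 : (Phi (Cfsg.quadFormMinus m F a' b') (mapGOq _ σ hInv u'))⁻¹ *
          csq (Cfsg.quadFormMinus m F a' b') σ hInv =
          csq (Cfsg.quadFormMinus m F a' b') σ hInv *
            (Phi (Cfsg.quadFormMinus m F a' b') u')⁻¹ := by
        rw [inv_mul_eq_iff_eq_mul, ← mul_assoc, ← e1, mul_assoc, mul_inv_cancel, mul_one]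
      conv_lhs => rw [hu']
      rw [map_mul, map_mul, map_inv, hz1, one_mul, mul_assoc, e2, ← mul_assoc]
    obtain ⟨u', hu'D, hu'g⟩ : ∃ u' : GOq (Cfsg.quadFormMinus m F a' b'),
        Phi (Cfsg.quadFormMinus m F a' b') u' ∈ Cfsg.inndiagPOmegaMinus m F a' b' ∧
          g = z * (u' * (mapGOq _ σ hInv u')⁻¹) := by
      rcases hMA F m a' b' hab' u ρ w hw hρ with h | h
      · exact ⟨u, h, hg1⟩
      · exact ⟨u * ρ, h, hg2⟩
    refine ⟨(MulAut.congr ψ).symm (Phi (Cfsg.quadFormMinus m F a' b') u'), ?_, ?_⟩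
    · rw [hTT F m hm a b a' b' hab hab' ψ]
      show MulAut.congr ψ ((MulAut.congr ψ).symm (Phi (Cfsg.quadFormMinus m F a' b') u')) ∈ _
      rw [MulEquiv.apply_symm_apply]
      exact hu'D
    · apply (MulAut.congr ψ).injective
      rw [map_mul, map_mul, map_mul, map_inv, MulEquiv.apply_symm_apply, hΨx, ← hg]
      exact conj u' hu'g
  · rintro ⟨h, -, heq⟩
    rw [heq, ← hxr]
    exact (MulAut.conj h).orderOf_eq x

end Cfsg.Agent.Lib.Helper44.MFldFin
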