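import Mathlib
import Cfsg.Agent.Lib.Helper44.ReflClass

set_option autoImplicit false

namespace Cfsg.Agent.Lib.Helper44.ReflClass2

open Module QuadraticMap
open Cfsg.Agent.Lib.Helper44.Split Cfsg.Agent.Lib.Helper44.QSpace Cfsg.Agent.Lib.Helper44.OGroup
open Cfsg.Agent.Lib.Helper44.CartanD Cfsg.Agent.Lib.Helper44.Parity Cfsg.Agent.Lib.Helper44.Spinor
open Cfsg.Agent.Lib.Helper44.Omega2 Cfsg.Agent.Lib.Helper44.QClass
open Cfsg.Agent.Lib.Helper44.ReflClass Cfsg.Agent.Lib.Helper44.FinSq

universe u

variable {F : Type*} [Field F] {V : Type u} [AddCommGroup V] [Module F V]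

theorem exists_ne_three [Fintype F] (h2 : (2 : F) ≠ 0) (h3 : Fintype.card F ≠ 3) (x y : F) :
    ∃ β : F, β ≠ 0 ∧ β ≠ x ∧ β ≠ y := by
  classical
  by_contra hcon
  push Not at hcon
  have hsub : (Finset.univ : Finset F) ⊆ {0, x, y} := by
    intro z _
    by_cases hz : z = 0
    · simp [hz]
    · by_cases hzx : z = x
      · simp [hzx]
      · simp [hcon z hz hzx]
  have h1 := Finset.card_le_card hsub
  have h4 : ({0, x, y} : Finset F).card ≤ 3 := Finset.card_le_three
  rw [Finset.card_univ] at h1
  have hsub2 : ({0, 1, -1} : Finset F) ⊆ Finset.univ := Finset.subset_univ _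
  have h5 : ({0, 1, -1} : Finset F).card = 3 := by
    rw [Finset.card_eq_three]
    refine ⟨0, 1, -1, zero_ne_one, ?_, ?_, rfl⟩
    · intro h
      have : (1 : F) = 0 := by linear_combination h
      exact one_ne_zero this
    · intro h
      apply h2
      linear_combination h
  have h6 := Finset.card_le_card hsub2
  rw [Finset.card_univ] at h6
  omega

/-- Two vectors of the same norm with `b' - b` singular. -/
theorem refl_mul_refl_mem_of_sing [Fintype F] [FiniteDimensional F V] (h2 : (2 : F) ≠ 0)
    {Q : QuadraticForm F V} (hS : Sep Q)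
    (hq : Fintype.card F ≠ 3 ∨ 5 ≤ finrank F V ∨ finrank F V ≤ 2) {c : F} (hc : c ≠ 0)
    {b b' : V} {d : F} (hd : d ≠ 0) (hb : Q b = d) (hb' : Q b' = d)
    (h1 : polar Q b b' = 2 * d) : refl Q b * refl Q b' ∈ HA Q c := by
  have h2d : (2 : F) * d ≠ 0 := mul_ne_zero h2 hd
  have hbb : polar Q b b = 2 * d := by rw [polar_self', hb]
  set s := b' - b with hs
  have hb's : b' = b + s := by rw [hs]; abel
  have hqs : Q s = 0 := by
    rw [hs, q_sub, hb, hb', polar_comm, h1]
    ring
  by_cases hs0 : s = 0
  · have : b' = b := by rw [hb's, hs0, add_zero]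
    rw [this, refl_mul_self]
    exact Subgroup.one_mem _
  have hbs : polar Q b s = 0 := by
    rw [hs, polar_sub_right, h1, hbb, sub_self]
  have hp : polar Q b b ≠ 0 := by rw [hbb]; exact h2d
  have hSW := sep_perp1 hS hp
  have hWd := finrank_perp1 (polarBilin Q) (v := b) hp
  set W := perp1 (polarBilin Q) b with hW
  have hsW : s ∈ W := by
    rw [hW, mem_perp1]
    exact hbs
  set sW : ↥W := ⟨s, hsW⟩ with hsWdef
  have hsW0 : sW ≠ 0 := by
    intro h0
    apply hs0
    exact congrArg Subtype.val h0
  have hqsW : (res Q W) sW = 0 := hqs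
  obtain ⟨s', hqs', hss'⟩ := exists_hyp_pair hSW hsW0 hqsW
  -- a vector `u` of norm `d` in `W`, with `f(s, u) ≠ ± 2d`
  obtain ⟨u, hqu, hu1, hu2⟩ : ∃ u : ↥W, (res Q W) u = d ∧ polar (res Q W) sW u ≠ 2 * d ∧
      polar (res Q W) sW u ≠ -(2 * d) := by
    by_cases h3 : Fintype.card F ≠ 3
    · obtain ⟨β, hβ0, hβ1, hβ2⟩ := exists_ne_three h2 h3 (2 * d) (-(2 * d))
      refine ⟨(d / β) • sW + β • s', ?_, ?_, ?_⟩
      · rw [q_add, q_smul, q_smul, hqsW, hqs', polar_smul_l, polar_smul_r, hss']
        field_simp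
        ring
      · rw [polar_add_right, polar_smul_r, polar_smul_r, polar_self', hqsW, hss']
        intro h
        apply hβ1
        linear_combination h
      · rw [polar_add_right, polar_smul_r, polar_smul_r, polar_self', hqsW, hss']
        intro h
        apply hβ2
        linear_combination h
    · have hSY := sep_perp2 hSW hqsW hqs' hss'
      have hYd := finrank_perp2' (Q := res Q W) hqsW hqs' hss'
      have h5 : 5 ≤ finrank F V := by
        rcases hq with h | h | h
        · exact absurd h h3
        · exact h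
        · omega
      obtain ⟨y, hy⟩ := exists_q_eq hSY (by omega) d
      have hym := (mem_perp2 _ _ _ _).mp y.2
      refine ⟨(y : ↥W), hy, ?_, ?_⟩
      · have e : polar (res Q W) sW (y : ↥W) = 0 := hym.1
        rw [e]
        exact fun h => h2d h.symm
      · have e : polar (res Q W) sW (y : ↥W) = 0 := hym.1
        rw [e]
        intro h
        apply h2d
        linear_combination h
  set z : V := (u : V) with hz
  have hqz : Q z = d := hqu
  have hbz : polar Q b z = 0 := (mem_perp1 _ _ _).mp u.2
  have hsz : polar Q s z ≠ 2 * d := hu1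
  have hsz' : polar Q s z ≠ -(2 * d) := hu2
  have hzb' : polar Q z b' = polar Q s z := by
    rw [hb's, polar_add_right, polar_comm Q z b, hbz, zero_add, polar_comm]
  have m1 : refl Q b * refl Q z ∈ HA Q c :=
    refl_mul_refl_mem_of_plane h2 hS hc hd hb hqz (by rw [hbz]; exact fun h => h2d h.symm)
      (by
        rw [hbz]
        intro h
        apply h2d
        linear_combination h)
  have m2 : refl Q z * refl Q b' ∈ HA Q c :=
    refl_mul_refl_mem_of_plane h2 hS hc hd hqz hb' (by rw [hzb']; exact hsz)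
      (by rw [hzb']; exact hsz')
  have e : refl Q b * refl Q b' = (refl Q b * refl Q z) * (refl Q z * refl Q b') := by
    rw [mul_assoc, ← mul_assoc (refl Q z), refl_mul_self, one_mul]
  rw [e]
  exact Subgroup.mul_mem _ m1 m2

/-- The product of the reflections in two vectors of the same norm lies in the subgroup
generated by the reflections of class `c`. -/
theorem refl_mul_refl_mem_HA [Fintype F] [FiniteDimensional F V] (h2 : (2 : F) ≠ 0)
    {Q : QuadraticForm F V} (hS : Sep Q)
    (hq : Fintype.card F ≠ 3 ∨ 5 ≤ finrank F V ∨ finrank F V ≤ 2) {c : F} (hc : c ≠ 0)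
    {b b' : V} {d : F} (hd : d ≠ 0) (hb : Q b = d) (hb' : Q b' = d) :
    refl Q b * refl Q b' ∈ HA Q c := by
  by_cases h1 : polar Q b b' = 2 * d
  · exact refl_mul_refl_mem_of_sing h2 hS hq hc hd hb hb' h1
  by_cases h1' : polar Q b b' = -(2 * d)
  · have e : refl Q b' = refl Q (-b') := by
      apply Subtype.ext
      show reflE Q b' = reflE Q (-b')
      rw [← neg_one_smul F b', reflE_smul Q (neg_ne_zero.mpr one_ne_zero)]
    rw [e]
    apply refl_mul_refl_mem_of_sing h2 hS hq hc hd hb
    · rw [← neg_one_smul F b', q_smul, hb']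
      ring
    · rw [← neg_one_smul F b', polar_smul_r, h1']
      ring
  · exact refl_mul_refl_mem_of_plane h2 hS hc hd hb hb' h1 h1'

end Cfsg.Agent.Lib.Helper44.ReflClass2
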