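import Mathlib
import Cfsg.Agent.Lib.Helper44.ReflClass2

set_option autoImplicit false

namespace Cfsg.Agent.Lib.Helper44.ReflClass3

open Module QuadraticMap
open Cfsg.Agent.Lib.Helper44.Split Cfsg.Agent.Lib.Helper44.QSpace Cfsg.Agent.Lib.Helper44.OGroup
open Cfsg.Agent.Lib.Helper44.CartanD Cfsg.Agent.Lib.Helper44.Parity Cfsg.Agent.Lib.Helper44.Spinor
open Cfsg.Agent.Lib.Helper44.Omega2 Cfsg.Agent.Lib.Helper44.QClass
open Cfsg.Agent.Lib.Helper44.ReflClass Cfsg.Agent.Lib.Helper44.ReflClass2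
open Cfsg.Agent.Lib.Helper44.FinSq

universe u

variable {F : Type*} [Field F] {V : Type u} [AddCommGroup V] [Module F V]

/-- The sign homomorphism on `ZMod 2`. -/
def sgn2 : Multiplicative (ZMod 2) →* ℤˣ where
  toFun x := if Multiplicative.toAdd x = 0 then 1 else -1
  map_one' := by decide
  map_mul' := by decide

theorem HA_normal (Q : QuadraticForm F V) (c : F) : (HA Q c).Normal := by
  constructor
  intro n hn g
  unfold HA at hn ⊢
  induction hn using Subgroup.closure_induction with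
  | mem x hx =>
    obtain ⟨v, hv, rfl⟩ := hx
    apply Subgroup.subset_closure
    refine ⟨g.1 v, ?_, ?_⟩
    · obtain ⟨t, ht, hq⟩ := hv
      exact ⟨t, ht, by rw [g.2 v, hq]⟩
    · apply Subtype.ext
      show g.1 * reflE Q v * g.1⁻¹ = reflE Q (g.1 v)
      exact conj_reflE g.2 v
  | one => simp
  | mul x y _ _ hx hy =>
    have e : g * (x * y) * g⁻¹ = (g * x * g⁻¹) * (g * y * g⁻¹) := by group
    rw [e]
    exact Subgroup.mul_mem _ hx hy
  | inv x _ hx =>
    have e : g * x⁻¹ * g⁻¹ = (g * x * g⁻¹)⁻¹ := by group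
    rw [e]
    exact Subgroup.inv_mem _ hx

/-- A character which is trivial on the reflections of class `c` and non-trivial on the
others. -/
theorem exists_classChar [Fintype F] [FiniteDimensional F V] (h2 : (2 : F) ≠ 0)
    {Q : QuadraticForm F V} (hS : Sep Q) (hn : 2 ≤ finrank F V) {c : F} (hc : c ≠ 0) :
    ∃ ψ : O Q →* ℤˣ, (∀ v, InA Q c v → ψ (refl Q v) = 1) ∧
      (∀ w, Q w ≠ 0 → ¬ InA Q c w → ψ (refl Q w) = -1) := by
  obtain ⟨θ, hθ⟩ := exists_char h2 hS (by omega)
  obtain ⟨a₀, ha₀⟩ := exists_q_eq hS hn c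
  have ha₀0 : Q a₀ ≠ 0 := by rw [ha₀]; exact hc
  have hCD := cdp_of_two_ne_zero h2 hS
  have hA : ∀ v, InA Q c v → θ (refl Q v) = θ (refl Q a₀) := by
    intro v hv
    obtain ⟨hv0, r, hr⟩ := (inA_iff hc v).mp hv
    exact hom_refl_eq h2 θ hv0 ha₀0 ⟨r, by rw [ha₀, mul_comm, hr]⟩
  have hB : ∀ w, Q w ≠ 0 → ¬ InA Q c w → θ (refl Q w) ≠ θ (refl Q a₀) := by
    intro w hw0 hw
    apply hθ w a₀ hw0 ha₀0
    intro hsq
    apply hw
    rw [inA_iff hc]
    refine ⟨hw0, ?_⟩
    rw [ha₀, mul_comm] at hsq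
    exact hsq
  rcases Int.units_eq_one_or (θ (refl Q a₀)) with h1 | h1
  · refine ⟨θ, ?_, ?_⟩
    · intro v hv
      rw [hA v hv, h1]
    · intro w hw0 hw
      have := hB w hw0 hw
      rw [h1] at this
      exact (Int.units_eq_one_or _).resolve_left this
  · have hε : ∀ v, Q v ≠ 0 → (sgn2.comp (parHom hS hCD)) (refl Q v) = -1 := by
      intro v hv
      have := parHom_prod hS hCD [v] (by
        intro y hy
        rw [List.mem_singleton] at hy
        rw [hy]; exact hv)
      simp only [List.map_cons, List.map_nil, List.prod_cons, List.prod_nil, mul_one,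
        List.length_cons, List.length_nil] at this
      rw [MonoidHom.comp_apply, this]
      decide
    refine ⟨θ * sgn2.comp (parHom hS hCD), ?_, ?_⟩
    · intro v hv
      have hv0 := ((inA_iff hc v).mp hv).1
      rw [MonoidHom.mul_apply, hA v hv, h1, hε v hv0]
      rfl
    · intro w hw0 hw
      have := hB w hw0 hw
      rw [h1] at this
      rw [MonoidHom.mul_apply, hε w hw0, (Int.units_eq_one_or _).resolve_right this]
      rfl

/-- The subgroup generated by the reflections of one class has index two. -/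
theorem index_HA [Fintype F] [FiniteDimensional F V] (h2 : (2 : F) ≠ 0)
    {Q : QuadraticForm F V} (hS : Sep Q) (hn : 2 ≤ finrank F V)
    (hq : Fintype.card F ≠ 3 ∨ 5 ≤ finrank F V ∨ finrank F V ≤ 2) {c : F} (hc : c ≠ 0) :
    (HA Q c).index = 2 := by
  obtain ⟨ψ, hψA, hψB⟩ := exists_classChar h2 hS hn hc
  obtain ⟨ζ, hζ⟩ := FiniteField.exists_nonsquare (ringChar_ne_two_of_two_ne_zero h2)
  have hζ0 : ζ ≠ 0 := fun h => hζ (h ▸ IsSquare.zero)
  obtain ⟨w₀, hw₀⟩ := exists_q_eq hS hn (c * ζ)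
  have hw₀0 : Q w₀ ≠ 0 := by rw [hw₀]; exact mul_ne_zero hc hζ0
  have hw₀B : ¬ InA Q c w₀ := by
    rintro ⟨t, ht, hqt⟩
    apply hζ
    refine ⟨t, ?_⟩
    rw [hw₀] at hqt
    have := mul_left_cancel₀ hc hqt
    rw [this, pow_two]
  have hCD := cdp_of_two_ne_zero h2 hS
  have hN : (HA Q c).Normal := HA_normal Q c
  have hker : HA Q c ≤ ψ.ker := by
    unfold HA
    rw [Subgroup.closure_le]
    rintro g ⟨v, hv, rfl⟩
    exact hψA v hv
  have hw₀H : refl Q w₀ ∉ HA Q c := by
    intro h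
    have := hker h
    rw [MonoidHom.mem_ker, hψB w₀ hw₀0 hw₀B] at this
    exact absurd this (by decide)
  -- in the quotient, every reflection is trivial or equal to the reflection in `w₀`
  have hcls : ∀ v, Q v ≠ 0 → ¬ InA Q c v → refl Q v * refl Q w₀ ∈ HA Q c := by
    intro v hv0 hv
    have h1 : ¬ IsSquare (c * Q v) := fun h => hv ((inA_iff hc v).mpr ⟨hv0, h⟩)
    have h3 : ¬ IsSquare (c * Q w₀) := fun h => hw₀B ((inA_iff hc w₀).mpr ⟨hw₀0, h⟩)
    obtain ⟨r, hr⟩ := isSquare_mul_of_not_of_not h1 h3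
    have hr0 : r ≠ 0 := by
      rintro rfl
      rw [mul_zero] at hr
      exact (mul_ne_zero (mul_ne_zero hc hv0) (mul_ne_zero hc hw₀0)) hr
    set s := r / (c * Q v) with hs
    have hs0 : s ≠ 0 := div_ne_zero hr0 (mul_ne_zero hc hv0)
    have hq1 : Q (s⁻¹ • w₀) = Q v := by
      rw [q_smul, hs]
      field_simp
      linear_combination hr
    have e : refl Q w₀ = refl Q (s⁻¹ • w₀) :=
      Subtype.ext (reflE_smul Q (inv_ne_zero hs0) w₀).symm
    rw [e]
    exact refl_mul_refl_mem_HA h2 hS hq hc hv0 rfl hq1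
  have key : ∀ vs : List V, (∀ v ∈ vs, Q v ≠ 0) → ∃ k : ℕ,
      QuotientGroup.mk' (HA Q c) ((vs.map (refl Q)).prod)
        = (QuotientGroup.mk' (HA Q c) (refl Q w₀)) ^ k := by
    intro vs
    induction vs with
    | nil => intro _; exact ⟨0, by simp⟩
    | cons v vs ih =>
      intro hvs
      obtain ⟨k, hk⟩ := ih (fun x hx => hvs x (List.mem_cons_of_mem _ hx))
      have hv0 := hvs v List.mem_cons_self
      by_cases hv : InA Q c v
      · refine ⟨k, ?_⟩
        rw [List.map_cons, List.prod_cons, map_mul, hk]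
        have : QuotientGroup.mk' (HA Q c) (refl Q v) = 1 :=
          (QuotientGroup.eq_one_iff _).mpr (refl_mem_HA hv)
        rw [this, one_mul]
      · refine ⟨k + 1, ?_⟩
        rw [List.map_cons, List.prod_cons, map_mul, hk, pow_succ']
        congr 1
        have h1 : QuotientGroup.mk' (HA Q c) (refl Q v * refl Q w₀) = 1 :=
          (QuotientGroup.eq_one_iff _).mpr (hcls v hv0 hv)
        have h3 : QuotientGroup.mk' (HA Q c) (refl Q w₀ * refl Q w₀) = 1 := by
          rw [refl_mul_self, map_one]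
        rw [map_mul] at h1 h3
        rw [eq_inv_of_mul_eq_one_left h1, inv_eq_of_mul_eq_one_left h3]
  set ρ := QuotientGroup.mk' (HA Q c) (refl Q w₀) with hρ
  have hρ2 : ρ * ρ = 1 := by
    rw [hρ, ← map_mul, refl_mul_self, map_one]
  have hρ1 : ρ ≠ 1 := by
    intro h
    exact hw₀H ((QuotientGroup.eq_one_iff _).mp h)
  rw [Subgroup.index_eq_two_iff]
  refine ⟨refl Q w₀, fun g => ?_⟩
  obtain ⟨vs, hvs, hg⟩ := hCD g.1 g.2
  have e : g = (vs.map (refl Q)).prod := by
    apply Subtype.ext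
    rw [coe_prod_refl]
    exact hg
  obtain ⟨k, hk⟩ := key vs hvs
  rw [← e] at hk
  have hmem : ∀ x : O Q, x ∈ HA Q c ↔ QuotientGroup.mk' (HA Q c) x = 1 :=
    fun x => (QuotientGroup.eq_one_iff x).symm
  rw [hmem, hmem, map_mul, hk, ← hρ]
  rcases Nat.even_or_odd k with ⟨j, hj⟩ | ⟨j, hj⟩
  · have hk1 : ρ ^ k = 1 := by
      rw [hj, ← two_mul, pow_mul, pow_two, hρ2, one_pow]
    rw [hk1, one_mul]
    right
    exact ⟨rfl, hρ1⟩
  · have hk1 : ρ ^ k = ρ := by
      rw [hj, pow_succ, pow_mul, pow_two, hρ2, one_pow, one_mul]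
    rw [hk1, hρ2]
    left
    exact ⟨rfl, hρ1⟩

end Cfsg.Agent.Lib.Helper44.ReflClass3
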