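import Mathlib
import Cfsg.Agent.Lib.Helper44.ODet
import Cfsg.Agent.Lib.Helper44.NegPairs
import Cfsg.Agent.Lib.Helper44.OMat2
import Cfsg.Agent.Lib.Helper45.OrthCard

set_option autoImplicit false

namespace Cfsg.Agent.Lib.Helper44.SO3

open Matrix

variable {F : Type*} [Field F]

/-- The index type of the three-dimensional odd form. -/
abbrev I3 : Type := Unit ⊕ (Fin 1 ⊕ Fin 1)

/-- Columns: a basis of the sum-zero hyperplane of `F^4` adapted to the form. -/
def Bm (F : Type*) [Field F] : Matrix (Fin 4) I3 F :=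
  Matrix.of fun i j => match j with
    | Sum.inl _ => (![0, 1, -1, 0] : Fin 4 → F) i
    | Sum.inr (Sum.inl _) => (![-1, -1, -1, 0] : Fin 4 → F) i
    | Sum.inr (Sum.inr _) => (![0, 1, 1, 1] : Fin 4 → F) i

/-- The left inverse of `Bm`. -/
def Am (F : Type*) [Field F] : Matrix I3 (Fin 4) F :=
  Matrix.of fun j i => match j with
    | Sum.inl _ => (![0, -1, 1, 0] : Fin 4 → F) i
    | Sum.inr (Sum.inl _) => (![0, 1, 1, 1] : Fin 4 → F) i
    | Sum.inr (Sum.inr _) => (![-1, -1, -1, 0] : Fin 4 → F) i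

theorem Am_mul_Bm (h3 : (3 : F) = 0) : Am F * Bm F = 1 := by
  ext a b
  rcases a with a | a | a <;> rcases b with b | b | b <;>
    (try obtain rfl : a = 0 := Fin.eq_zero a) <;> (try obtain rfl : b = 0 := Fin.eq_zero b) <;>
    simp [Am, Bm, Matrix.mul_apply, Fin.sum_univ_four] <;>
    first | linear_combination h3 | linear_combination -h3

theorem Bm_mul_Am (h3 : (3 : F) = 0) (i k : Fin 4) :
    (Bm F * Am F) i k = (if i = k then 1 else 0) - 1 := by
  fin_cases i <;> fin_cases k <;>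
    simp [Am, Bm, Matrix.mul_apply, Fintype.sum_sum_type] <;>
    first | linear_combination h3 | linear_combination -h3

theorem Bm_col_sum (h3 : (3 : F) = 0) (j : I3) : ∑ i, Bm F i j = 0 := by
  rcases j with j | j | j <;> simp [Bm, Fin.sum_univ_four] <;>
    first | linear_combination h3 | linear_combination -h3

theorem BA_mul (h3 : (3 : F) = 0) (C : Matrix (Fin 4) I3 F) (hC : ∀ j, ∑ i, C i j = 0) :
    Bm F * Am F * C = C := by
  ext i j
  rw [Matrix.mul_apply]
  simp_rw [Bm_mul_Am h3]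
  simp [sub_mul, Finset.sum_sub_distrib, hC]

theorem sub_col_sum (h3 : (3 : F) = 0) (π : Equiv.Perm (Fin 4)) (j : I3) :
    ∑ i, (Bm F).submatrix (⇑π) id i j = 0 := by
  simp only [Matrix.submatrix_apply, id]
  rw [Equiv.sum_comp π (fun i => Bm F i j)]
  exact Bm_col_sum h3 j

/-- The matrix of a permutation on the hyperplane, in the chosen basis. -/
def Mp (F : Type*) [Field F] (π : Equiv.Perm (Fin 4)) : Matrix I3 I3 F :=
  Am F * (Bm F).submatrix (⇑π⁻¹) id

theorem Bm_mul_Mp (h3 : (3 : F) = 0) (π : Equiv.Perm (Fin 4)) :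
    Bm F * Mp F π = (Bm F).submatrix (⇑π⁻¹) id := by
  unfold Mp
  rw [← Matrix.mul_assoc, BA_mul h3 _ (sub_col_sum h3 π⁻¹)]

theorem Mp_mul (h3 : (3 : F) = 0) (π τ : Equiv.Perm (Fin 4)) :
    Mp F (π * τ) = Mp F π * Mp F τ := by
  unfold Mp
  rw [Matrix.mul_assoc]
  congr 1
  have h1 : (Bm F).submatrix (⇑π⁻¹) id * (Am F * (Bm F).submatrix (⇑τ⁻¹) id)
      = (Bm F * (Am F * (Bm F).submatrix (⇑τ⁻¹) id)).submatrix (⇑π⁻¹) id := by
    rw [Matrix.submatrix_mul _ _ _ id _ Function.bijective_id, Matrix.submatrix_id_id]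
  rw [h1, ← Matrix.mul_assoc, BA_mul h3 _ (sub_col_sum h3 τ⁻¹)]
  ext i j
  simp [Matrix.submatrix_apply, _root_.mul_inv_rev]

theorem Mp_one (h3 : (3 : F) = 0) : Mp F 1 = 1 := by
  unfold Mp
  simp [Am_mul_Bm h3]

/-- The sign of a permutation as a field element. -/
def sg (F : Type*) [Field F] (π : Equiv.Perm (Fin 4)) : F := ((Equiv.Perm.sign π : ℤ) : F)

theorem sg_mul (π τ : Equiv.Perm (Fin 4)) : sg F (π * τ) = sg F π * sg F τ := by
  unfold sg
  rw [Equiv.Perm.sign_mul, Units.val_mul, Int.cast_mul]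

theorem sg_sq (π : Equiv.Perm (Fin 4)) : sg F π * sg F π = 1 := by
  unfold sg
  rcases Int.units_eq_one_or (Equiv.Perm.sign π) with h | h <;> rw [h] <;> simp

theorem sg_cases (π : Equiv.Perm (Fin 4)) : sg F π = 1 ∨ sg F π = -1 := by
  unfold sg
  rcases Int.units_eq_one_or (Equiv.Perm.sign π) with h | h <;> rw [h] <;> simp

/-- The sign-twisted permutation representation on the hyperplane. -/
def psi0 (h3 : (3 : F) = 0) : Equiv.Perm (Fin 4) →* Matrix I3 I3 F where
  toFun π := sg F π • Mp F π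
  map_one' := by
    rw [Mp_one h3]
    simp [sg]
  map_mul' π τ := by
    rw [Mp_mul h3, sg_mul, Matrix.smul_mul, Matrix.mul_smul, smul_smul]

theorem psi0_apply (h3 : (3 : F) = 0) (π : Equiv.Perm (Fin 4)) :
    psi0 h3 π = sg F π • Mp F π := rfl

theorem norm_Bm (h3 : (3 : F) = 0) (v : I3 → F) :
    ∑ i, (Bm F *ᵥ v) i ^ 2 = - Cfsg.quadFormOdd 1 F v := by
  simp only [Matrix.mulVec, dotProduct, Fintype.sum_sum_type, Fin.sum_univ_four, Bm,
    Cfsg.quadFormOdd, Finset.univ_unique, Finset.sum_singleton, Matrix.of_apply]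
  simp
  linear_combination (v (Sum.inl ()) ^ 2 + v (Sum.inr (Sum.inl 0)) ^ 2
    + v (Sum.inr (Sum.inr 0)) ^ 2 - v (Sum.inr (Sum.inl 0)) * v (Sum.inr (Sum.inr 0))) * h3

theorem psi0_iso (h3 : (3 : F) = 0) (π : Equiv.Perm (Fin 4)) (v : I3 → F) :
    Cfsg.quadFormOdd 1 F (psi0 h3 π *ᵥ v) = Cfsg.quadFormOdd 1 F v := by
  have h1 : Bm F *ᵥ (psi0 h3 π *ᵥ v) = fun i => sg F π * (Bm F *ᵥ v) (π⁻¹ i) := by
    rw [Matrix.mulVec_mulVec, psi0_apply, Matrix.mul_smul, Bm_mul_Mp h3]
    funext i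
    simp [Matrix.mulVec, dotProduct, Matrix.submatrix_apply, mul_assoc]
    ring
  have h2 := norm_Bm h3 (psi0 h3 π *ᵥ v)
  rw [h1] at h2
  have h3' : ∑ i, (sg F π * (Bm F *ᵥ v) (π⁻¹ i)) ^ 2 = ∑ i, (Bm F *ᵥ v) i ^ 2 := by
    rw [← Equiv.sum_comp π⁻¹ (fun i => (Bm F *ᵥ v) i ^ 2)]
    apply Finset.sum_congr rfl
    intro i _
    rw [mul_pow, pow_two (sg F π), sg_sq, one_mul]
  rw [h3', norm_Bm h3] at h2
  exact (neg_injective h2).symm

theorem psi0_swap (h3 : (3 : F) = 0) : psi0 h3 (Equiv.swap (1 : Fin 4) 2)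
    = Matrix.diagonal (fun j : I3 => match j with | Sum.inl _ => (1 : F) | _ => -1) := by
  have hB : (Bm F).submatrix (⇑(Equiv.swap (1 : Fin 4) 2)⁻¹) id
      = Bm F * Matrix.diagonal (fun j : I3 => match j with | Sum.inl _ => (-1 : F) | _ => 1) := by
    ext i j
    rw [Matrix.mul_diagonal]
    fin_cases i <;> rcases j with j | j | j <;> simp [Bm, Equiv.swap_apply_def]
  rw [psi0_apply, Mp, hB, ← Matrix.mul_assoc, Am_mul_Bm h3, Matrix.one_mul]
  have hs : sg F (Equiv.swap (1 : Fin 4) 2) = -1 := by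
    simp [sg]
  rw [hs]
  ext a b
  rcases a with a | a | a <;> rcases b with b | b | b <;>
    (try obtain rfl : a = 0 := Fin.eq_zero a) <;> (try obtain rfl : b = 0 := Fin.eq_zero b) <;>
    simp

theorem det_swap (h3 : (3 : F) = 0) : (psi0 h3 (Equiv.swap (1 : Fin 4) 2)).det = 1 := by
  rw [psi0_swap, Matrix.det_diagonal, Fintype.prod_sum_type, Fintype.prod_sum_type]
  simp

theorem det_psi0 (h3 : (3 : F) = 0) (π : Equiv.Perm (Fin 4)) : (psi0 h3 π).det = 1 := by
  induction π using Equiv.Perm.swap_induction_on with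
  | one => rw [map_one, Matrix.det_one]
  | swap_mul f x y hxy ih =>
    rw [map_mul, Matrix.det_mul, ih, mul_one]
    obtain ⟨c, hc⟩ := isConj_iff.mp
      (Equiv.Perm.isConj_swap (by decide : (1 : Fin 4) ≠ 2) hxy)
    rw [← hc, map_mul, map_mul, Matrix.det_mul, Matrix.det_mul, mul_right_comm,
      ← Matrix.det_mul, ← map_mul, mul_inv_cancel, map_one, Matrix.det_one, one_mul]
    exact det_swap h3

/-- The representation as a homomorphism into the isometry group. -/
def psiO (h3 : (3 : F) = 0) :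
    Equiv.Perm (Fin 4) →* ↥(Cfsg.isometryGroup F (Cfsg.quadFormOdd 1 F)) :=
  (psi0 h3).toHomUnits.codRestrict _ (fun π u _ => psi0_iso h3 π u)

theorem psiO_coe (h3 : (3 : F) = 0) (π : Equiv.Perm (Fin 4)) :
    (((psiO h3 π : ↥(Cfsg.isometryGroup F (Cfsg.quadFormOdd 1 F))) : GL I3 F) : Matrix I3 I3 F)
      = psi0 h3 π := rfl

/-- The representation as a homomorphism into the special isometry group. -/
def psiS (h3 : (3 : F) = 0) :
    Equiv.Perm (Fin 4) →* ↥(Cfsg.specialIsometryGroup F (Cfsg.quadFormOdd 1 F)) :=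
  (psiO h3).codRestrict _ (fun π => by
    unfold Cfsg.specialIsometryGroup
    rw [MonoidHom.mem_ker]
    apply Units.ext
    show (psi0 h3 π).det = 1
    exact det_psi0 h3 π)

theorem row_inj (h3 : (3 : F) = 0) (i k : Fin 4) (h : ∀ j, Bm F k j = Bm F i j) : k = i := by
  have h2 : (2 : F) ≠ 0 := by
    intro h2
    apply one_ne_zero (α := F)
    linear_combination h3 - h2
  have hne : (1 : F) ≠ -1 := by
    intro h
    apply h2
    linear_combination h
  have hne' : (-1 : F) ≠ 1 := fun h => hne h.symm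
  have h0 := h (Sum.inl ())
  have h1 := h (Sum.inr (Sum.inl 0))
  have h2 := h (Sum.inr (Sum.inr 0))
  fin_cases i <;> fin_cases k <;> first | rfl | (exfalso; simp [Bm, hne, hne'] at h0 h1 h2)

theorem psiS_injective (h3 : (3 : F) = 0) : Function.Injective (psiS h3) := by
  rw [injective_iff_map_eq_one]
  intro π hπ
  have h2 : (2 : F) ≠ 0 := by
    intro h2
    apply one_ne_zero (α := F)
    linear_combination h3 - h2
  have h1 : psi0 h3 π = 1 := by
    have := congrArg (fun g : ↥(Cfsg.specialIsometryGroup F (Cfsg.quadFormOdd 1 F)) =>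
      (((g : ↥(Cfsg.isometryGroup F (Cfsg.quadFormOdd 1 F))) : GL I3 F) : Matrix I3 I3 F)) hπ
    exact this
  have h4 : sg F π • (Bm F).submatrix (⇑π⁻¹) id = Bm F := by
    have := congrArg (fun M => Bm F * M) h1
    simp only [psi0_apply, Matrix.mul_smul, Bm_mul_Mp h3, Matrix.mul_one] at this
    exact this
  have h5 : ∀ i j, sg F π * Bm F (π⁻¹ i) j = Bm F i j := by
    intro i j
    have := congrFun (congrFun h4 i) j
    simpa using this
  have hs : sg F π = 1 := by
    rcases sg_cases (F := F) π with hs | hs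
    · exact hs
    · exfalso
      have := h5 0 (Sum.inr (Sum.inl 0))
      rw [hs] at this
      generalize π⁻¹ 0 = k at this
      fin_cases k <;> simp [Bm] at this
      all_goals (apply h2; linear_combination this)
  have h6 : ∀ i, π⁻¹ i = i := by
    intro i
    apply row_inj h3
    intro j
    have := h5 i j
    rw [hs, one_mul] at this
    exact this
  have h7 : π⁻¹ = 1 := Equiv.ext h6
  exact inv_eq_one.mp h7

section card

variable [Fintype F]

open Cfsg.Agent.Lib.Helper44.NegPairs Cfsg.Agent.Lib.Helper44.OMat2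
  Cfsg.Agent.Lib.Helper44.ODet

theorem card_so3 (hF : Fintype.card F = 3) :
    Nat.card ↥(Cfsg.specialIsometryGroup F (Cfsg.quadFormOdd 1 F)) = 24 := by
  have h3 : (3 : F) = 0 := by
    have := FiniteField.cast_card_eq_zero F
    rw [hF] at this
    exact_mod_cast this
  have h2 : (2 : F) ≠ 0 := by
    intro h2
    apply one_ne_zero (α := F)
    linear_combination h3 - h2
  have h48 := Cfsg.Agent.Lib.Helper45.OrthCard.card_odd hF (by decide : Odd 3) 1
  have hS := sep_oddQ (F := F) h2 1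
  have hidx := index_special (Q := oddQ 1 F) h2 hS (cdp_of_card hS (Or.inl (by rw [hF]; decide)))
  have hmul := Subgroup.card_mul_index (Cfsg.specialIsometryGroup F (Cfsg.quadFormOdd 1 F))
  have hidx' : (Cfsg.specialIsometryGroup F (Cfsg.quadFormOdd 1 F)).index = 2 := hidx
  rw [hidx', h48] at hmul
  simp at hmul
  omega

/-- `SO_3(3) ≅ S_4`. -/
theorem so3_iso (hF : Fintype.card F = 3) :
    Nonempty (↥(Cfsg.specialIsometryGroup F (Cfsg.quadFormOdd 1 F)) ≃* Equiv.Perm (Fin 4)) := by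
  have h3 : (3 : F) = 0 := by
    have := FiniteField.cast_card_eq_zero F
    rw [hF] at this
    exact_mod_cast this
  have hbij : Function.Bijective (psiS h3) := by
    apply (psiS_injective h3).bijective_of_nat_card_le
    rw [card_so3 hF, Nat.card_eq_fintype_card, Fintype.card_perm, Fintype.card_fin]
    decide
  exact ⟨(MulEquiv.ofBijective (psiS h3) hbij).symm⟩

end card

end Cfsg.Agent.Lib.Helper44.SO3
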