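import Mathlib
import Cfsg.Prelude.Def_Classical
import Cfsg.Prelude.Def_ClassicalGeometry
import Cfsg.Agent.Lib.Helper44.Siegel
import Cfsg.Agent.Lib.Helper44.OMat2

set_option autoImplicit false

namespace Cfsg.Agent.Lib.Helper44.SiegelMat

open Module QuadraticMap Matrix
open Cfsg.Agent.Lib.Helper44.QSpace Cfsg.Agent.Lib.Helper44.OGroup Cfsg.Agent.Lib.Helper44.Spinor
open Cfsg.Agent.Lib.Helper44.OMat Cfsg.Agent.Lib.Helper44.Omega2 Cfsg.Agent.Lib.Helper44.OMat2
open Cfsg.Agent.Lib.Helper44.Eichler Cfsg.Agent.Lib.Helper44.Siegel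

variable {F : Type*} [Field F] {ι : Type} [Fintype ι] [DecidableEq ι]

/-- The action of a Siegel matrix. -/
theorem siegel_mulVec (Q : QuadraticForm F (ι → F)) (u v : ι → F) (c : F) (x : ι → F) :
    Cfsg.siegelMatrix (⇑Q) u v c *ᵥ x
      = x + (c * polar Q u x) • v - (c * polar Q v x) • u := by
  unfold Cfsg.siegelMatrix
  have key : ∀ a b : ι → F,
      Matrix.vecMulVec a (Cfsg.polarVec (⇑Q) b) *ᵥ x = (polar Q b x) • a := by
    intro a b
    rw [← polarVec_dot]
    ext i
    simp only [Matrix.mulVec, Matrix.vecMulVec_apply, dotProduct, Pi.smul_apply, smul_eq_mul,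
      Finset.sum_mul]
    refine Finset.sum_congr rfl fun j _ => ?_
    ring
  rw [Matrix.add_mulVec, Matrix.one_mulVec, Matrix.smul_mulVec, Matrix.sub_mulVec, key, key,
    smul_sub, smul_smul, smul_smul]
  abel

/-- An isometry whose matrix is a Siegel matrix is an Eichler transformation. -/
theorem isoEquiv_siegel (Q : QuadraticForm F (ι → F)) (g : ↥(Cfsg.isometryGroup F ⇑Q))
    {u v : ι → F} {c : F} (hu : Q u = 0) (hv : Q v = 0)
    (hg : ((g : GL ι F) : Matrix ι ι F) = Cfsg.siegelMatrix (⇑Q) u v c)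
    (hdy : polar Q u (c • v) = 0) : isoEquiv Q g = eich Q hu hdy := by
  apply Subtype.ext
  apply LinearEquiv.ext
  intro x
  show ((g : GL ι F) : Matrix ι ι F) *ᵥ x = eichE Q hu hdy x
  rw [hg, siegel_mulVec, eichE_apply, q_smul, hv, polar_smul_l]
  simp only [mul_zero, zero_mul, zero_smul, sub_zero, smul_smul]
  congr 2
  rw [mul_comm]

/-- The matrix of an Eichler transformation with both vectors singular is a Siegel matrix. -/
theorem symm_eich_matrix (Q : QuadraticForm F (ι → F)) {d y : ι → F} (hd : Q d = 0)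
    (hdy : polar Q d y = 0) (hy : Q y = 0) :
    ((((isoEquiv Q).symm (eich Q hd hdy) : ↥(Cfsg.isometryGroup F ⇑Q)) : GL ι F) : Matrix ι ι F)
      = Cfsg.siegelMatrix (⇑Q) d y 1 := by
  apply matrix_ext_mulVec
  intro x
  rw [isoEquiv_symm_mulVec, siegel_mulVec]
  show eichE Q hd hdy x = _
  rw [eichE_apply, hy]
  simp

/-- **`Ω` is generated by Siegel transformations** (matrix form; finite field of odd
characteristic, dimension at least five). -/
theorem omega_eq_closure_siegel [Fintype F] (h2 : (2 : F) ≠ 0) {Q : QuadraticForm F (ι → F)}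
    (hS : Sep Q) (hn : 5 ≤ Fintype.card ι) :
    Cfsg.Omega F ⇑Q = Subgroup.closure {g : ↥(Cfsg.isometryGroup F ⇑Q) |
      ∃ (u v : ι → F) (c : F), Q u = 0 ∧ Q v = 0 ∧ polar ⇑Q u v = 0 ∧
        ((g : GL ι F) : Matrix ι ι F) = Cfsg.siegelMatrix ⇑Q u v c} := by
  have hc := commutator_eq_closure h2 hS
    (by rw [Module.finrank_fintype_fun_eq_card]; exact hn)
  apply le_antisymm
  · intro g hg
    rw [mem_omega_iff, hc] at hg
    have key : ∀ h ∈ Subgroup.closure (rootSet Q), (isoEquiv Q).symm h ∈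
        Subgroup.closure {g : ↥(Cfsg.isometryGroup F ⇑Q) |
          ∃ (u v : ι → F) (c : F), Q u = 0 ∧ Q v = 0 ∧ polar ⇑Q u v = 0 ∧
            ((g : GL ι F) : Matrix ι ι F) = Cfsg.siegelMatrix ⇑Q u v c} := by
      intro h hh
      induction hh using Subgroup.closure_induction with
      | mem x hx =>
        obtain ⟨d, y, hd, hdy, hy, rfl⟩ := hx
        apply Subgroup.subset_closure
        exact ⟨d, y, 1, hd, hy, hdy, symm_eich_matrix Q hd hdy hy⟩
      | one => rw [map_one]; exact Subgroup.one_mem _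
      | mul x y _ _ hx hy => rw [map_mul]; exact Subgroup.mul_mem _ hx hy
      | inv x _ hx => rw [map_inv]; exact Subgroup.inv_mem _ hx
    have := key _ hg
    rwa [MulEquiv.symm_apply_apply] at this
  · rw [Subgroup.closure_le]
    rintro g ⟨u, v, c, hu, hv, huv, hg⟩
    show g ∈ Cfsg.Omega F ⇑Q
    have hdy : polar Q u (c • v) = 0 := by rw [polar_smul_r, huv, mul_zero]
    rw [mem_omega_iff, hc, isoEquiv_siegel Q g hu hv hg hdy]
    exact Subgroup.subset_closure ⟨u, c • v, hu, hdy, by rw [q_smul, hv, mul_zero], rfl⟩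

end Cfsg.Agent.Lib.Helper44.SiegelMat
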