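import Mathlib
import Cfsg.Agent.Lib.Helper44.Der5
import Cfsg.Agent.Lib.Helper44.SymO2
import Cfsg.Agent.Lib.Helper44.Inv8

set_option autoImplicit false

namespace Cfsg.Agent.Lib.Helper44.SpQ1

open Module QuadraticMap
open Cfsg.Agent.Lib.Helper44.QSpace Cfsg.Agent.Lib.Helper44.QClass
open Cfsg.Agent.Lib.Helper44.NegPairs Cfsg.Agent.Lib.Helper44.QCount

section basic

variable {F : Type*} [Field F] [CharP F 2] {V : Type*} [AddCommGroup V] [Module F V]

omit [AddCommGroup V] [Module F V] in
theorem two0 : (2 : F) = 0 := CharTwo.two_eq_zero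

variable (F) in
include F in
theorem vadd_self (v : V) : v + v = 0 := by
  have h : (2 : F) • v = 0 := by rw [two0, zero_smul]
  rw [two_smul] at h
  exact h

/-- The square of the functional `B(·, w)`. -/
def sqF (Q : QuadraticForm F V) (w : V) : QuadraticForm F V :=
  QuadraticMap.linMulLin ((polarBilin Q).flip w) ((polarBilin Q).flip w)

/-- The quadratic form `Q + B(·, w)²`, which has the same polar form as `Q`. -/
def shift (Q : QuadraticForm F V) (w : V) : QuadraticForm F V := Q + sqF Q w

theorem shift_apply (Q : QuadraticForm F V) (w v : V) :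
    shift Q w v = Q v + polar Q v w * polar Q v w := rfl

theorem polar_shift (Q : QuadraticForm F V) (w u v : V) :
    polar (shift Q w) u v = polar Q u v := by
  have h2 : (2 : F) = 0 := two0
  have e : polar Q (u + v) w = polar Q u w + polar Q v w := polar_add_left Q u v w
  show shift Q w (u + v) - shift Q w u - shift Q w v = Q (u + v) - Q u - Q v
  rw [shift_apply, shift_apply, shift_apply, e]
  linear_combination (polar Q u w * polar Q v w) * h2

theorem sep_shift {Q : QuadraticForm F V} (h : Sep Q) (w : V) : Sep (shift Q w) :=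
  fun x hx => h x (fun y => by rw [← polar_shift Q w]; exact hx y)

theorem shift_shift (Q : QuadraticForm F V) (w u : V) : shift (shift Q w) u = shift Q (w + u) := by
  have h2 : (2 : F) = 0 := two0
  ext v
  rw [shift_apply, shift_apply, shift_apply, polar_shift, polar_add_right]
  linear_combination (-(polar Q v w * polar Q v u)) * h2

theorem shift_wp (Q : QuadraticForm F V) (w u : V) :
    shift Q w u + Q (w + u) + Q w = polar Q u w * polar Q u w + polar Q u w := by
  have h2 : (2 : F) = 0 := two0
  rw [shift_apply, q_add Q w u, polar_comm (⇑Q) w u]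
  linear_combination (Q u + Q w) * h2

/-- A symplectic transvection carries `Q` to `Q + B(·, w)²` when `Q w` is in the image of the
Artin–Schreier map. -/
theorem exists_transv (Q : QuadraticForm F V) {w : V} {a : F} (hw : Q w = a * a + a) :
    ∃ g : V ≃ₗ[F] V, (∀ u v, polar Q (g u) (g v) = polar Q u v) ∧ ∀ v, Q (g v) = shift Q w v := by
  classical
  have h2 : (2 : F) = 0 := two0
  set t : F := if Q w = 0 then 1 else a / Q w with ht
  have ht1 : t * t * Q w + t = 1 := by
    by_cases h0 : Q w = 0
    · rw [ht, if_pos h0, h0]; ring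
    · rw [ht, if_neg h0]
      have : a / Q w * (a / Q w) * Q w + a / Q w = (a * a + a) / Q w := by field_simp
      rw [this, ← hw, div_self h0]
  have hww : polar Q w w = 0 := by rw [polar_self', h2, zero_mul]
  let gL : V →ₗ[F] V :=
    LinearMap.id + (t • ((polarBilin Q).flip w)).smulRight w
  have hgL : ∀ v, gL v = v + (t * polar Q v w) • w := fun v => rfl
  have hP : ∀ v, polar Q (gL v) w = polar Q v w := by
    intro v
    rw [hgL, polar_add_left, polar_smul_l, hww, mul_zero, add_zero]
  have hinv : Function.Involutive gL := by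
    intro v
    rw [hgL (gL v), hP, hgL]
    have e : (2 : F) • ((t * polar Q v w) • w) = 0 := by rw [h2, zero_smul]
    rw [two_smul] at e
    rw [add_assoc, e, add_zero]
  refine ⟨LinearEquiv.ofInvolutive gL hinv, ?_, ?_⟩
  · intro u v
    show polar Q (gL u) (gL v) = polar Q u v
    rw [hgL v, polar_add_right, polar_smul_r, hP, hgL, polar_add_left, polar_smul_l,
      polar_comm (⇑Q) w v]
    linear_combination (t * polar Q u w * polar Q v w) * h2
  · intro v
    show Q (gL v) = shift Q w v
    rw [hgL, q_add, q_smul, polar_smul_r, shift_apply]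
    linear_combination (polar Q v w * polar Q v w) * ht1

theorem sq_inj {a b : F} (h : a * a = b * b) : a = b := by
  have h2 : (2 : F) = 0 := two0
  have e : (a - b) * (a - b) = 0 := by linear_combination h + (b * b - a * b) * h2
  exact sub_eq_zero.mp (mul_self_eq_zero.mp e)

theorem exists_sqrt [Finite F] (c : F) : ∃ s : F, s * s = c :=
  (Finite.injective_iff_surjective.mp
    (fun (a b : F) (h : (fun t : F => t * t) a = (fun t : F => t * t) b) => sq_inj h)) c

/-- Two quadratic forms with the same non-degenerate polar form differ by the square of a linear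
functional. -/
theorem exists_shift [Finite F] [FiniteDimensional F V] {Q : QuadraticForm F V} (hS : Sep Q)
    (Q' : QuadraticForm F V) (hp : ∀ u v, polar Q' u v = polar Q u v) : ∃ w, Q' = shift Q w := by
  have h2 : (2 : F) = 0 := two0
  have hD : ∀ u v, Q' (u + v) + Q (u + v) = (Q' u + Q u) + (Q' v + Q v) := by
    intro u v
    rw [q_add Q', q_add Q, hp]
    linear_combination polar Q u v * h2
  choose s hs using exists_sqrt (F := F)
  let lam : V →ₗ[F] F :=
    { toFun := fun v => s (Q' v + Q v)
      map_add' := by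
        intro u v
        apply sq_inj
        rw [hs, hD]
        linear_combination (-(hs (Q' u + Q u))) - hs (Q' v + Q v)
          - (s (Q' u + Q u) * s (Q' v + Q v)) * h2
      map_smul' := by
        intro c v
        apply sq_inj
        rw [hs, q_smul, q_smul, RingHom.id_apply, smul_eq_mul]
        linear_combination (-(c * c)) * hs (Q' v + Q v) }
  have hlam : ∀ v, lam v = s (Q' v + Q v) := fun v => rfl
  have hB := nondegenerate_of_sep hS
  refine ⟨(LinearMap.BilinForm.toDual (polarBilin Q) hB).symm lam, ?_⟩
  ext v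
  have e1 : polar Q v ((LinearMap.BilinForm.toDual (polarBilin Q) hB).symm lam) = lam v := by
    rw [polar_comm]
    exact LinearMap.BilinForm.apply_toDual_symm_apply (B := polarBilin Q) (hB := hB) lam v
  rw [shift_apply, e1, hlam, hs]
  linear_combination (-(Q v)) * h2

open Cfsg.Agent.Lib.Helper44.Der5 in
theorem wp_of_not_not [Finite F] {a b : F} (ha : a ∉ (wp F).range) (hb : b ∉ (wp F).range) :
    a + b ∈ (wp F).range :=
  (AddSubgroup.add_mem_iff_of_index_two (wp_index (F := F))).mpr (iff_of_false ha hb)

open Cfsg.Agent.Lib.Helper44.Der5 in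
theorem exists_not_wp [Finite F] : ∃ c : F, c ∉ (wp F).range := by
  by_contra h
  push Not at h
  have e : (wp F).range = ⊤ := (AddSubgroup.eq_top_iff' _).mpr h
  have := wp_index (F := F)
  rw [e, AddSubgroup.index_top] at this
  omega

open Cfsg.Agent.Lib.Helper44.Der5 in
theorem wp_mem (c : F) : c * c + c ∈ (wp F).range := ⟨c, by rw [wp_apply]; ring⟩

open Cfsg.Agent.Lib.Helper44.Der5 in
/-- Shifts by vectors whose values differ by an Artin–Schreier element are equivalent under the
symplectic group. -/
theorem equiv_of_wp (Q : QuadraticForm F V) {w w' : V} (h : Q w + Q w' ∈ (wp F).range) :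
    ∃ g : V ≃ₗ[F] V, (∀ u v, polar Q (g u) (g v) = polar Q u v) ∧
      ∀ v, shift Q w (g v) = shift Q w' v := by
  have h2 : (2 : F) = 0 := two0
  obtain ⟨c, hc⟩ := AddMonoidHom.mem_range.mp h
  rw [wp_apply] at hc
  have e1 := shift_wp Q w (w + w')
  have e2 : w + (w + w') = w' := by rw [← add_assoc, vadd_self F w, zero_add]
  rw [e2] at e1
  have hw : shift Q w (w + w')
      = (c + polar Q (w + w') w) * (c + polar Q (w + w') w) + (c + polar Q (w + w') w) := by
    linear_combination e1 + hc + (-(c ^ 2) - c - c * polar Q (w + w') w) * h2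
  obtain ⟨g, hg1, hg2⟩ := exists_transv (shift Q w) hw
  refine ⟨g, fun u v => ?_, fun v => ?_⟩
  · have := hg1 u v
    rwa [polar_shift, polar_shift] at this
  · rw [hg2, shift_shift, e2]

open Cfsg.Agent.Lib.Helper44.Der5 in
theorem shift_mem_iff [Finite F] (Q : QuadraticForm F V) {w : V} (hw : Q w ∉ (wp F).range)
    (u : V) : shift Q w u ∈ (wp F).range ↔ Q (w + u) ∉ (wp F).range := by
  have h2 : (2 : F) = 0 := two0
  have e := shift_wp Q w u
  have hP := wp_mem (polar Q u w)
  constructor
  · intro h1 h3
    apply hw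
    have : Q w = (polar Q u w * polar Q u w + polar Q u w) + shift Q w u + Q (w + u) := by
      linear_combination e + (-(shift Q w u) - Q (w + u)) * h2
    rw [this]
    exact add_mem (add_mem hP h1) h3
  · intro h1
    have h3 := wp_of_not_not h1 hw
    have : shift Q w u = (polar Q u w * polar Q u w + polar Q u w) + (Q (w + u) + Q w) := by
      linear_combination e + (-(Q (w + u)) - Q w) * h2
    rw [this]
    exact add_mem hP h3

open Cfsg.Agent.Lib.Helper44.Der5 in
/-- Shifting by a vector with value outside the Artin–Schreier image complements the count. -/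
theorem card_shift_compl [Finite F] [Finite V] (Q : QuadraticForm F V) {w : V}
    (hw : Q w ∉ (wp F).range) :
    Nat.card {u : V // shift Q w u ∈ (wp F).range} + Nat.card {v : V // Q v ∈ (wp F).range}
      = Nat.card V := by
  classical
  have e1 : Nat.card {u : V // shift Q w u ∈ (wp F).range}
      = Nat.card {v : V // Q v ∉ (wp F).range} := by
    apply Nat.card_congr
    exact Equiv.subtypeEquiv (Equiv.addLeft w) (fun u => by rw [shift_mem_iff Q hw]; rfl)
  rw [e1, add_comm]
  have := Nat.card_congr (Equiv.sumCompl (fun v : V => Q v ∈ (wp F).range))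
  rw [Nat.card_sum] at this
  exact this

end basic

section count

universe u

variable {F : Type*} [Field F] [CharP F 2] [Fintype F]

open Cfsg.Agent.Lib.Helper44.Der5

theorem card_wp_range : Nat.card (wp F).range * 2 = Fintype.card F := by
  have h := AddSubgroup.card_mul_index (wp F).range
  rw [wp_index, Nat.card_eq_fintype_card (α := F)] at h
  exact h

omit [CharP F 2] in
theorem card_mem_eq_sum {α : Type*} [Finite α] (f : α → F) (S : AddSubgroup F) [Fintype S] :
    Nat.card {v : α // f v ∈ S} = ∑ c : S, Nat.card {v : α // f v = (c : F)} := by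
  let g : {v : α // f v ∈ S} → S := fun x => ⟨f x.1, x.2⟩
  rw [← Nat.card_congr (Equiv.sigmaFiberEquiv g), Nat.card_sigma]
  refine Finset.sum_congr rfl fun c _ => ?_
  apply Nat.card_congr
  exact
    { toFun := fun x => ⟨x.1.1, congrArg Subtype.val x.2⟩
      invFun := fun x => ⟨⟨x.1, by rw [x.2]; exact c.2⟩, Subtype.ext x.2⟩
      left_inv := fun x => rfl
      right_inv := fun x => rfl }

/-- The number of vectors of the plus-type form with value in the Artin–Schreier image. -/
theorem card_wp_plus (k : ℕ) :
    2 * Nat.card {v : Fin k ⊕ Fin k → F // plusQ k F v ∈ (wp F).range}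
      = Fintype.card F ^ k * (Fintype.card F ^ k + 1) := by
  classical
  set q := Fintype.card F with hq
  have hq0 : 0 < q := Fintype.card_pos
  have h1 := card_mem_eq_sum (fun v : Fin k ⊕ Fin k → F => plusQ k F v) (wp F).range
  have h2 : ∀ c : (wp F).range, Nat.card {v : Fin k ⊕ Fin k → F // plusQ k F v = (c : F)} * q
      = (if (c : F) = 0 then q ^ (k + 1) else 0) + (q ^ k - 1) * q ^ k := by
    intro c
    have := card_plusForm_mul (F := F) (κ := Fin k) (c : F)
    rw [Fintype.card_fin] at this
    exact this
  have h3 : Nat.card {v : Fin k ⊕ Fin k → F // plusQ k F v ∈ (wp F).range} * q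
      = q ^ (k + 1) + Nat.card (wp F).range * ((q ^ k - 1) * q ^ k) := by
    rw [h1, Finset.sum_mul, Finset.sum_congr rfl (fun c _ => h2 c), Finset.sum_add_distrib,
      Finset.sum_const, Finset.card_univ, ← Nat.card_eq_fintype_card, smul_eq_mul]
    congr 1
    rw [Finset.sum_eq_single (⟨0, zero_mem _⟩ : (wp F).range)]
    · rw [if_pos rfl]
    · intro c _ hc
      rw [if_neg]
      intro h0
      exact hc (Subtype.ext h0)
    · intro h
      exact absurd (Finset.mem_univ _) h
  have h4 := card_wp_range (F := F)
  obtain ⟨m, hm⟩ : ∃ m, q ^ k = m + 1 :=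
    ⟨q ^ k - 1, by have := Nat.pow_pos (n := k) hq0; omega⟩
  have h5 : q ^ (k + 1) = (m + 1) * q := by rw [pow_succ, hm]
  rw [hm] at h3 ⊢
  rw [Nat.add_sub_cancel, h5] at h3
  apply Nat.eq_of_mul_eq_mul_right hq0
  calc 2 * Nat.card {v : Fin k ⊕ Fin k → F // plusQ k F v ∈ (wp F).range} * q
      = 2 * (Nat.card {v : Fin k ⊕ Fin k → F // plusQ k F v ∈ (wp F).range} * q) := by ring
    _ = 2 * ((m + 1) * q + Nat.card (wp F).range * (m * (m + 1))) := by rw [h3]
    _ = 2 * (m + 1) * q + (Nat.card (wp F).range * 2) * (m * (m + 1)) := by ring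
    _ = (m + 1) * (m + 1 + 1) * q := by rw [h4]; ring

variable {V : Type u} [AddCommGroup V] [Module F V] [FiniteDimensional F V]

theorem card_wp_hyp (Q : QuadraticForm F V) {k : ℕ} {e f : Fin k → V} (hH : IsHyp Q e f)
    (hfin : finrank F V = 2 * k) :
    2 * Nat.card {v : V // Q v ∈ (wp F).range}
      = Fintype.card F ^ k * (Fintype.card F ^ k + 1) := by
  obtain ⟨Ψ, hΨ⟩ := SymO2.exists_iso_plus Q hH hfin
  rw [← card_wp_plus k]
  congr 1
  apply Nat.card_congr
  exact Equiv.subtypeEquiv Ψ.toEquiv (fun v => by rw [← hΨ]; rfl)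

/-- A non-degenerate form on a `2d`-space with a totally singular `d`-subspace is hyperbolic. -/
theorem hyp_of_ts {Q : QuadraticForm F V} (hS : Sep Q) {d : ℕ} (hfin : finrank F V = 2 * d)
    {U : Submodule F V} (hU : ∀ u ∈ U, Q u = 0) (hd : d ≤ finrank F U) :
    ∃ e f : Fin d → V, IsHyp Q e f := by
  rcases d with _ | m
  · exact ⟨Fin.elim0, Fin.elim0, fun i => i.elim0, fun i => i.elim0, fun i => i.elim0,
      fun i => i.elim0, fun i => i.elim0⟩
  · rcases exists_hyp_even m V Q hfin hS with h | ⟨e, f, x, y, ζ, hH, hE, horth⟩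
    · exact h
    · exfalso
      have hab : ∀ z₁ z₂ : F, z₁ ^ 2 + 1 * z₁ * z₂ + ζ * z₂ ^ 2 = 0 → z₁ = 0 ∧ z₂ = 0 := by
        intro z₁ z₂ h
        have hz2 : z₂ = 0 := by
          by_contra hz
          apply hE.2.2.2 (z₁ / z₂)
          field_simp
          linear_combination h
        subst hz2
        refine ⟨?_, rfl⟩
        have : z₁ ^ 2 = 0 := by linear_combination h
        exact (pow_eq_zero_iff (by norm_num : (2 : ℕ) ≠ 0)).mp this
      obtain ⟨Ψ, hΨ⟩ := Der5.exists_iso_minus Q hab hH hE horth hfin
      have hS' := Inv6.sep_minusQ_two (F := F) m 1 ζ hab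
      have hW : ∀ w ∈ U.map Ψ.toLinearMap, minusQ m F 1 ζ w = 0 := by
        rintro w ⟨u, hu, rfl⟩
        show minusQ m F 1 ζ (Ψ u) = 0
        rw [hΨ]
        exact hU u hu
      have h1 := Inv8.minus_ts_le hS' hab hW
      have h2 : finrank F (U.map Ψ.toLinearMap) = finrank F U := LinearEquiv.finrank_map_eq Ψ U
      omega

/-- Two hyperbolic forms with the same polar form differ by a shift with Artin–Schreier value. -/
theorem wp_of_hyp_shift {Q : QuadraticForm F V} {d : ℕ} (hfin : finrank F V = 2 * d)
    {e f : Fin d → V} (hH : IsHyp Q e f) {w : V} {e' f' : Fin d → V}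
    (hH' : IsHyp (shift Q w) e' f') : Q w ∈ (wp F).range := by
  by_contra hw
  have : Finite V := Module.finite_of_finite F
  have h1 := card_shift_compl Q hw
  have h2 := card_wp_hyp Q hH hfin
  have h3 := card_wp_hyp (shift Q w) hH' hfin
  have h4 : Nat.card V = Fintype.card F ^ (2 * d) := by
    rw [Module.natCard_eq_pow_finrank (K := F) (V := V), hfin, Nat.card_eq_fintype_card]
  have hq : 0 < Fintype.card F ^ d := Nat.pow_pos Fintype.card_pos
  rw [h4, pow_mul', pow_two] at h1
  nlinarith

end count

end Cfsg.Agent.Lib.Helper44.SpQ1
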