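import Mathlib
import Cfsg.Agent.Lib.Helper44.SpQ1
import Cfsg.Agent.Lib.Helper40.AltRank

set_option autoImplicit false

namespace Cfsg.Agent.Lib.Helper44.SpQ2

open Module QuadraticMap
open Cfsg.Agent.Lib.Helper44.QSpace Cfsg.Agent.Lib.Helper44.QClass
open Cfsg.Agent.Lib.Helper44.Parity Cfsg.Agent.Lib.Helper44.Inv1
open Cfsg.Agent.Lib.Helper44.SpQ1 Cfsg.Agent.Lib.Helper44.Der5

universe u

variable {F : Type*} [Field F] [CharP F 2] [Fintype F] {V : Type u} [AddCommGroup V] [Module F V]
  [FiniteDimensional F V]

/-- A symplectic involution fixes some quadratic form with the given polar form. -/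
theorem exists_fixed {Q : QuadraticForm F V} (hS : Sep Q) (x : V ≃ₗ[F] V)
    (hx : ∀ u v, polar Q (x u) (x v) = polar Q u v) (hxx : ∀ v, x (x v) = v) :
    ∃ w, ∀ v, shift Q w (x v) = shift Q w v := by
  have h2 : (2 : F) = 0 := two0
  -- the form `Q ∘ x`
  obtain ⟨c, hc⟩ := exists_shift hS (Q.comp (x : V →ₗ[F] V)) (fun u v => by
    show Q (x (u + v)) - Q (x u) - Q (x v) = polar Q u v
    rw [map_add, ← hx u v]
    rfl)
  have hc' : ∀ v, Q (x v) = Q v + polar Q v c * polar Q v c := fun v => by
    have := congrArg (fun P : QuadraticForm F V => P v) hc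
    exact this
  -- `c` lies in the image of `x - 1`
  have hB := nondegenerate_of_sep hS
  have hle : LinearMap.range (nil x) ≤ LinearMap.BilinForm.orthogonal (polarBilin Q) (LinearMap.ker (nil x)) := by
    rintro _ ⟨u, rfl⟩ n hn
    rw [LinearMap.mem_ker, nil_eq_zero_iff] at hn
    show polarBilin Q n (nil x u) = 0
    rw [pB_apply, nil_apply, polar_sub_right]
    nth_rewrite 1 [← hn]
    rw [hx, sub_self]
  have hfr : finrank F (LinearMap.range (nil x))
      = finrank F (LinearMap.BilinForm.orthogonal (polarBilin Q) (LinearMap.ker (nil x))) := by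
    rw [LinearMap.BilinForm.finrank_orthogonal hB]
    have := LinearMap.finrank_range_add_finrank_ker (nil x)
    omega
  have heq := Submodule.eq_of_le_of_finrank_eq hle hfr
  have hcm : c ∈ LinearMap.range (nil x) := by
    rw [heq]
    intro n hn
    rw [LinearMap.mem_ker, nil_eq_zero_iff] at hn
    show polarBilin Q n c = 0
    rw [pB_apply]
    have e := hc' n
    rw [hn] at e
    have e2 : polar Q n c * polar Q n c = 0 := by linear_combination -e
    exact mul_self_eq_zero.mp e2
  obtain ⟨u, hu⟩ := hcm
  rw [nil_apply] at hu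
  refine ⟨u, fun v => ?_⟩
  rw [shift_apply, shift_apply, hc', ← hu, polar_sub_right]
  have e1 : polar Q (x v) u = polar Q v (x u) := by
    rw [← hx (x v) u, hxx]
  rw [e1]
  linear_combination (polar Q v (x u) * polar Q v (x u) - polar Q v (x u) * polar Q v u) * h2

/-- Every symplectic involution is conjugate into the orthogonal group of `Q`, if `Q` is of plus
type or the half-dimension is odd. -/
theorem invol_conj {Q : QuadraticForm F V} (hS : Sep Q) {d : ℕ} (hfin : finrank F V = 2 * d)
    (x : V ≃ₗ[F] V) (hx : ∀ u v, polar Q (x u) (x v) = polar Q u v) (hxx : ∀ v, x (x v) = v)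
    (hPO : (∃ U : Submodule F V, (∀ u ∈ U, Q u = 0) ∧ d ≤ finrank F U) ∨ Odd d) :
    ∃ g : V ≃ₗ[F] V, (∀ u v, polar Q (g u) (g v) = polar Q u v) ∧
      ∀ v, Q (g (x (g.symm v))) = Q v := by
  have h2 : (2 : F) = 0 := two0
  suffices hsuf : ∃ w, Q w ∈ (wp F).range ∧ ∀ v, shift Q w (x v) = shift Q w v by
    obtain ⟨w, hw, hfix⟩ := hsuf
    obtain ⟨a, ha⟩ := AddMonoidHom.mem_range.mp hw
    rw [wp_apply] at ha
    obtain ⟨g, hg1, hg2⟩ := exists_transv Q (w := w) (a := a) (by rw [← ha]; ring)
    refine ⟨g, hg1, fun v => ?_⟩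
    rw [hg2, hfix, ← hg2, LinearEquiv.apply_symm_apply]
  obtain ⟨w₁, hw₁⟩ := exists_fixed hS x hx hxx
  by_cases hA : ∃ u, x u = u ∧ shift Q w₁ u ∉ (wp F).range
  · obtain ⟨u, hxu, hu⟩ := hA
    by_cases h1 : Q w₁ ∈ (wp F).range
    · exact ⟨w₁, h1, hw₁⟩
    · refine ⟨w₁ + u, ?_, fun v => ?_⟩
      · by_contra h3
        exact hu ((shift_mem_iff Q h1 u).mpr h3)
      · have e1 : polar Q (x v) u = polar Q v u := by
          nth_rewrite 1 [← hxu]
          rw [hx]
        rw [← shift_shift, shift_apply (shift Q w₁) u (x v), shift_apply (shift Q w₁) u v, hw₁,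
          polar_shift, polar_shift, e1]
  · push Not at hA
    -- the fixed space is totally singular for the fixed form
    have hts : ∀ u ∈ fixS x, shift Q w₁ u = 0 := by
      intro u hu
      rw [mem_fixS] at hu
      by_contra hne
      obtain ⟨c, hc⟩ := exists_not_wp (F := F)
      obtain ⟨s, hs⟩ := exists_sqrt (c / shift Q w₁ u)
      apply hc
      have := hA (s • u) (by rw [map_smul, hu])
      rw [q_smul, hs, div_mul_cancel₀ _ hne] at this
      exact this
    have hrk : LinearMap.range (nil x) ≤ LinearMap.ker (nil x) := by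
      rintro _ ⟨v, rfl⟩
      rw [LinearMap.mem_ker]
      have ht : x * x = 1 := by
        apply LinearEquiv.ext
        intro v
        rw [LinearEquiv.mul_apply, hxx]
        rfl
      exact nil_nil ht v
    have hdim := LinearMap.finrank_range_add_finrank_ker (nil x)
    have hle := Submodule.finrank_mono hrk
    have hd : d ≤ finrank F (fixS x) := by
      rw [← ker_nil]
      omega
    obtain ⟨e', f', hH'⟩ := hyp_of_ts (sep_shift hS w₁) hfin hts hd
    -- the fixed space is totally isotropic, so has dimension exactly `d`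
    have hB := nondegenerate_of_sep hS
    have hti : fixS x ≤ LinearMap.BilinForm.orthogonal (polarBilin Q) (fixS x) := by
      intro u hu n hn
      show polarBilin Q n u = 0
      rw [pB_apply, ← polar_shift Q w₁]
      have e := q_add (shift Q w₁) n u
      rw [hts _ (Submodule.add_mem _ hn hu), hts n hn, hts u hu] at e
      linear_combination -e
    have hd' : finrank F (fixS x) = d := by
      have h3 := Submodule.finrank_mono hti
      rw [LinearMap.BilinForm.finrank_orthogonal hB] at h3
      omega
    -- `d` is even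
    have hev : Even d := by
      obtain ⟨U, hU⟩ := Submodule.exists_isCompl (fixS x)
      have hUd : finrank F U = d := by
        have := Submodule.finrank_add_eq_of_isCompl hU
        omega
      have hnilfix : ∀ v, nil x v ∈ fixS x := by
        intro v
        rw [← ker_nil]
        exact hrk ⟨v, rfl⟩
      have hpol : ∀ v, polar Q v (nil x v) = 0 := by
        intro v
        have e := hts _ (hnilfix v)
        rw [nil_apply, sub_eq_add_neg, q_add, hw₁, polar_shift, polar_neg_right] at e
        have e3 : shift Q w₁ (-v) = shift Q w₁ v := by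
          rw [show -v = (-1 : F) • v by rw [neg_one_smul], q_smul]; ring
        rw [e3] at e
        rw [nil_apply, polar_sub_right, polar_self', h2, zero_mul, sub_zero, polar_comm]
        linear_combination (-e) + shift Q w₁ v * h2
      let β : LinearMap.BilinForm F U :=
        (polarBilin Q).compl₁₂ U.subtype ((nil x).comp U.subtype)
      have hβ : ∀ u v : U, β u v = polar Q (u : V) (nil x (v : V)) := fun u v => rfl
      rw [← hUd]
      apply Cfsg.Agent.Lib.Helper40.AltRank.even_finrank_of_alt β
      · intro u
        rw [hβ]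
        exact hpol u
      · intro u hu
        have hall : ∀ v' : V, polar Q (nil x (u : V)) v' = 0 := by
          intro v'
          have hv' : v' ∈ fixS x ⊔ U := by rw [hU.sup_eq_top]; trivial
          obtain ⟨c, hc, v, hv, rfl⟩ := Submodule.mem_sup.mp hv'
          have e1 := hu ⟨v, hv⟩
          rw [hβ] at e1
          have e2 : nil x (c + v) = nil x v := by
            rw [map_add, (nil_eq_zero_iff x c).mpr (mem_fixS.mp hc), zero_add]
          have e3 : polar Q (nil x (u : V)) (c + v) = polar Q (u : V) (nil x (c + v)) := by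
            rw [nil_apply, nil_apply, polar_sub_left, polar_sub_right]
            congr 1
            rw [← hx (u : V) (x (c + v)), hxx]
          rw [e3, e2]
          exact e1
        have hu0 : nil x (u : V) = 0 := hS _ hall
        have hmem : (u : V) ∈ fixS x := mem_fixS.mpr ((nil_eq_zero_iff x _).mp hu0)
        have := Submodule.disjoint_def.mp hU.disjoint (u : V) hmem u.2
        exact Subtype.ext this
    rcases hPO with ⟨U, hU, hUd⟩ | hodd
    · obtain ⟨e, f, hH⟩ := hyp_of_ts hS hfin hU hUd
      exact ⟨w₁, wp_of_hyp_shift hfin hH hH', hw₁⟩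
    · exact absurd hev (Nat.not_even_iff_odd.mpr hodd)

end Cfsg.Agent.Lib.Helper44.SpQ2
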