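import Mathlib
import Cfsg.Agent.Lib.Helper44.SpQ2

set_option autoImplicit false

namespace Cfsg.Agent.Lib.Helper44.SpQ3

open Module QuadraticMap
open Cfsg.Agent.Lib.Helper44.QSpace Cfsg.Agent.Lib.Helper44.QClass
open Cfsg.Agent.Lib.Helper44.Parity Cfsg.Agent.Lib.Helper44.Inv1 Cfsg.Agent.Lib.Helper44.OGroup
open Cfsg.Agent.Lib.Helper44.SpQ1 Cfsg.Agent.Lib.Helper44.Der5

universe u

section defs

variable {F : Type*} [Field F] {V : Type u} [AddCommGroup V] [Module F V]

/-- The isometry group of the polar form of `Q`. -/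
def Sp (Q : QuadraticForm F V) : Subgroup (V ≃ₗ[F] V) where
  carrier := {g | ∀ u v, polar Q (g u) (g v) = polar Q u v}
  mul_mem' := fun {a b} ha hb u v => by rw [LinearEquiv.mul_apply, LinearEquiv.mul_apply, ha, hb]
  one_mem' := fun _ _ => rfl
  inv_mem' := fun {a} ha u v => by
    have h := ha (a⁻¹ u) (a⁻¹ v)
    have e : ∀ z, a (a⁻¹ z) = z := fun z => a.apply_symm_apply z
    rw [e, e] at h
    exact h.symm

theorem mem_Sp {Q : QuadraticForm F V} {g : V ≃ₗ[F] V} :
    g ∈ Sp Q ↔ ∀ u v, polar Q (g u) (g v) = polar Q u v := Iff.rfl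

theorem O_le_Sp (Q : QuadraticForm F V) : O Q ≤ Sp Q := by
  intro g hg u v
  unfold polar
  rw [← map_add, hg, hg, hg]

/-- The action of the symplectic group on quadratic forms. -/
noncomputable def actSp (Q : QuadraticForm F V) : MulAction (Sp Q) (QuadraticForm F V) where
  smul g P := P.comp ((((g : V ≃ₗ[F] V)⁻¹ : V ≃ₗ[F] V)) : V →ₗ[F] V)
  one_smul P := by
    ext v
    show P (((1 : Sp Q) : V ≃ₗ[F] V)⁻¹ v) = P v
    rw [Subgroup.coe_one, inv_one]
    rfl
  mul_smul g h P := by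
    ext v
    show P (((g * h : Sp Q) : V ≃ₗ[F] V)⁻¹ v)
      = P ((h : V ≃ₗ[F] V)⁻¹ ((g : V ≃ₗ[F] V)⁻¹ v))
    rw [Subgroup.coe_mul, mul_inv_rev]
    rfl

end defs

section orbit

variable {F : Type*} [Field F] [CharP F 2] [Fintype F] {V : Type u} [AddCommGroup V] [Module F V]
  [FiniteDimensional F V]

theorem shift_injective {Q : QuadraticForm F V} (hS : Sep Q) : Function.Injective (shift Q) := by
  intro w w' h
  have e : ∀ v, polar Q (w - w') v = 0 := by
    intro v
    have h1 := congrArg (fun P : QuadraticForm F V => P v) h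
    simp only [shift_apply] at h1
    have h2 : polar Q v w = polar Q v w' := sq_inj (by linear_combination h1)
    rw [polar_sub_left, polar_comm (⇑Q) w v, polar_comm (⇑Q) w' v, h2, sub_self]
  exact sub_eq_zero.mp (hS _ e)

/-- The index of the orthogonal group in the symplectic group is the number of vectors with value
in the Artin–Schreier image, or a power of two. -/
theorem relIndex_cases {Q : QuadraticForm F V} (hS : Sep Q) :
    (O Q).relIndex (Sp Q) = Nat.card {w : V // Q w ∈ (wp F).range} ∨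
      (O Q).relIndex (Sp Q) = Nat.card V := by
  classical
  letI := actSp Q
  have hsm : ∀ (g : Sp Q) (P : QuadraticForm F V) (v : V),
      (g • P) v = P ((g : V ≃ₗ[F] V)⁻¹ v) := fun g P v => rfl
  have hstab : MulAction.stabilizer (Sp Q) Q = (O Q).subgroupOf (Sp Q) := by
    ext g
    rw [MulAction.mem_stabilizer_iff, Subgroup.mem_subgroupOf]
    constructor
    · intro h
      have h1 : ((g : V ≃ₗ[F] V)⁻¹) ∈ O Q := fun v => by rw [← hsm, h]
      have h2 := (O Q).inv_mem h1
      rwa [inv_inv] at h2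
    · intro h
      ext v
      rw [hsm]
      exact (O Q).inv_mem h v
  rw [Subgroup.relIndex, ← hstab, MulAction.index_stabilizer]
  set S : Set V := {w | shift Q w ∈ MulAction.orbit (Sp Q) Q} with hSdef
  have horb : MulAction.orbit (Sp Q) Q = shift Q '' S := by
    ext P
    constructor
    · rintro ⟨g, rfl⟩
      obtain ⟨w, hw⟩ := exists_shift hS (g • Q) (fun u v => by
        have hg := (Sp Q).inv_mem g.2 u v
        rw [← hg]
        show (g • Q) (u + v) - (g • Q) u - (g • Q) v = _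
        rw [hsm, hsm, hsm, map_add]
        rfl)
      refine ⟨w, ?_, hw.symm⟩
      show shift Q w ∈ MulAction.orbit (Sp Q) Q
      rw [← hw]
      exact ⟨g, rfl⟩
    · rintro ⟨w, hw, rfl⟩
      exact hw
  rw [horb, Set.ncard_image_of_injective _ (shift_injective hS)]
  have hsmul_of : ∀ (g : V ≃ₗ[F] V), (∀ u v, polar Q (g u) (g v) = polar Q u v) →
      ∀ P P' : QuadraticForm F V, (∀ v, P (g v) = P' v) → ∃ k : Sp Q, k • P = P' := by
    intro g hg P P' h
    refine ⟨⟨g⁻¹, (Sp Q).inv_mem hg⟩, ?_⟩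
    ext v
    rw [hsm]
    show P ((g⁻¹)⁻¹ v) = P' v
    rw [inv_inv]
    exact h v
  have hS₀ : ∀ w, Q w ∈ (wp F).range → w ∈ S := by
    intro w hw
    obtain ⟨a, ha⟩ := AddMonoidHom.mem_range.mp hw
    rw [wp_apply] at ha
    obtain ⟨g, hg1, hg2⟩ := exists_transv Q (w := w) (a := a) (by rw [← ha]; ring)
    obtain ⟨k, hk⟩ := hsmul_of g hg1 Q (shift Q w) hg2
    exact ⟨k, hk⟩
  by_cases hex : ∃ w₀ ∈ S, Q w₀ ∉ (wp F).range
  · right
    obtain ⟨w₀, hw₀S, hw₀⟩ := hex
    have hall : S = Set.univ := by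
      ext w'
      simp only [Set.mem_univ, iff_true]
      by_cases h1 : Q w' ∈ (wp F).range
      · exact hS₀ w' h1
      · obtain ⟨g, hg1, hg2⟩ := equiv_of_wp Q (wp_of_not_not hw₀ h1)
        obtain ⟨k, hk⟩ := hsmul_of g hg1 (shift Q w₀) (shift Q w') hg2
        obtain ⟨k₀, hk₀⟩ := hw₀S
        refine ⟨k * k₀, ?_⟩
        show (k * k₀) • Q = shift Q w'
        rw [mul_smul, show k₀ • Q = shift Q w₀ from hk₀, hk]
    rw [hall, Set.ncard_univ]
  · left
    push Not at hex
    have hSS : S = {w | Q w ∈ (wp F).range} := Set.ext fun w => ⟨fun h => hex w h, hS₀ w⟩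
    rw [hSS]
    exact (Nat.card_coe_set_eq _).symm

/-- An odd prime dividing the index of the orthogonal group in the symplectic group divides the
number of vectors with value in the Artin–Schreier image. -/
theorem odd_dvd {Q : QuadraticForm F V} (hS : Sep Q) {r : ℕ} (hr : r.Prime) (hodd : r ≠ 2)
    (hdvd : r ∣ (O Q).relIndex (Sp Q)) : r ∣ Nat.card {w : V // Q w ∈ (wp F).range} := by
  rcases relIndex_cases hS with h | h
  · rwa [h] at hdvd
  · exfalso
    rw [h, Module.natCard_eq_pow_finrank (K := F) (V := V), Nat.card_eq_fintype_card] at hdvd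
    obtain ⟨n, -, hn⟩ := FiniteField.card F 2
    rw [hn] at hdvd
    have h1 := hr.dvd_of_dvd_pow (hr.dvd_of_dvd_pow hdvd)
    exact hodd ((Nat.prime_dvd_prime_iff_eq hr Nat.prime_two).mp h1)

end orbit

section derange

variable {F : Type*} [Field F] [CharP F 2] {V : Type u} [AddCommGroup V] [Module F V]
  [FiniteDimensional F V]

/-- An invariant form of an involution `x` with `B(v, x v) = 0` vanishes on the image of
`x - 1`. -/
theorem ts_of_fixed_alt (P : QuadraticForm F V) (x : V ≃ₗ[F] V) (hP : ∀ v, P (x v) = P v)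
    (hA : ∀ v, polar P v (x v) = 0) (v : V) : P (nil x v) = 0 := by
  have h2 : (2 : F) = 0 := two0
  rw [nil_apply, sub_eq_add_neg, q_add, hP, polar_neg_right, polar_comm, hA]
  have e3 : P (-v) = P v := by
    rw [show -v = (-1 : F) • v by rw [neg_one_smul], q_smul]; ring
  rw [e3]
  linear_combination P v * h2

/-- An invariant form of `x` vanishes on an invariant totally isotropic subspace on which `x - 1`
is surjective. -/
theorem ts_of_fixed_free (P : QuadraticForm F V) (x : V ≃ₗ[F] V) (hP : ∀ v, P (x v) = P v)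
    (W : Submodule F V) (hWi : ∀ u ∈ W, ∀ v ∈ W, polar P u v = 0)
    (hWs : ∀ w ∈ W, ∃ w' ∈ W, x w' ∈ W ∧ x w' - w' = w) : ∀ w ∈ W, P w = 0 := by
  have h2 : (2 : F) = 0 := two0
  intro w hw
  obtain ⟨w', hw', hxw', rfl⟩ := hWs w hw
  rw [sub_eq_add_neg, q_add, hP, polar_neg_right, hWi _ hxw' _ hw']
  have e3 : P (-w') = P w' := by
    rw [show -w' = (-1 : F) • w' by rw [neg_one_smul], q_smul]; ring
  rw [e3]
  linear_combination P w' * h2

/-- If every invariant form of `x` vanishes on a `d`-dimensional subspace, then a form `Q` for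
which some symplectic conjugate of `x` is an isometry has a totally singular `d`-space. -/
theorem plus_of_conj {Q : QuadraticForm F V} {d : ℕ} (x : V ≃ₗ[F] V) (W : Submodule F V)
    (hWd : finrank F W = d)
    (hW : ∀ P : QuadraticForm F V, (∀ u v, polar P u v = polar Q u v) → (∀ v, P (x v) = P v) →
      ∀ w ∈ W, P w = 0)
    (γ : V ≃ₗ[F] V) (hγ : γ ∈ Sp Q) (hc : γ⁻¹ * x * γ ∈ O Q) :
    ∃ U : Submodule F V, (∀ u ∈ U, Q u = 0) ∧ finrank F U = d := by
  have hγi := (Sp Q).inv_mem hγ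
  have key := hW (Q.comp ((γ⁻¹ : V ≃ₗ[F] V) : V →ₗ[F] V)) (fun u v => by
    rw [← hγi u v]
    show Q (γ⁻¹ (u + v)) - Q (γ⁻¹ u) - Q (γ⁻¹ v) = _
    rw [map_add]
    rfl) (fun v => by
    show Q (γ⁻¹ (x v)) = Q (γ⁻¹ v)
    have h1 := hc (γ⁻¹ v)
    have e : (γ⁻¹ * x * γ) (γ⁻¹ v) = γ⁻¹ (x v) := by
      show γ⁻¹ (x (γ (γ⁻¹ v))) = γ⁻¹ (x v)
      have : γ (γ⁻¹ v) = v := γ.apply_symm_apply v
      rw [this]
    rw [e] at h1
    exact h1)
  refine ⟨W.map ((γ⁻¹ : V ≃ₗ[F] V) : V →ₗ[F] V), ?_, ?_⟩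
  · rintro _ ⟨w, hw, rfl⟩
    exact key w hw
  · have := LinearEquiv.finrank_map_eq (γ⁻¹ : V ≃ₗ[F] V) W
    omega

end derange

end Cfsg.Agent.Lib.Helper44.SpQ3
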