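import Mathlib
import Cfsg.Prelude.Def_GeometricClasses
import Cfsg.Agent.Lib.Helper44.SpQ3
import Cfsg.Agent.Lib.Helper44.Inv10
import Cfsg.Agent.Lib.Helper44.Der3

set_option autoImplicit false

namespace Cfsg.Agent.Lib.Helper44.SpQ4

open Module QuadraticMap Matrix
open Cfsg.Agent.Lib.Helper44.QSpace Cfsg.Agent.Lib.Helper44.QClass
open Cfsg.Agent.Lib.Helper44.Parity Cfsg.Agent.Lib.Helper44.Inv1 Cfsg.Agent.Lib.Helper44.OGroup
open Cfsg.Agent.Lib.Helper44.SpQ1 Cfsg.Agent.Lib.Helper44.Der5 Cfsg.Agent.Lib.Helper44.SpQ3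
open Cfsg.Agent.Lib.Helper44.NegPairs Cfsg.Agent.Lib.Helper44.OMat

section conv

variable {F : Type*} [Field F] {ι : Type} [Fintype ι] [DecidableEq ι]

/-- A non-degenerate quadratic form of the Prelude as a Mathlib quadratic form. -/
def toQF {Q : (ι → F) → F} (hQ : Cfsg.Geo.IsNondegenerateQuadraticForm Q) :
    QuadraticForm F (ι → F) where
  toFun := Q
  toFun_smul := fun a x => by rw [hQ.smul, smul_eq_mul, pow_two]
  exists_companion' :=
    ⟨LinearMap.mk₂ F (polar Q) hQ.polar_bilinear.add_left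
      (fun c x v => by rw [hQ.polar_bilinear.smul_left, smul_eq_mul])
      hQ.polar_bilinear.add_right
      (fun c v x => by rw [hQ.polar_bilinear.smul_right, smul_eq_mul]),
     fun x y => by
      rw [LinearMap.mk₂_apply]
      unfold polar
      ring⟩

theorem toQF_apply {Q : (ι → F) → F} (hQ : Cfsg.Geo.IsNondegenerateQuadraticForm Q)
    (v : ι → F) : toQF hQ v = Q v := rfl

theorem sep_toQF {Q : (ι → F) → F} (hQ : Cfsg.Geo.IsNondegenerateQuadraticForm Q) :
    Sep (toQF hQ) := by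
  intro x hx
  by_contra hne
  obtain ⟨-, y, hy⟩ := hQ.nondegenerate x hne
  exact hy (hx y)

end conv

section symp

variable {F : Type*} [Field F] [CharP F 2] {d : ℕ}

theorem polar_plusQ (u v : Fin d ⊕ Fin d → F) :
    polar (plusQ d F) u v = Cfsg.sympForm d F u v := by
  have h2 : (2 : F) = 0 := two0
  show Cfsg.quadFormPlus d F (u + v) - Cfsg.quadFormPlus d F u - Cfsg.quadFormPlus d F v = _
  unfold Cfsg.quadFormPlus Cfsg.sympForm Matrix.J
  simp only [dotProduct, Matrix.mulVec, Fintype.sum_sum_type, Matrix.fromBlocks_apply₁₁,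
    Matrix.fromBlocks_apply₁₂, Matrix.fromBlocks_apply₂₁, Matrix.fromBlocks_apply₂₂,
    Matrix.zero_apply, zero_mul, Finset.sum_const_zero, zero_add, add_zero, Matrix.neg_apply,
    Matrix.one_apply, Pi.add_apply]
  simp only [neg_mul, ite_mul, one_mul, zero_mul, Finset.sum_neg_distrib, Finset.sum_ite_eq,
    Finset.mem_univ, if_true, mul_neg]
  have e : -∑ x, u (Sum.inl x) * v (Sum.inr x) + ∑ x, u (Sum.inr x) * v (Sum.inl x)
      = ∑ x, (-(u (Sum.inl x) * v (Sum.inr x)) + u (Sum.inr x) * v (Sum.inl x)) := by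
    rw [Finset.sum_add_distrib, Finset.sum_neg_distrib]
  rw [e, ← Finset.sum_sub_distrib, ← Finset.sum_sub_distrib]
  apply Finset.sum_congr rfl
  intro i _
  linear_combination (u (Sum.inl i) * v (Sum.inr i)) * h2

end symp

section w1

variable {F : Type*} [Field F] {d : ℕ}

/-- The totally singular subspace of vectors with vanishing second half. -/
def W1 (d : ℕ) (F : Type*) [Field F] : Submodule F (Fin d ⊕ Fin d → F) :=
  LinearMap.ker (LinearMap.funLeft F F (Sum.inr : Fin d → Fin d ⊕ Fin d))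

theorem mem_W1 (v : Fin d ⊕ Fin d → F) : v ∈ W1 d F ↔ ∀ i, v (Sum.inr i) = 0 := by
  unfold W1
  rw [LinearMap.mem_ker]
  constructor
  · intro h i
    exact congrFun h i
  · intro h
    funext i
    exact h i

theorem finrank_W1 : finrank F (W1 d F) = d := by
  have h1 := LinearMap.finrank_range_add_finrank_ker
    (LinearMap.funLeft F F (Sum.inr : Fin d → Fin d ⊕ Fin d))
  have h2 : LinearMap.range (LinearMap.funLeft F F (Sum.inr : Fin d → Fin d ⊕ Fin d)) = ⊤ :=
    LinearMap.range_eq_top.mpr (LinearMap.funLeft_surjective_of_injective F F _ Sum.inr_injective)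
  rw [h2, finrank_top, Module.finrank_fintype_fun_eq_card, Module.finrank_fintype_fun_eq_card,
    Fintype.card_sum, Fintype.card_fin] at h1
  unfold W1
  omega

theorem plusQ_W1 {v : Fin d ⊕ Fin d → F} (hv : v ∈ W1 d F) : plusQ d F v = 0 := by
  show Cfsg.quadFormPlus d F v = 0
  unfold Cfsg.quadFormPlus
  apply Finset.sum_eq_zero
  intro i _
  rw [(mem_W1 v).mp hv i, mul_zero]

theorem polar_W1 {u v : Fin d ⊕ Fin d → F} (hu : u ∈ W1 d F) (hv : v ∈ W1 d F) :
    polar (plusQ d F) u v = 0 := by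
  unfold polar
  rw [plusQ_W1 hu, plusQ_W1 hv, plusQ_W1 (Submodule.add_mem _ hu hv)]
  ring

theorem finrank_V : finrank F (Fin d ⊕ Fin d → F) = 2 * d := by
  rw [Module.finrank_fintype_fun_eq_card, Fintype.card_sum, Fintype.card_fin]
  omega

end w1

section derange

variable {F : Type*} [Field F] [Fintype F] [CharP F 2]

/-- An involution of type `a_d` (for even `d`): all its invariant forms are of plus type. -/
theorem exists_invol_derange {d k : ℕ} (hk : 1 ≤ k) (hdk : d = 2 * k) :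
    ∃ t : (Fin d ⊕ Fin d → F) ≃ₗ[F] (Fin d ⊕ Fin d → F), t ∈ O (plusQ d F) ∧ t * t = 1 ∧
      (∀ z : F, ∃ v, t v ≠ z • v) ∧
      ∃ W : Submodule F (Fin d ⊕ Fin d → F), finrank F W = d ∧
        ∀ P : QuadraticForm F (Fin d ⊕ Fin d → F),
          (∀ u v, polar P u v = polar (plusQ d F) u v) → (∀ v, P (t v) = P v) →
          ∀ w ∈ W, P w = 0 := by
  have h2 : (2 : F) = 0 := two0
  have hS := sep_plusQ (F := F) d
  have hfr := finrank_V (F := F) (d := d)
  obtain ⟨t, htO, htt, htrk, htA⟩ := (Inv10.reps_plus (F := F) d).e2 k hk (by omega)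
  obtain ⟨v₀, hv₀⟩ := exists_q_eq hS (by rw [hfr]; omega) (1 : F)
  have hv₀' : plusQ d F v₀ ≠ 0 := by rw [hv₀]; exact one_ne_zero
  refine ⟨t, htO, htt, fun z => ⟨v₀, ?_⟩, LinearMap.range (nil t), ?_, ?_⟩
  · exact Der3.no_eigen_of_isA htt htA (by rw [hfr, htrk, hdk]) v₀ hv₀' z
  · show rk t = d
    rw [htrk, hdk]
  · rintro P hP hPt _ ⟨v, rfl⟩
    apply ts_of_fixed_alt P t hPt
    intro v
    have e1 := polar_self_nil htO v
    rw [htA v, nil_apply, polar_sub_right, polar_self', h2, zero_mul, sub_zero] at e1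
    rw [hP, e1]

omit [Fintype F] [CharP F 2] in
theorem mem_W1_iff_coord {K : Type*} [Field K] [Algebra F K] {d : ℕ} (b b' : Basis (Fin d) F K)
    (v : Fin d ⊕ Fin d → F) : v ∈ W1 d F ↔ (Der2.coordE b b' v).2 = 0 := by
  rw [mem_W1]
  show _ ↔ b'.equivFun.symm (fun i => v (Sum.inr i)) = 0
  rw [LinearEquiv.map_eq_zero_iff]
  constructor
  · intro h
    funext i
    exact h i
  · intro h i
    exact congrFun h i

/-- A Singer-type element of order `r ∣ q^d - 1`: all its invariant forms are of plus type. -/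
theorem exists_singer_derange {d : ℕ} (hd : d ≠ 0) {r : ℕ} [Fact r.Prime] (hodd : r ≠ 2)
    (hdvd : r ∣ Fintype.card F ^ d - 1) :
    ∃ X : (Fin d ⊕ Fin d → F) ≃ₗ[F] (Fin d ⊕ Fin d → F), X ∈ O (plusQ d F) ∧ X ^ r = 1 ∧
      (∀ z : F, ∃ v, X v ≠ z • v) ∧
      ∀ P : QuadraticForm F (Fin d ⊕ Fin d → F),
        (∀ u v, polar P u v = polar (plusQ d F) u v) → (∀ v, P (X v) = P v) →
        ∀ w ∈ W1 d F, P w = 0 := by
  classical
  haveI : NeZero d := ⟨hd⟩
  have hfin : finrank F (FiniteField.Extension F 2 d) = d := FiniteField.finrank_extension F 2 d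
  have hcard : Nat.card (FiniteField.Extension F 2 d) = Nat.card F ^ d :=
    FiniteField.natCard_extension F 2 d
  have hc : Nat.card (FiniteField.Extension F 2 d)ˣ = Fintype.card F ^ d - 1 := by
    rw [Nat.card_units, hcard, Nat.card_eq_fintype_card]
  obtain ⟨ζ, hζ⟩ := exists_prime_orderOf_dvd_card' r (G := (FiniteField.Extension F 2 d)ˣ)
    (by rw [hc]; exact hdvd)
  let b : Basis (Fin d) F (FiniteField.Extension F 2 d) := Module.finBasisOfFinrankEq F _ hfin
  have hnd : (Algebra.traceForm F (FiniteField.Extension F 2 d)).Nondegenerate :=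
    traceForm_nondegenerate F _
  let b' : Basis (Fin d) F (FiniteField.Extension F 2 d) :=
    (Algebra.traceForm F (FiniteField.Extension F 2 d)).dualBasis hnd b
  have hdual : ∀ i j, Algebra.trace F (FiniteField.Extension F 2 d) (b i * b' j)
      = if i = j then 1 else 0 := by
    intro i j
    have := LinearMap.BilinForm.apply_dualBasis_right hnd (Algebra.traceForm_isSymm F) b i j
    rwa [Algebra.traceForm_apply] at this
  have hζ1 : (ζ : FiniteField.Extension F 2 d) - 1 ≠ 0 := by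
    intro h
    have h1 : ζ = 1 := Units.ext (by rw [Units.val_one]; exact sub_eq_zero.mp h)
    rw [h1, orderOf_one] at hζ
    exact (Fact.out : r.Prime).one_lt.ne hζ
  have hS := sep_plusQ (F := F) d
  obtain ⟨v₀, hv₀⟩ := exists_q_eq hS (by rw [finrank_V]; omega) (1 : F)
  refine ⟨Der2.singE b b' ζ, Der2.singE_mem b b' hdual ζ, ?_, fun z => ⟨v₀, ?_⟩, ?_⟩
  · rw [Der2.singE_pow, ← hζ, pow_orderOf_eq_one]
    have := Der2.singE_pow b b' ζ 0
    rw [pow_zero, pow_zero] at this
    exact this.symm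
  · apply Der2.singE_no_eigen b b' hdual ζ _ v₀ (by rw [hv₀]; exact one_ne_zero) z
    intro h
    have h2 : orderOf ζ ∣ 2 := orderOf_dvd_of_pow_eq_one (by rw [pow_two]; exact h)
    rw [hζ] at h2
    exact hodd ((Nat.prime_dvd_prime_iff_eq (Fact.out : r.Prime) Nat.prime_two).mp h2)
  · intro P hP hPX
    apply ts_of_fixed_free P (Der2.singE b b' ζ) hPX (W1 d F)
    · intro u hu v hv
      rw [hP, polar_W1 hu hv]
    · intro w hw
      rw [mem_W1_iff_coord b b'] at hw
      set w' := (Der2.coordE b b').symm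
        (((ζ : FiniteField.Extension F 2 d) - 1)⁻¹ * (Der2.coordE b b' w).1, 0) with hw'
      have e1 : Der2.coordE b b' w'
          = (((ζ : FiniteField.Extension F 2 d) - 1)⁻¹ * (Der2.coordE b b' w).1, 0) := by
        rw [hw', LinearEquiv.apply_symm_apply]
      have e2 : Der2.coordE b b' (Der2.singE b b' ζ w')
          = ((ζ : FiniteField.Extension F 2 d)
              * (((ζ : FiniteField.Extension F 2 d) - 1)⁻¹ * (Der2.coordE b b' w).1), 0) := by
        rw [Der2.coord_singE, Der2.pairE_apply, e1, mul_zero]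
      refine ⟨w', ?_, ?_, ?_⟩
      · rw [mem_W1_iff_coord b b', e1]
      · rw [mem_W1_iff_coord b b', e2]
      · apply (Der2.coordE b b').injective
        rw [map_sub, e2, e1]
        apply Prod.ext
        · show (ζ : FiniteField.Extension F 2 d)
              * (((ζ : FiniteField.Extension F 2 d) - 1)⁻¹ * (Der2.coordE b b' w).1)
              - ((ζ : FiniteField.Extension F 2 d) - 1)⁻¹ * (Der2.coordE b b' w).1
              = (Der2.coordE b b' w).1
          field_simp
        · show (0 : FiniteField.Extension F 2 d) - 0 = (Der2.coordE b b' w).2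
          rw [hw, sub_zero]

omit [Fintype F] [CharP F 2] in
theorem hab_of_ell {ζ : F} (h : ∀ t : F, t ^ 2 + t + ζ ≠ 0) :
    ∀ z₁ z₂ : F, z₁ ^ 2 + 1 * z₁ * z₂ + ζ * z₂ ^ 2 = 0 → z₁ = 0 ∧ z₂ = 0 := by
  intro z₁ z₂ h0
  have hz2 : z₂ = 0 := by
    by_contra hz
    apply h (z₁ / z₂)
    field_simp
    linear_combination h0
  subst hz2
  refine ⟨?_, rfl⟩
  have : z₁ ^ 2 = 0 := by linear_combination h0
  exact (pow_eq_zero_iff (by norm_num : (2 : ℕ) ≠ 0)).mp this

/-- A symplectic element of order `r ∣ q^(m+1) + 1` without eigenvectors. -/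
theorem exists_minus_derange {m : ℕ} {r : ℕ} [Fact r.Prime] (hodd : r ≠ 2)
    (hdvd : r ∣ Fintype.card F ^ (m + 1) + 1) :
    ∃ X : (Fin (m + 1) ⊕ Fin (m + 1) → F) ≃ₗ[F] (Fin (m + 1) ⊕ Fin (m + 1) → F),
      X ∈ Sp (plusQ (m + 1) F) ∧ X ^ r = 1 ∧ ∀ v, v ≠ 0 → ∀ μ : F, X v ≠ μ • v := by
  have hS := sep_plusQ (F := F) (m + 1)
  have hfin := finrank_V (F := F) (d := m + 1)
  obtain ⟨c₀, hc₀⟩ := exists_not_wp (F := F)
  obtain ⟨w₀, hw₀⟩ := exists_q_eq hS (by rw [hfin]; omega) c₀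
  obtain ⟨e, f, hH⟩ := hyp_of_ts hS hfin (U := W1 (m + 1) F) (fun u hu => plusQ_W1 hu)
    (by rw [finrank_W1])
  have hnh : ∀ e' f' : Fin (m + 1) → (Fin (m + 1) ⊕ Fin (m + 1) → F),
      ¬ IsHyp (shift (plusQ (m + 1) F) w₀) e' f' := by
    intro e' f' hH'
    apply hc₀
    rw [← hw₀]
    exact wp_of_hyp_shift hfin hH hH'
  rcases exists_hyp_even m _ (shift (plusQ (m + 1) F) w₀) hfin (sep_shift hS w₀) with
    ⟨e', f', h⟩ | ⟨e', f', x, y, ζ, hH', hE, horth⟩
  · exact absurd h (hnh e' f')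
  · have hab := hab_of_ell hE.2.2.2
    obtain ⟨Ψ, hΨ⟩ := exists_iso_minus (shift (plusQ (m + 1) F) w₀) hab hH' hE horth hfin
    obtain ⟨X₀, hX₀O, hX₀r, hX₀e⟩ := exists_singer_minus hab hodd hdvd
    have hap : ∀ v, conjE Ψ.symm X₀ v = Ψ.symm (X₀ (Ψ v)) := fun v => rfl
    refine ⟨conjE Ψ.symm X₀, ?_, ?_, ?_⟩
    · have hO : conjE Ψ.symm X₀ ∈ O (shift (plusQ (m + 1) F) w₀) := by
        intro v
        rw [hap, ← hΨ, LinearEquiv.apply_symm_apply, hX₀O, hΨ]
      intro u v
      have := O_le_Sp _ hO u v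
      rwa [polar_shift, polar_shift] at this
    · rw [conjE_pow, hX₀r]
      apply LinearEquiv.ext
      intro v
      show Ψ.symm ((1 : _ ≃ₗ[F] _) (Ψ v)) = v
      exact Ψ.symm_apply_apply v
    · intro v hv μ h
      rw [hap] at h
      have h1 : X₀ (Ψ v) = μ • Ψ v := by
        have := congrArg Ψ h
        rwa [LinearEquiv.apply_symm_apply, map_smul] at this
      exact hX₀e (Ψ v) (fun h0 => hv (Ψ.map_eq_zero_iff.mp h0)) μ h1

end derange

end Cfsg.Agent.Lib.Helper44.SpQ4
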