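import Mathlib
import Cfsg.Prelude.Def_GeometricClasses
import Cfsg.Agent.Lib.Helper44.SpQ4

set_option autoImplicit false

namespace Cfsg.Agent.Lib.Helper44.SpQ5

open Module QuadraticMap Matrix
open Cfsg.Agent.Lib.Helper44.QSpace Cfsg.Agent.Lib.Helper44.QClass
open Cfsg.Agent.Lib.Helper44.Parity Cfsg.Agent.Lib.Helper44.Inv1 Cfsg.Agent.Lib.Helper44.OGroup
open Cfsg.Agent.Lib.Helper44.SpQ1 Cfsg.Agent.Lib.Helper44.Der5 Cfsg.Agent.Lib.Helper44.SpQ3
open Cfsg.Agent.Lib.Helper44.NegPairs Cfsg.Agent.Lib.Helper44.OMat Cfsg.Agent.Lib.Helper44.SpQ4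
open Cfsg.Agent.Lib.Helper44.SpQ2

section bridge

variable {F : Type*} [Field F] [CharP F 2] {d : ℕ}

theorem mem_spGL_iff (x : GL (Fin d ⊕ Fin d) F) :
    x ∈ Cfsg.spGL d F ↔ glEquiv x ∈ Sp (plusQ d F) := by
  constructor
  · intro h u v
    rw [polar_plusQ, polar_plusQ]
    exact h u v
  · intro h u v
    have := h u v
    rw [polar_plusQ, polar_plusQ] at this
    exact this

variable {Q : (Fin d ⊕ Fin d → F) → F} (hQ : Cfsg.Geo.IsNondegenerateQuadraticForm Q)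
  (hQf : ∀ u v, QuadraticMap.polar Q u v = Cfsg.sympForm d F u v)

include hQf in
theorem hpol (u v : Fin d ⊕ Fin d → F) : polar (toQF hQ) u v = polar (plusQ d F) u v := by
  rw [polar_plusQ]
  exact hQf u v

include hQf in
theorem sp_eq : Sp (toQF hQ) = Sp (plusQ d F) := by
  ext g
  simp only [mem_Sp, hpol hQ hQf]

include hQf in
theorem mem_sim_iff (hd : 0 < d) {x : GL (Fin d ⊕ Fin d) F} (hx : x ∈ Cfsg.spGL d F) :
    x ∈ Cfsg.Geo.quadSimilarityGroup Q ↔ glEquiv x ∈ O (toQF hQ) := by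
  constructor
  · rintro ⟨c, hc⟩
    have hv₀ : (Pi.single (Sum.inl ⟨0, hd⟩) 1 : Fin d ⊕ Fin d → F) ≠ 0 := by
      intro h
      have := congrFun h (Sum.inl ⟨0, hd⟩)
      simp at this
    obtain ⟨⟨y, hy⟩, -⟩ := hQ.nondegenerate _ hv₀
    set v₀ : Fin d ⊕ Fin d → F := Pi.single (Sum.inl ⟨0, hd⟩) 1 with hv₀def
    have h1 : polar Q ((x : Matrix _ _ F) *ᵥ y) ((x : Matrix _ _ F) *ᵥ v₀)
        = (c : F) * polar Q y v₀ := by
      unfold polar
      rw [← Matrix.mulVec_add, hc, hc, hc]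
      ring
    have hx' : Cfsg.sympForm d F ((x : Matrix _ _ F) *ᵥ y) ((x : Matrix _ _ F) *ᵥ v₀)
        = Cfsg.sympForm d F y v₀ := hx y v₀
    rw [hQf, hx', ← hQf] at h1
    have hc1 : (c : F) = 1 := by
      have : ((c : F) - 1) * polar Q y v₀ = 0 := by linear_combination -h1
      rcases mul_eq_zero.mp this with h | h
      · exact sub_eq_zero.mp h
      · exact absurd h hy
    intro v
    show Q ((x : Matrix _ _ F) *ᵥ v) = Q v
    rw [hc, hc1, one_mul]
  · intro h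
    exact ⟨1, fun v => by rw [Units.val_one, one_mul]; exact h v⟩

include hQf in
theorem relIndex_eq (hd : 0 < d) :
    (Cfsg.Geo.quadSimilarityGroup Q).relIndex (Cfsg.spGL d F)
      = (O (toQF hQ)).relIndex (Sp (toQF hQ)) := by
  have h1 : Cfsg.spGL d F
      = (Sp (toQF hQ)).comap (glEquiv (F := F) (ι := Fin d ⊕ Fin d)).toMonoidHom := by
    ext x
    rw [Subgroup.mem_comap, sp_eq hQ hQf]
    exact mem_spGL_iff x
  have h2 : Cfsg.Geo.quadSimilarityGroup Q ⊓ Cfsg.spGL d F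
      = (O (toQF hQ) ⊓ Sp (toQF hQ)).comap
          (glEquiv (F := F) (ι := Fin d ⊕ Fin d)).toMonoidHom := by
    ext x
    rw [Subgroup.mem_inf, Subgroup.mem_comap, Subgroup.mem_inf]
    constructor
    · rintro ⟨ha, hb⟩
      exact ⟨(mem_sim_iff hQ hQf hd hb).mp ha, by
        rw [sp_eq hQ hQf]; exact (mem_spGL_iff x).mp hb⟩
    · rintro ⟨ha, hb⟩
      have hb' : x ∈ Cfsg.spGL d F := (mem_spGL_iff x).mpr (by rw [← sp_eq hQ hQf]; exact hb)
      exact ⟨(mem_sim_iff hQ hQf hd hb').mpr ha, hb'⟩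
  rw [← Subgroup.inf_relIndex_right (H := Cfsg.Geo.quadSimilarityGroup Q) (K := Cfsg.spGL d F),
    h2, h1, Subgroup.relIndex_comap,
    Subgroup.map_comap_eq_self_of_surjective (MulEquiv.surjective _), Subgroup.inf_relIndex_right]

include hQf in
theorem conj_of_invol (hd : 0 < d) {x : GL (Fin d ⊕ Fin d) F} (hx : x ∈ Cfsg.spGL d F)
    (g : (Fin d ⊕ Fin d → F) ≃ₗ[F] (Fin d ⊕ Fin d → F)) (hg : g ∈ Sp (toQF hQ))
    (hc : ∀ v, toQF hQ (g (glEquiv x (g.symm v))) = toQF hQ v) :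
    ∃ g' ∈ Cfsg.spGL d F, g'⁻¹ * x * g' ∈ Cfsg.Geo.quadSimilarityGroup Q := by
  have h1 : glEquiv.symm g⁻¹ ∈ Cfsg.spGL d F := by
    rw [mem_spGL_iff, MulEquiv.apply_symm_apply, ← sp_eq hQ hQf]
    exact (Sp _).inv_mem hg
  refine ⟨glEquiv.symm g⁻¹, h1, ?_⟩
  have hmem : (glEquiv.symm g⁻¹)⁻¹ * x * glEquiv.symm g⁻¹ ∈ Cfsg.spGL d F :=
    mul_mem (mul_mem (inv_mem h1) hx) h1
  rw [mem_sim_iff hQ hQf hd hmem, map_mul, map_mul, map_inv, MulEquiv.apply_symm_apply, inv_inv]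
  intro v
  exact hc v

include hQf in
theorem conj_of_LHS (hd : 0 < d) {r : ℕ}
    (H : ∀ x ∈ Cfsg.spGL d F,
      (∃ z : F, ((x ^ r : GL (Fin d ⊕ Fin d) F) : Matrix (Fin d ⊕ Fin d) (Fin d ⊕ Fin d) F)
        = z • (1 : Matrix (Fin d ⊕ Fin d) (Fin d ⊕ Fin d) F)) →
      (∀ z : F, (x : Matrix (Fin d ⊕ Fin d) (Fin d ⊕ Fin d) F)
        ≠ z • (1 : Matrix (Fin d ⊕ Fin d) (Fin d ⊕ Fin d) F)) →
      ∃ g ∈ Cfsg.spGL d F, g⁻¹ * x * g ∈ Cfsg.Geo.quadSimilarityGroup Q)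
    (X : (Fin d ⊕ Fin d → F) ≃ₗ[F] (Fin d ⊕ Fin d → F)) (hX : X ∈ Sp (plusQ d F))
    (hXr : X ^ r = 1) (hns : ∀ z : F, ∃ v, X v ≠ z • v) :
    ∃ γ ∈ Sp (toQF hQ), γ⁻¹ * X * γ ∈ O (toQF hQ) := by
  have hx : glEquiv.symm X ∈ Cfsg.spGL d F := by
    rw [mem_spGL_iff, MulEquiv.apply_symm_apply]
    exact hX
  obtain ⟨g, hg, hgc⟩ := H (glEquiv.symm X) hx ⟨1, by
      rw [← map_pow, hXr, map_one, one_smul]
      rfl⟩ (by
      intro z hz
      obtain ⟨v, hv⟩ := hns z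
      apply hv
      have := glEquiv_symm_mulVec X v
      rw [hz, Matrix.smul_mulVec, Matrix.one_mulVec] at this
      exact this.symm)
  refine ⟨glEquiv g, by rw [sp_eq hQ hQf]; exact (mem_spGL_iff g).mp hg, ?_⟩
  have hmem : g⁻¹ * glEquiv.symm X * g ∈ Cfsg.spGL d F := mul_mem (mul_mem (inv_mem hg) hx) hg
  have := (mem_sim_iff hQ hQf hd hmem).mp hgc
  rwa [map_mul, map_mul, map_inv, MulEquiv.apply_symm_apply] at this

omit [CharP F 2] in
theorem plus_iff : Cfsg.Geo.IsPlusTypeOn Q ⊤ ↔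
    ∃ U : Submodule F (Fin d ⊕ Fin d → F), (∀ u ∈ U, toQF hQ u = 0) ∧ finrank F U = d := by
  constructor
  · rintro ⟨U, -, hts, h2⟩
    refine ⟨U, hts, ?_⟩
    rw [finrank_top, finrank_V] at h2
    omega
  · rintro ⟨U, hts, hU⟩
    exact ⟨U, le_top, hts, by rw [finrank_top, finrank_V, hU]⟩

end bridge

section main

variable {F : Type*} [Field F] [Fintype F] [CharP F 2]

/-- Elements of prime order of `Sp_{2d}(q)`, `q` even, and the subgroups `O^±_{2d}(q)`. -/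
theorem main (d : ℕ) (hd : 2 ≤ d) (Q : (Fin d ⊕ Fin d → F) → F)
    (hQ : Cfsg.Geo.IsNondegenerateQuadraticForm Q)
    (hQf : ∀ u v, QuadraticMap.polar Q u v = Cfsg.sympForm d F u v) (r : ℕ) [Fact r.Prime]
    (hΩ : r ∣ (Cfsg.Geo.quadSimilarityGroup Q).relIndex (Cfsg.spGL d F)) :
    (∀ x ∈ Cfsg.spGL d F,
      (∃ z : F, ((x ^ r : GL (Fin d ⊕ Fin d) F) : Matrix (Fin d ⊕ Fin d) (Fin d ⊕ Fin d) F)
        = z • (1 : Matrix (Fin d ⊕ Fin d) (Fin d ⊕ Fin d) F)) →
      (∀ z : F, (x : Matrix (Fin d ⊕ Fin d) (Fin d ⊕ Fin d) F)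
        ≠ z • (1 : Matrix (Fin d ⊕ Fin d) (Fin d ⊕ Fin d) F)) →
      ∃ g ∈ Cfsg.spGL d F, g⁻¹ * x * g ∈ Cfsg.Geo.quadSimilarityGroup Q) ↔
    (r = 2 ∧ (Cfsg.Geo.IsPlusTypeOn Q ⊤ ∨ Odd d)) := by
  classical
  have hr : r.Prime := Fact.out
  have hd0 : 0 < d := by omega
  have hS := sep_toQF hQ
  have hfin := finrank_V (F := F) (d := d)
  have hSpeq := sp_eq hQ hQf
  have hpl := plus_iff (F := F) hQ
  have hq2 : ∃ n : ℕ, Fintype.card F = 2 ^ n := by
    obtain ⟨n, -, hn⟩ := FiniteField.card F 2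
    exact ⟨n, hn⟩
  constructor
  · intro H
    have hr2 : r = 2 := by
      by_contra hodd
      have hdvdN := odd_dvd hS hr hodd (by rw [← relIndex_eq hQ hQf hd0]; exact hΩ)
      have hrq : ∀ k, ¬ r ∣ Fintype.card F ^ k := by
        intro k h
        obtain ⟨n, hn⟩ := hq2
        rw [hn] at h
        have h1 := hr.dvd_of_dvd_pow (hr.dvd_of_dvd_pow h)
        exact hodd ((Nat.prime_dvd_prime_iff_eq hr Nat.prime_two).mp h1)
      by_cases hplus : ∃ U : Submodule F (Fin d ⊕ Fin d → F),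
          (∀ u ∈ U, toQF hQ u = 0) ∧ finrank F U = d
      · obtain ⟨U, hU, hUd⟩ := hplus
        obtain ⟨e, f, hH⟩ := hyp_of_ts hS hfin hU (by rw [hUd])
        have hN := card_wp_hyp (toQF hQ) hH hfin
        have h1 : r ∣ Fintype.card F ^ d * (Fintype.card F ^ d + 1) := by
          rw [← hN]
          exact Dvd.dvd.mul_left hdvdN 2
        have h2 : r ∣ Fintype.card F ^ d + 1 := (hr.dvd_mul.mp h1).resolve_left (hrq d)
        obtain ⟨m, rfl⟩ : ∃ m, d = m + 1 := ⟨d - 1, by omega⟩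
        obtain ⟨X, hXS, hXr, hXe⟩ := exists_minus_derange (F := F) hodd h2
        have hne : ∃ v : Fin (m + 1) ⊕ Fin (m + 1) → F, v ≠ 0 :=
          ⟨Pi.single (Sum.inl 0) 1, by
            intro h
            have := congrFun h (Sum.inl 0)
            simp at this⟩
        obtain ⟨v₁, hv₁⟩ := hne
        obtain ⟨γ, hγ, hc⟩ := conj_of_LHS hQ hQf hd0 H X hXS hXr (fun z => ⟨v₁, hXe v₁ hv₁ z⟩)
        have hpow : (γ⁻¹ * X * γ) ^ r = 1 := by
          have e : γ⁻¹ * X * γ = γ⁻¹ * X * (γ⁻¹)⁻¹ := by rw [inv_inv]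
          rw [e, conj_pow, hXr, mul_one, mul_inv_cancel]
        have hfree : ∀ v, v ≠ 0 → (γ⁻¹ * X * γ) v ≠ v := by
          intro v hv h
          have h3 : X (γ v) = γ v := by
            have h4 := congrArg γ h
            rw [show (γ⁻¹ * X * γ) v = γ⁻¹ (X (γ v)) from rfl] at h4
            rwa [show γ (γ⁻¹ (X (γ v))) = X (γ v) from γ.apply_symm_apply _] at h4
          apply hXe (γ v) (fun h0 => hv (γ.map_eq_zero_iff.mp h0)) 1
          rw [one_smul]
          exact h3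
        exact not_hyp_of_free (toQF hQ) hH hfin hodd h2 (γ⁻¹ * X * γ) hc hpow hfree
      · obtain ⟨wP, hwP⟩ := exists_shift hS (plusQ d F) (fun u v => (hpol hQ hQf u v).symm)
        have hnw : toQF hQ wP ∉ (wp F).range := by
          intro hw
          obtain ⟨a, ha⟩ := AddMonoidHom.mem_range.mp hw
          rw [wp_apply] at ha
          obtain ⟨g, hg1, hg2⟩ := exists_transv (toQF hQ) (w := wP) (a := a) (by rw [← ha]; ring)
          apply hplus
          refine ⟨(W1 d F).map (g : (Fin d ⊕ Fin d → F) →ₗ[F] (Fin d ⊕ Fin d → F)), ?_, ?_⟩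
          · rintro _ ⟨u, hu, rfl⟩
            show toQF hQ (g u) = 0
            rw [hg2, ← hwP]
            exact plusQ_W1 hu
          · rw [LinearEquiv.finrank_map_eq g, finrank_W1]
        have hcomp := card_shift_compl (toQF hQ) hnw
        rw [← hwP] at hcomp
        have hNp := card_wp_plus (F := F) d
        have hcV : Nat.card (Fin d ⊕ Fin d → F) = Fintype.card F ^ d * Fintype.card F ^ d := by
          rw [Module.natCard_eq_pow_finrank (K := F), hfin, Nat.card_eq_fintype_card, two_mul,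
            pow_add]
        have hq1 : 1 ≤ Fintype.card F ^ d := Nat.pow_pos Fintype.card_pos
        have h1 : 2 * Nat.card {w : Fin d ⊕ Fin d → F // toQF hQ w ∈ (wp F).range}
            = Fintype.card F ^ d * (Fintype.card F ^ d - 1) := by
          obtain ⟨t, ht⟩ : ∃ t, Fintype.card F ^ d = t + 1 := ⟨Fintype.card F ^ d - 1, by omega⟩
          rw [ht] at hNp hcV ⊢
          rw [hcV] at hcomp
          rw [Nat.add_sub_cancel]
          nlinarith
        have h2 : r ∣ Fintype.card F ^ d - 1 := by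
          have h3 : r ∣ Fintype.card F ^ d * (Fintype.card F ^ d - 1) := by
            rw [← h1]
            exact Dvd.dvd.mul_left hdvdN 2
          exact (hr.dvd_mul.mp h3).resolve_left (hrq d)
        obtain ⟨X, hXO, hXr, hXns, hXW⟩ :=
          exists_singer_derange (F := F) (d := d) (by omega) hodd h2
        obtain ⟨γ, hγ, hc⟩ := conj_of_LHS hQ hQf hd0 H X (O_le_Sp _ hXO) hXr hXns
        exact hplus (plus_of_conj X (W1 d F) finrank_W1
          (fun P hP hPX => hXW P (fun u v => by rw [hP, hpol hQ hQf]) hPX) γ hγ hc)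
    refine ⟨hr2, ?_⟩
    by_contra hcon
    push Not at hcon
    obtain ⟨hnp, hnodd⟩ := hcon
    obtain ⟨k, hk⟩ := Nat.not_odd_iff_even.mp hnodd
    obtain ⟨t, htO, htt, htns, W, hWd, hW⟩ :=
      exists_invol_derange (F := F) (d := d) (k := k) (by omega) (by omega)
    obtain ⟨γ, hγ, hc⟩ := conj_of_LHS hQ hQf hd0 H t (O_le_Sp _ htO)
      (by rw [hr2, pow_two]; exact htt) htns
    exact hnp (hpl.mpr (plus_of_conj t W hWd
      (fun P hP hPX => hW P (fun u v => by rw [hP, hpol hQ hQf]) hPX) γ hγ hc))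
  · rintro ⟨hr2, hPO⟩ x hx ⟨z, hz⟩ hns
    have hX : glEquiv x ∈ Sp (toQF hQ) := by
      rw [hSpeq]
      exact (mem_spGL_iff x).mp hx
    have hXX' : ∀ v, glEquiv x (glEquiv x v) = z • v := by
      intro v
      rw [glEquiv_apply, glEquiv_apply, Matrix.mulVec_mulVec]
      have e : ((x : Matrix (Fin d ⊕ Fin d) (Fin d ⊕ Fin d) F)
          * (x : Matrix (Fin d ⊕ Fin d) (Fin d ⊕ Fin d) F))
          = z • (1 : Matrix (Fin d ⊕ Fin d) (Fin d ⊕ Fin d) F) := by
        rw [← hz, hr2, pow_two]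
        rfl
      rw [e, Matrix.smul_mulVec, Matrix.one_mulVec]
    have hz1 : z = 1 := by
      apply Der3.eq_one_of_sq
      have hv₀ : (Pi.single (Sum.inl ⟨0, hd0⟩) 1 : Fin d ⊕ Fin d → F) ≠ 0 := by
        intro h
        have := congrFun h (Sum.inl ⟨0, hd0⟩)
        simp at this
      obtain ⟨⟨y, hy⟩, -⟩ := hQ.nondegenerate _ hv₀
      have h1 := hX (glEquiv x y) (glEquiv x (Pi.single (Sum.inl ⟨0, hd0⟩) 1))
      rw [hXX', hXX', polar_smul_l, polar_smul_r, hX] at h1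
      have h3 : (z * z - 1) * polar (toQF hQ) y (Pi.single (Sum.inl ⟨0, hd0⟩) 1) = 0 := by
        linear_combination h1
      rcases mul_eq_zero.mp h3 with h | h
      · exact sub_eq_zero.mp h
      · exact absurd h hy
    have hXX : ∀ v, glEquiv x (glEquiv x v) = v := fun v => by rw [hXX', hz1, one_smul]
    have hPO' : (∃ U : Submodule F (Fin d ⊕ Fin d → F),
        (∀ u ∈ U, toQF hQ u = 0) ∧ d ≤ finrank F U) ∨ Odd d := by
      rcases hPO with h | h
      · obtain ⟨U, hU, hUd⟩ := hpl.mp h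
        exact Or.inl ⟨U, hU, by rw [hUd]⟩
      · exact Or.inr h
    obtain ⟨g, hg, hc⟩ := invol_conj hS hfin (glEquiv x) hX hXX hPO'
    exact conj_of_invol hQ hQf hd0 hx g hg hc

end main

end Cfsg.Agent.Lib.Helper44.SpQ5
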