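import Mathlib
import Cfsg.Agent.Lib.Helper44.SylO6

set_option autoImplicit false

/-!
Sylow 2-subgroups of `Ω_{2m+1}(q)`, `q` odd: squares lie in the derived subgroup.
-/

namespace Cfsg.Agent.Lib.Helper44.SylO7

open Module QuadraticMap
open Cfsg.Agent.Lib.Helper44.QSpace Cfsg.Agent.Lib.Helper44.OGroup
open Cfsg.Agent.Lib.Helper44.SylO2 Cfsg.Agent.Lib.Helper44.SylO3 Cfsg.Agent.Lib.Helper44.SylO4
open Cfsg.Agent.Lib.Helper44.SylO5 Cfsg.Agent.Lib.Helper44.SylO6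
open Cfsg.Agent.Lib.Helper44.FinSq Cfsg.Agent.Lib.Helper44.OMat
open Cfsg.Agent.Lib.Helper45.OrthStep Cfsg.Agent.Lib.Helper45.OrthCard

universe u

variable {F : Type u} [Field F] [Fintype F]

omit [Fintype F] in
theorem finrank_odd (m : ℕ) : finrank F (Unit ⊕ (Fin m ⊕ Fin m) → F) = 2 * m + 1 := by
  rw [Module.finrank_fintype_fun_eq_card, Fintype.card_sum, Fintype.card_sum, Fintype.card_fin]
  simp
  ring

theorem card_QO (hF : Odd (Fintype.card F)) (m : ℕ) : Nat.card (O (QO (F := F) m)) =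
    2 * Fintype.card F ^ (m ^ 2) *
      ∏ i ∈ Finset.range m, (Fintype.card F ^ (2 * (i + 1)) - 1) := by
  rw [card_O_eq, QO_coe]
  exact card_odd rfl hF m

/-- Sylow 2-subgroups of `Ω_{2m+1}(q)`, `q` odd, `m ≥ 2` -/
theorem odd_main (hF : Odd (Fintype.card F)) (m : ℕ) (hm : 2 ≤ m) :
    ∀ P : Sylow 2 ↥(Cfsg.Omega F (Cfsg.quadFormOdd m F)),
      ∀ x : ↥(P : Subgroup ↥(Cfsg.Omega F (Cfsg.quadFormOdd m F))),
        x ^ 2 ∈ commutator ↥(P : Subgroup ↥(Cfsg.Omega F (Cfsg.quadFormOdd m F))) := by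
  have h2 : (2 : F) ≠ 0 := two_ne_zero_of_odd_card hF
  have hq : Fintype.card F % 2 = 1 := Nat.odd_iff.mp hF
  have hq1 : 1 < Fintype.card F := Fintype.one_lt_card
  have hS : Sep (QO (F := F) m) := sep_of_nd h2 _ (nd_QO m)
  obtain ⟨d, hd0, -, hD⟩ := diag_class h2 (QO (F := F) m) hS (2 * m) (finrank_odd m)
  obtain ⟨X, hXS, hXD, hXG⟩ := final_odd (F := F) h2 m hm d hd0
  obtain ⟨Φ, hΦ⟩ := iso_of_hasDiag hD hXD
  have hXdim : 2 ≤ finrank F X.V := by
    rw [HasDiag.finrank hXD]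
    omega
  have hcard : (Nat.card (O (QO (F := F) m))).factorization 2 = A (s0 F) m + 1 := by
    have hP := prod_ne_zero _ hq1 m
    have hqn : Fintype.card F ^ (m ^ 2) ≠ 0 := by
      have : 0 < Fintype.card F ^ (m ^ 2) := pow_pos (by omega) _
      omega
    rw [card_QO hF, s0_eq hF, Nat.factorization_def _ Nat.prime_two,
      padicValNat.mul (mul_ne_zero (by norm_num) hqn) hP, padicValNat.mul (by norm_num) hqn,
      padicValNat_self, pow_val _ hq, prod_val _ hq hq1]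
    unfold A
    ring
  have h := master h2 X hXS hXdim hXG (QO (F := F) m) Φ hΦ hcard
  have h3 := good_omega (QO (F := F) m) h
  rw [QO_coe] at h3
  exact h3

end Cfsg.Agent.Lib.Helper44.SylO7
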