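import Mathlib
import Cfsg.Agent.Lib.Helper44.SymO2

set_option autoImplicit false

namespace Cfsg.Agent.Lib.Helper44.SymO3

open Module QuadraticMap
open Cfsg.Agent.Lib.Helper44.SymO1

theorem two_add (a : ZMod 2) : a + a = 0 := by revert a; decide

/-- Extension of a vector by its parity bit and a zero. -/
def Bm (M : ℕ) : (Fin M → ZMod 2) →ₗ[ZMod 2] (Fin (M + 2) → ZMod 2) where
  toFun w := Fin.snoc (α := fun _ => ZMod 2) (Fin.snoc (α := fun _ => ZMod 2) w (∑ i, w i)) 0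
  map_add' w w' := by
    funext i
    refine Fin.lastCases ?_ (fun i => ?_) i
    · simp
    · refine Fin.lastCases ?_ (fun i => ?_) i
      · simp [Finset.sum_add_distrib]
      · simp
  map_smul' c w := by
    funext i
    refine Fin.lastCases ?_ (fun i => ?_) i
    · simp
    · refine Fin.lastCases ?_ (fun i => ?_) i
      · simp [Finset.mul_sum]
      · simp

theorem Bm_last (M : ℕ) (w : Fin M → ZMod 2) : Bm M w (Fin.last (M + 1)) = 0 := by
  show Fin.snoc (α := fun _ => ZMod 2) (Fin.snoc (α := fun _ => ZMod 2) w (∑ i, w i)) 0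
    (Fin.last (M + 1)) = 0
  simp

theorem Bm_par (M : ℕ) (w : Fin M → ZMod 2) :
    Bm M w (Fin.castSucc (Fin.last M)) = ∑ i, w i := by
  show Fin.snoc (α := fun _ => ZMod 2) (Fin.snoc (α := fun _ => ZMod 2) w (∑ i, w i)) 0
    (Fin.castSucc (Fin.last M)) = _
  simp

theorem Bm_cc (M : ℕ) (w : Fin M → ZMod 2) (i : Fin M) :
    Bm M w (Fin.castSucc (Fin.castSucc i)) = w i := by
  show Fin.snoc (α := fun _ => ZMod 2) (Fin.snoc (α := fun _ => ZMod 2) w (∑ i, w i)) 0
    (Fin.castSucc (Fin.castSucc i)) = _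
  simp

theorem wt4_Bm (M : ℕ) (w : Fin M → ZMod 2) :
    wt4 (Bm M w) = wt4 w + (if par (wt4 w) = 1 then 1 else 0) := by
  show wt4 (Fin.snoc (α := fun _ => ZMod 2) (Fin.snoc (α := fun _ => ZMod 2) w (∑ i, w i)) 0) = _
  rw [wt4_snoc, wt4_snoc, sum_eq_par]
  simp

theorem sum_Bm (M : ℕ) (w : Fin M → ZMod 2) : ∑ i, Bm M w i = 0 := by
  rw [Fin.sum_univ_castSucc, Fin.sum_univ_castSucc, Bm_last, Bm_par]
  simp only [Bm_cc, add_zero]
  exact two_add _

/-- Collapse along the all-ones vector. -/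
def Am (M : ℕ) : (Fin (M + 2) → ZMod 2) →ₗ[ZMod 2] (Fin M → ZMod 2) where
  toFun x := fun i => x (Fin.castSucc (Fin.castSucc i)) + x (Fin.last (M + 1))
  map_add' x x' := by
    funext i
    simp only [Pi.add_apply]
    ring
  map_smul' c x := by
    funext i
    simp only [Pi.smul_apply, smul_eq_mul, RingHom.id_apply]
    ring

theorem Am_apply (M : ℕ) (x : Fin (M + 2) → ZMod 2) (i : Fin M) :
    Am M x i = x (Fin.castSucc (Fin.castSucc i)) + x (Fin.last (M + 1)) := rfl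

theorem Am_Bm (M : ℕ) (w : Fin M → ZMod 2) : Am M (Bm M w) = w := by
  funext i
  rw [Am_apply, Bm_cc, Bm_last, add_zero]

theorem Bm_Am {M : ℕ} (hM : Even M) (x : Fin (M + 2) → ZMod 2) (hx : ∑ i, x i = 0) :
    Bm M (Am M x) = fun i => x i + x (Fin.last (M + 1)) := by
  funext i
  refine Fin.lastCases ?_ (fun i => ?_) i
  · rw [Bm_last, two_add]
  · refine Fin.lastCases ?_ (fun i => ?_) i
    · rw [Bm_par]
      simp only [Am_apply]
      rw [Finset.sum_add_distrib, Finset.sum_const, Finset.card_univ, Fintype.card_fin]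
      obtain ⟨t, rfl⟩ := hM
      rw [add_nsmul, two_add, add_zero]
      rw [Fin.sum_univ_castSucc, Fin.sum_univ_castSucc] at hx
      have e1 := two_add (x (Fin.castSucc (Fin.last (t + t))))
      have e2 := two_add (x (Fin.last (t + t + 1)))
      linear_combination hx - e1 - e2
    · rw [Bm_cc, Am_apply]

theorem Am_add_const (M : ℕ) (x : Fin (M + 2) → ZMod 2) (c : ZMod 2) :
    Am M (fun i => x i + c) = Am M x := by
  funext i
  rw [Am_apply, Am_apply]
  have := two_add c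
  linear_combination this

/-- Permutation of coordinates. -/
def Pm {M : ℕ} (σ : Equiv.Perm (Fin (M + 2))) :
    (Fin (M + 2) → ZMod 2) →ₗ[ZMod 2] (Fin (M + 2) → ZMod 2) :=
  LinearMap.funLeft (ZMod 2) (ZMod 2) σ.symm

theorem Pm_apply {M : ℕ} (σ : Equiv.Perm (Fin (M + 2))) (x : Fin (M + 2) → ZMod 2)
    (i : Fin (M + 2)) : Pm σ x i = x (σ.symm i) := rfl

theorem sum_Pm {M : ℕ} (σ : Equiv.Perm (Fin (M + 2))) (x : Fin (M + 2) → ZMod 2) :
    ∑ i, Pm σ x i = ∑ i, x i :=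
  Equiv.sum_comp σ.symm x

theorem wt4_Pm {M : ℕ} (σ : Equiv.Perm (Fin (M + 2))) (x : Fin (M + 2) → ZMod 2) :
    wt4 (Pm σ x) = wt4 x :=
  wt4_comp σ.symm x

/-- The action of a permutation on the quotient model. -/
def gL {M : ℕ} (σ : Equiv.Perm (Fin (M + 2))) : (Fin M → ZMod 2) →ₗ[ZMod 2] (Fin M → ZMod 2) :=
  Am M ∘ₗ Pm σ ∘ₗ Bm M

theorem gL_apply {M : ℕ} (σ : Equiv.Perm (Fin (M + 2))) (w : Fin M → ZMod 2) :
    gL σ w = Am M (Pm σ (Bm M w)) := rfl

theorem gL_one {M : ℕ} (w : Fin M → ZMod 2) : gL (1 : Equiv.Perm (Fin (M + 2))) w = w := by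
  rw [gL_apply]
  have : Pm (1 : Equiv.Perm (Fin (M + 2))) (Bm M w) = Bm M w := by
    funext i
    rw [Pm_apply]
    rfl
  rw [this, Am_Bm]

theorem gL_mul {M : ℕ} (hM : Even M) (σ τ : Equiv.Perm (Fin (M + 2))) (w : Fin M → ZMod 2) :
    gL (σ * τ) w = gL σ (gL τ w) := by
  rw [gL_apply, gL_apply, gL_apply]
  rw [Bm_Am hM _ (by rw [sum_Pm, sum_Bm])]
  have h1 : Pm (σ * τ) (Bm M w) = Pm σ (Pm τ (Bm M w)) := by
    funext i
    rw [Pm_apply, Pm_apply, Pm_apply]
    rfl
  have h2 : Pm σ (fun i => Pm τ (Bm M w) i + Pm τ (Bm M w) (Fin.last (M + 1)))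
      = fun i => Pm σ (Pm τ (Bm M w)) i + Pm τ (Bm M w) (Fin.last (M + 1)) := rfl
  rw [h1, h2, Am_add_const]

/-- The homomorphism into the endomorphism monoid. -/
def gEnd {M : ℕ} (hM : Even M) :
    Equiv.Perm (Fin (M + 2)) →* Module.End (ZMod 2) (Fin M → ZMod 2) where
  toFun σ := gL σ
  map_one' := LinearMap.ext (fun w => gL_one w)
  map_mul' σ τ := LinearMap.ext (fun w => gL_mul hM σ τ w)

/-- The homomorphism into the linear automorphisms. -/
noncomputable def gEquiv {M : ℕ} (hM : Even M) :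
    Equiv.Perm (Fin (M + 2)) →* ((Fin M → ZMod 2) ≃ₗ[ZMod 2] (Fin M → ZMod 2)) :=
  (LinearMap.GeneralLinearGroup.generalLinearEquiv (ZMod 2) (Fin M → ZMod 2)).toMonoidHom.comp
    (gEnd hM).toHomUnits

theorem gEquiv_apply {M : ℕ} (hM : Even M) (σ : Equiv.Perm (Fin (M + 2))) (w : Fin M → ZMod 2) :
    gEquiv hM σ w = Am M (Pm σ (Bm M w)) := rfl

theorem wt4_add_const {ι : Type*} [Fintype ι] (x : ι → ZMod 2) :
    wt4 (fun i => x i + 1) = (Fintype.card ι : ZMod 4) - wt4 x := by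
  unfold wt4
  rw [eq_sub_iff_add_eq, ← Finset.sum_add_distrib]
  have : ∀ i, ((if x i + 1 = 1 then (1 : ZMod 4) else 0) + if x i = 1 then 1 else 0) = 1 := by
    intro i
    generalize x i = a
    revert a
    decide
  rw [Finset.sum_congr rfl (fun i _ => this i), Finset.sum_const, Finset.card_univ]
  simp

/-- The weight class of `B w` determines the value of the form. -/
theorem phi_key (j j' : ZMod 4)
    (h : j + (if par j = 1 then 1 else 0) = j' + (if par j' = 1 then 1 else 0)) :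
    phi j = phi j' := by
  revert j j'
  decide

theorem QT_gL {M : ℕ} (hM : Even M) (h4 : ((M + 2 : ℕ) : ZMod 4) = 0)
    (σ : Equiv.Perm (Fin (M + 2))) (w : Fin M → ZMod 2) :
    QT M (Am M (Pm σ (Bm M w))) = QT M w := by
  rw [QT_eq, QT_eq]
  apply phi_key
  rw [← wt4_Bm, ← wt4_Bm, Bm_Am hM _ (by rw [sum_Pm, sum_Bm])]
  have hpar : par (wt4 (Pm σ (Bm M w))) = 0 := by
    rw [← sum_eq_par, sum_Pm, sum_Bm]
  rw [← wt4_Pm σ (Bm M w)]
  generalize Pm σ (Bm M w) = y at hpar ⊢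
  have hc : ∀ c : ZMod 2, c = 0 ∨ c = 1 := by decide
  rcases hc (y (Fin.last (M + 1))) with h | h
  · rw [h]
    congr 1
    funext i
    rw [add_zero]
  · rw [h, wt4_add_const, Fintype.card_fin, h4, zero_sub]
    generalize wt4 y = j at hpar
    revert j
    decide

/-- Indicator vector of a pair of coordinates. -/
def ypair {M : ℕ} (a c : Fin (M + 2)) : Fin (M + 2) → ZMod 2 :=
  fun i => (if i = a then 1 else 0) + (if i = c then 1 else 0)

theorem ypair_apply {M : ℕ} (a c i : Fin (M + 2)) :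
    ypair a c i = (if i = a then 1 else 0) + (if i = c then 1 else 0) := rfl

theorem star {M : ℕ} (hM : Even M) (σ : Equiv.Perm (Fin (M + 2)))
    (hfix : ∀ w, Am M (Pm σ (Bm M w)) = w) (a c : Fin (M + 2)) (ha : a ≠ Fin.last (M + 1))
    (hc : c ≠ Fin.last (M + 1)) (i : Fin (M + 2)) :
    ypair a c (σ.symm i) + ypair a c (σ.symm (Fin.last (M + 1))) = ypair a c i := by
  have hsum : ∑ i, ypair a c i = 0 := by
    unfold ypair
    rw [Finset.sum_add_distrib, Finset.sum_ite_eq', Finset.sum_ite_eq', if_pos (Finset.mem_univ _),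
      if_pos (Finset.mem_univ _)]
    decide
  have hL : ypair a c (Fin.last (M + 1)) = 0 := by
    rw [ypair_apply, if_neg (Ne.symm ha), if_neg (Ne.symm hc), add_zero]
  have hBA : Bm M (Am M (ypair a c)) = ypair a c := by
    rw [Bm_Am hM _ hsum]
    funext i
    rw [hL, add_zero]
  have h1 := hfix (Am M (ypair a c))
  rw [hBA] at h1
  have h2 := congrArg (Bm M) h1
  rw [hBA, Bm_Am hM _ (by rw [sum_Pm, hsum])] at h2
  exact congrFun h2 i

theorem exists_avoid {M : ℕ} (h3 : 3 ≤ M) (a b c d : Fin (M + 2)) :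
    ∃ x : Fin (M + 2), x ≠ a ∧ x ≠ b ∧ x ≠ c ∧ x ≠ d := by
  classical
  by_contra h
  push Not at h
  have hsub : (Finset.univ : Finset (Fin (M + 2))) ⊆ {a, b, c, d} := by
    intro x _
    simp only [Finset.mem_insert, Finset.mem_singleton]
    by_cases h1 : x = a
    · exact Or.inl h1
    by_cases h2 : x = b
    · exact Or.inr (Or.inl h2)
    by_cases h3 : x = c
    · exact Or.inr (Or.inr (Or.inl h3))
    exact Or.inr (Or.inr (Or.inr (h x h1 h2 h3)))
  have h1 := Finset.card_le_card hsub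
  rw [Finset.card_univ, Fintype.card_fin] at h1
  have h2 := Finset.card_le_four (a := a) (b := b) (c := c) (d := d)
  omega

theorem claim1 {M : ℕ} (hM : Even M) (h3 : 3 ≤ M) (σ : Equiv.Perm (Fin (M + 2)))
    (hfix : ∀ w, Am M (Pm σ (Bm M w)) = w) (a : Fin (M + 2)) (ha : a ≠ Fin.last (M + 1))
    (hmove : σ.symm a ≠ a) : σ.symm (Fin.last (M + 1)) = a := by
  obtain ⟨c, c1, c2, c3, c4⟩ := exists_avoid h3 (Fin.last (M + 1)) a (σ.symm a)
    (σ.symm (Fin.last (M + 1)))
  have h := star hM σ hfix a c ha c1 a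
  by_contra hne
  rw [ypair_apply, ypair_apply, ypair_apply, if_neg hmove, if_neg (Ne.symm c3), if_neg hne,
    if_neg (Ne.symm c4), if_pos rfl, if_neg (Ne.symm c2)] at h
  revert h
  decide

theorem perm_eq_one {M : ℕ} (hM : Even M) (h3 : 3 ≤ M) (σ : Equiv.Perm (Fin (M + 2)))
    (hfix : ∀ w, Am M (Pm σ (Bm M w)) = w) : σ = 1 := by
  by_contra hσ
  have hτ : ∃ a₀, σ.symm a₀ ≠ a₀ := by
    by_contra h
    push Not at h
    apply hσ
    ext i
    have := h (σ i)
    rw [Equiv.symm_apply_apply] at this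
    rw [← this]
    rfl
  obtain ⟨a₀, ha₀⟩ := hτ
  obtain ⟨a, ha, hmove⟩ : ∃ a, a ≠ Fin.last (M + 1) ∧ σ.symm a ≠ a := by
    by_cases h0 : a₀ = Fin.last (M + 1)
    · rw [h0] at ha₀
      exact ⟨σ.symm (Fin.last (M + 1)), ha₀, fun h => ha₀ (σ.symm.injective h)⟩
    · exact ⟨a₀, h0, ha₀⟩
  have hL := claim1 hM h3 σ hfix a ha hmove
  obtain ⟨c, c1, c2, c3, c4⟩ := exists_avoid h3 (Fin.last (M + 1)) a (σ.symm a)
    (σ.symm (Fin.last (M + 1)))
  have hc : σ.symm c = c := by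
    by_contra hcm
    have := claim1 hM h3 σ hfix c c1 hcm
    rw [hL] at this
    exact c2 this.symm
  have h := star hM σ hfix a c ha c1 c
  rw [hc, hL, ypair_apply, ypair_apply, if_neg c2, if_pos rfl, if_pos rfl, if_neg (Ne.symm c2)] at h
  revert h
  decide

end Cfsg.Agent.Lib.Helper44.SymO3
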