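import Mathlib
import Cfsg.Agent.Lib.Helper44.SymO3
import Cfsg.Agent.Lib.Helper44.OMat

set_option autoImplicit false

namespace Cfsg.Agent.Lib.Helper44.SymO4

open Module QuadraticMap
open Cfsg.Agent.Lib.Helper44.OGroup Cfsg.Agent.Lib.Helper44.OMat
open Cfsg.Agent.Lib.Helper44.NegPairs
open Cfsg.Agent.Lib.Helper44.SymO1 Cfsg.Agent.Lib.Helper44.SymO2 Cfsg.Agent.Lib.Helper44.SymO3

/-- The permutation action transported along an isometry, as a homomorphism. -/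
noncomputable def cj {ι : Type} {M : ℕ} (hM : Even M)
    (Ψ : (Fin M → ZMod 2) ≃ₗ[ZMod 2] (ι → ZMod 2)) :
    Equiv.Perm (Fin (M + 2)) →* ((ι → ZMod 2) ≃ₗ[ZMod 2] (ι → ZMod 2)) where
  toFun σ := Der5.conjE Ψ (gEquiv hM σ)
  map_one' := by
    apply LinearEquiv.ext
    intro w
    rw [Der5.conjE_apply, map_one]
    exact Ψ.apply_symm_apply w
  map_mul' σ τ := by
    apply LinearEquiv.ext
    intro w
    rw [Der5.conjE_apply, map_mul, LinearEquiv.mul_apply, LinearEquiv.mul_apply, Der5.conjE_apply,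
      Der5.conjE_apply, Ψ.symm_apply_apply]

theorem cj_apply {ι : Type} {M : ℕ} (hM : Even M)
    (Ψ : (Fin M → ZMod 2) ≃ₗ[ZMod 2] (ι → ZMod 2)) (σ : Equiv.Perm (Fin (M + 2)))
    (w : ι → ZMod 2) : cj hM Ψ σ w = Ψ (Am M (Pm σ (Bm M (Ψ.symm w)))) := rfl

theorem exists_embed {ι : Type} [Fintype ι] [DecidableEq ι] {M : ℕ} (hM : Even M) (h3 : 3 ≤ M)
    (h4 : ((M + 2 : ℕ) : ZMod 4) = 0) (Q' : QuadraticForm (ZMod 2) (ι → ZMod 2))
    (Ψ : (Fin M → ZMod 2) ≃ₗ[ZMod 2] (ι → ZMod 2)) (hΨ : ∀ v, Q' (Ψ v) = QT M v) :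
    ∃ φ : Equiv.Perm (Fin (M + 2)) →* ↥(Cfsg.isometryGroup (ZMod 2) ⇑Q'),
      Function.Injective φ := by
  have hmem : ∀ σ, cj hM Ψ σ ∈ O Q' := by
    intro σ w
    rw [cj_apply, hΨ, QT_gL hM h4, ← hΨ, Ψ.apply_symm_apply]
  refine ⟨(isoEquiv Q').symm.toMonoidHom.comp ((cj hM Ψ).codRestrict (O Q') hmem), ?_⟩
  rw [injective_iff_map_eq_one]
  intro σ hσ
  have h1 : (cj hM Ψ).codRestrict (O Q') hmem σ = 1 := by
    have : (isoEquiv Q').symm ((cj hM Ψ).codRestrict (O Q') hmem σ) = 1 := hσ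
    exact (MulEquiv.map_eq_one_iff _).mp this
  have h2 : cj hM Ψ σ = 1 := congrArg Subtype.val h1
  apply perm_eq_one hM h3
  intro v
  have h5 := congrArg (fun g : (ι → ZMod 2) ≃ₗ[ZMod 2] (ι → ZMod 2) => g (Ψ v)) h2
  simp only [cj_apply, Ψ.symm_apply_apply, LinearEquiv.coe_one, id_eq] at h5
  exact Ψ.injective h5

theorem main (k : ℕ) (hk : 1 ≤ k) :
    (Odd k → ∃ φ : Equiv.Perm (Fin (4 * k + 2 + 2)) →*
        ↥(Cfsg.isometryGroup (ZMod 2) (Cfsg.quadFormPlus (2 * k + 1) (ZMod 2))),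
        Function.Injective φ) ∧
    (Even k → ∃ φ : Equiv.Perm (Fin (4 * k + 2 + 2)) →*
        ↥(Cfsg.isometryGroup (ZMod 2) (Cfsg.quadFormMinus (2 * k) (ZMod 2) 1 1)),
        Function.Injective φ) := by
  have hM : Even (4 * k + 2) := ⟨2 * k + 1, by ring⟩
  have h3 : 3 ≤ 4 * k + 2 := by omega
  have h4 : ((4 * k + 2 + 2 : ℕ) : ZMod 4) = 0 := by
    have : 4 * k + 2 + 2 = 4 * (k + 1) := by ring
    rw [this, Nat.cast_mul]
    have : ((4 : ℕ) : ZMod 4) = 0 := by decide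
    rw [this, zero_mul]
  constructor
  · intro hodd
    obtain ⟨Ψ, hΨ⟩ := QT_plus k hodd
    exact exists_embed hM h3 h4 (plusQ (2 * k + 1) (ZMod 2)) Ψ hΨ
  · intro heven
    obtain ⟨Ψ, hΨ⟩ := QT_minus k heven
    exact exists_embed hM h3 h4 (minusQ (2 * k) (ZMod 2) 1 1) Ψ hΨ

end Cfsg.Agent.Lib.Helper44.SymO4
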