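import Mathlib
import Cfsg.Prelude.Def_Classical
import Cfsg.Prelude.Def_GeometricClasses
import Cfsg.Agent.Lib.Helper37.HypStmt
import Cfsg.Agent.Lib.Helper44.TPStmt

/-!
# S5973: final assembly from the pieces
-/

set_option autoImplicit false

universe u

open scoped Matrix

namespace Cfsg.Agent.Lib.Helper44.TPFin

open Cfsg.Agent.Lib.Helper44.TPStmt

theorem omegaGL_le {F : Type u} [Field F] (d : ℕ) :
    Cfsg.Geo.omegaGL (Cfsg.quadFormPlus d F) ≤ Cfsg.isometryGroup F (Cfsg.quadFormPlus d F) := by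
  intro x hx
  unfold Cfsg.Geo.omegaGL at hx
  obtain ⟨y, -, rfl⟩ := Subgroup.mem_map.mp hx
  exact y.2

theorem stab_scalar {F : Type u} [Field F] {d : ℕ} (z : F) (W : Submodule F (J d → F)) :
    Stab (z • (1 : Matrix (J d) (J d) F)) W := by
  unfold Stab
  rintro _ ⟨w, hw, rfl⟩
  have h : Matrix.toLin' (z • (1 : Matrix (J d) (J d) F)) w = z • w := by
    rw [Matrix.toLin'_apply, Matrix.smul_mulVec, Matrix.one_mulVec]
  rw [h]
  exact W.smul_mem z hw

theorem final (hNd : NdArith) (hCnt : CntId.{u}) (hTsEx : TsEx.{u})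
    (hProj : Proj.{u}) (hG1O : G1O.{u}) (hG1E : G1E.{u}) (hB2Low : B2Low.{u})
    (hB2Odd : B2Odd.{u}) (hB2Even : B2Even.{u}) (hIG : InvGood.{u}) (hIB1 : InvBad1.{u})
    (hIB2 : InvBad2.{u})
    {F : Type u} [Field F] [Fintype F] {p : ℕ} [Fact p.Prime] [CharP F p] {q : ℕ}
    (hq : Fintype.card F = q) (d m : ℕ) (hd : 4 ≤ d) (hm : 1 ≤ m) (hmd : m < d)
    (r : ℕ) [Fact r.Prime]
    (hrΩ : r ∣ Nat.card {W : Submodule F (Fin d ⊕ Fin d → F) //
      Module.finrank F ↥W = m ∧ (∀ w ∈ W, Cfsg.quadFormPlus d F w = 0)})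
    (i c : ℕ) (hi : i = orderOf (q : ZMod r)) (hc : c = if Even i then i else 2 * i) :
    (∀ x : Matrix.GeneralLinearGroup (Fin d ⊕ Fin d) F,
      x ∈ Cfsg.Geo.omegaGL (Cfsg.quadFormPlus d F) →
      (∃ z : F, ((x ^ r : Matrix.GeneralLinearGroup (Fin d ⊕ Fin d) F) :
          Matrix (Fin d ⊕ Fin d) (Fin d ⊕ Fin d) F) =
        z • (1 : Matrix (Fin d ⊕ Fin d) (Fin d ⊕ Fin d) F)) →
      (∀ z : F, (x : Matrix (Fin d ⊕ Fin d) (Fin d ⊕ Fin d) F) ≠
        z • (1 : Matrix (Fin d ⊕ Fin d) (Fin d ⊕ Fin d) F)) →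
      ∃ W : Submodule F (Fin d ⊕ Fin d → F), Module.finrank F ↥W = m ∧
        (∀ w ∈ W, Cfsg.quadFormPlus d F w = 0) ∧
        W.map (Matrix.toLin' (x : Matrix (Fin d ⊕ Fin d) (Fin d ⊕ Fin d) F)) ≤ W) ↔
    ((r = 2 ∧ p ≠ 2 ∧ (q % 4 = 1 ∨ (q % 4 = 3 ∧ m + 2 ≤ d ∧ (Even m ∨ (2 * d) % 4 = 2)))) ∨
     (r ≠ p ∧ 2 < r ∧ Odd i ∧ i ≤ m ∧ 2 * (m % i) ≤ (2 * d) % c) ∨
     (r ≠ p ∧ 2 < r ∧ Even i ∧ i ≤ m ∧ (r - 1) / i + 2 * (m / i) ≤ (2 * d) / i ∧
       ((2 * (m % i) ≤ i ∧ (2 * d) % c = 0 ∧ Odd ((2 * d) / i) ∧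
           (r - 1) / i + 2 * (m / i) < (2 * d) / i) ∨
        (2 * (m % i) ≤ (2 * d) % c ∧ Even ((2 * d) / i)) ∨
        (2 * (m % i) < (2 * d) % c ∧ Odd ((2 * d) / i))))) := by
  subst hq
  have hr : r.Prime := Fact.out
  have hp : p.Prime := Fact.out
  have hq2 : 2 ≤ Fintype.card F := Fintype.one_lt_card
  have hNTS : r ∣ NTS d F m := hrΩ
  have hid := hCnt F d m hmd.le
  have h1 : r ∣ ∏ j ∈ Finset.range m,
      ((Fintype.card F ^ (d - j) - 1) * (Fintype.card F ^ (d - 1 - j) + 1)) := by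
    rw [← hid]
    exact Dvd.dvd.mul_right hNTS _
  obtain ⟨hrq, hj⟩ := hNd (Fintype.card F) d m r hr hq2 hm hmd h1
  obtain ⟨f, -, hf⟩ := FiniteField.card F p
  have hrp : r ≠ p := by
    intro hrp
    apply hrq
    rw [hf, hrp]
    exact dvd_pow_self _ f.pos.ne'
  by_cases hr2 : r = 2
  · subst hr2
    have hp2 : p ≠ 2 := fun h => hrp h.symm
    have hFodd : Odd (Fintype.card F) := by
      rcases Nat.even_or_odd (Fintype.card F) with h | h
      · exact absurd h.two_dvd hrq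
      · exact h
    have hq4 : Fintype.card F % 4 = 1 ∨ Fintype.card F % 4 = 3 := by
      obtain ⟨k, hk⟩ := hFodd
      omega
    constructor
    · intro h
      left
      refine ⟨rfl, hp2, ?_⟩
      by_contra hcon
      have hq3 : Fintype.card F % 4 = 3 := by
        rcases hq4 with h4 | h4
        · exact absurd (Or.inl h4) hcon
        · exact h4
      have hcon2 : ¬ (m + 2 ≤ d ∧ (Even m ∨ (2 * d) % 4 = 2)) :=
        fun hh => hcon (Or.inr ⟨hq3, hh⟩)
      by_cases hmd2 : m + 2 ≤ d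
      · have hmo : Odd m := by
          rcases Nat.even_or_odd m with hev | hod
          · exact absurd ⟨hmd2, Or.inl hev⟩ hcon2
          · exact hod
        have hde : Even d := by
          rcases Nat.even_or_odd d with hev | hod
          · exact hev
          · exfalso
            apply hcon2
            refine ⟨hmd2, Or.inr ?_⟩
            obtain ⟨k, hk⟩ := hod
            omega
        obtain ⟨x, hxΩ, hx2, hxns, hxW⟩ := hIB2 F hq3 d m (by omega) hde hmo
        exact hxW (h x hxΩ ⟨-1, hx2⟩ hxns)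
      · have hmd3 : m = d - 1 := by omega
        subst hmd3
        obtain ⟨x, hxΩ, hx2, hxns, hxW⟩ := hIB1 F hq3 d (by omega)
        have hx2' : ∃ z : F, ((x ^ 2 : Matrix.GeneralLinearGroup (J d) F) :
            Matrix (J d) (J d) F) = z • (1 : Matrix (J d) (J d) F) :=
          ⟨1, by rw [hx2, one_smul]; rfl⟩
        exact hxW (h x hxΩ hx2' hxns)
    · rintro (⟨-, -, h⟩ | ⟨-, h, -⟩ | ⟨-, h, -⟩)
      · intro x hxΩ hxz _
        have hcond : Fintype.card F % 4 = 1 ∨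
            (Fintype.card F % 4 = 3 ∧ m + 2 ≤ d ∧ (Even m ∨ Odd d)) := by
          rcases h with h | ⟨h3, h4, h5⟩
          · exact Or.inl h
          · refine Or.inr ⟨h3, h4, ?_⟩
            rcases h5 with h5 | h5
            · exact Or.inl h5
            · right
              rcases Nat.even_or_odd d with hev | hod
              · exfalso
                obtain ⟨k, hk⟩ := hev
                omega
              · exact hod
        exact hIG F hFodd d m (by omega) hm hmd hcond x hxΩ hxz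
      · omega
      · omega
  · have h2r : 2 < r := by
      have := hr.two_le
      omega
    obtain ⟨j, hjm, hjj⟩ := hj hr2
    have hrodd : Odd r := hr.odd_of_ne_two hr2
    subst hi
    have hbadfin : (∃ x : Matrix.GeneralLinearGroup (J d) F,
        x ∈ Cfsg.Geo.omegaGL (Cfsg.quadFormPlus d F) ∧ x ^ r = 1 ∧
          ¬ FixTS d m F (x : Matrix (J d) (J d) F)) →
        ¬ (∀ x : Matrix.GeneralLinearGroup (Fin d ⊕ Fin d) F,
          x ∈ Cfsg.Geo.omegaGL (Cfsg.quadFormPlus d F) →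
          (∃ z : F, ((x ^ r : Matrix.GeneralLinearGroup (Fin d ⊕ Fin d) F) :
              Matrix (Fin d ⊕ Fin d) (Fin d ⊕ Fin d) F) =
            z • (1 : Matrix (Fin d ⊕ Fin d) (Fin d ⊕ Fin d) F)) →
          (∀ z : F, (x : Matrix (Fin d ⊕ Fin d) (Fin d ⊕ Fin d) F) ≠
            z • (1 : Matrix (Fin d ⊕ Fin d) (Fin d ⊕ Fin d) F)) →
          ∃ W : Submodule F (Fin d ⊕ Fin d → F), Module.finrank F ↥W = m ∧
            (∀ w ∈ W, Cfsg.quadFormPlus d F w = 0) ∧
            W.map (Matrix.toLin' (x : Matrix (Fin d ⊕ Fin d) (Fin d ⊕ Fin d) F)) ≤ W) := by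
      rintro ⟨x, hxΩ, hxr, hxW⟩ h
      have hxz : ∃ z : F, ((x ^ r : Matrix.GeneralLinearGroup (J d) F) :
          Matrix (J d) (J d) F) = z • (1 : Matrix (J d) (J d) F) :=
        ⟨1, by rw [hxr, one_smul]; rfl⟩
      have hxns : ∀ z : F, (x : Matrix (J d) (J d) F) ≠ z • (1 : Matrix (J d) (J d) F) := by
        intro z hz
        obtain ⟨W, hW1, hW2⟩ := hTsEx F d m hmd.le
        exact hxW ⟨W, hW1, hW2, by rw [hz]; exact stab_scalar z W⟩
      exact hxW (h x hxΩ hxz hxns)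
    have hgoodfin : (∀ y : Matrix.GeneralLinearGroup (J d) F,
        y ∈ Cfsg.isometryGroup F (Cfsg.quadFormPlus d F) → y ^ r = 1 →
          FixTS d m F (y : Matrix (J d) (J d) F)) →
        (∀ x : Matrix.GeneralLinearGroup (Fin d ⊕ Fin d) F,
          x ∈ Cfsg.Geo.omegaGL (Cfsg.quadFormPlus d F) →
          (∃ z : F, ((x ^ r : Matrix.GeneralLinearGroup (Fin d ⊕ Fin d) F) :
              Matrix (Fin d ⊕ Fin d) (Fin d ⊕ Fin d) F) =
            z • (1 : Matrix (Fin d ⊕ Fin d) (Fin d ⊕ Fin d) F)) →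
          (∀ z : F, (x : Matrix (Fin d ⊕ Fin d) (Fin d ⊕ Fin d) F) ≠
            z • (1 : Matrix (Fin d ⊕ Fin d) (Fin d ⊕ Fin d) F)) →
          ∃ W : Submodule F (Fin d ⊕ Fin d → F), Module.finrank F ↥W = m ∧
            (∀ w ∈ W, Cfsg.quadFormPlus d F w = 0) ∧
            W.map (Matrix.toLin' (x : Matrix (Fin d ⊕ Fin d) (Fin d ⊕ Fin d) F)) ≤ W) := by
      intro hy x hxΩ hxz _
      obtain ⟨y, hyiso, hyr, hyW⟩ := hProj F d (by omega) r hrodd x (omegaGL_le d hxΩ) hxz
      obtain ⟨W, hW1, hW2, hW3⟩ := hy y hyiso hyr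
      exact ⟨W, hW1, hW2, hyW W hW3⟩
    rcases Nat.even_or_odd (orderOf ((Fintype.card F : ℕ) : ZMod r)) with hev | hodd
    · have hcc : c = orderOf ((Fintype.card F : ℕ) : ZMod r) := by rw [hc, if_pos hev]
      subst hcc
      constructor
      · intro h
        right
        by_contra hcon
        apply hbadfin _ h
        by_cases hlow : m < orderOf ((Fintype.card F : ℕ) : ZMod r)
        · exact hB2Low F p d m (by omega) hm hmd r hr2 hrp hlow ⟨j, hjm, hjj⟩
        · rw [not_lt] at hlow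
          apply hB2Even F p d m (by omega) hm hmd r hr2 hrp hev hlow
          intro hh
          exact hcon (Or.inr ⟨hrp, h2r, hev, hlow, hh.1, hh.2⟩)
      · rintro (⟨h, -⟩ | ⟨-, -, hodd', -⟩ | ⟨-, -, -, h1, h2, h3⟩)
        · exact absurd h hr2
        · exact absurd hev (Nat.not_even_iff_odd.mpr hodd')
        · exact hgoodfin (hG1E F p d m hm hmd r hr2 hrp hev h1 h2 h3)
    · have hcc : c = 2 * orderOf ((Fintype.card F : ℕ) : ZMod r) := by
        rw [hc, if_neg (Nat.not_even_iff_odd.mpr hodd)]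
      subst hcc
      constructor
      · intro h
        right
        by_contra hcon
        apply hbadfin _ h
        by_cases hlow : m < orderOf ((Fintype.card F : ℕ) : ZMod r)
        · exact hB2Low F p d m (by omega) hm hmd r hr2 hrp hlow ⟨j, hjm, hjj⟩
        · rw [not_lt] at hlow
          apply hB2Odd F p d m (by omega) hm hmd r hr2 hrp hodd hlow
          by_contra hh
          rw [not_lt] at hh
          exact hcon (Or.inl ⟨hrp, h2r, hodd, hlow, hh⟩)
      · rintro (⟨h, -⟩ | ⟨-, -, -, h1, h2⟩ | ⟨-, -, hev', -⟩)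
        · exact absurd h hr2
        · exact hgoodfin (hG1O F p d m hm hmd.le r hr2 hrp hodd h1 h2)
        · exact absurd hev' (Nat.not_even_iff_odd.mpr hodd)

end Cfsg.Agent.Lib.Helper44.TPFin
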