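import Mathlib
import Cfsg.Prelude.Def_Classical
import Cfsg.Prelude.Def_GeometricClasses
import Cfsg.Agent.Lib.Helper37.HypStmt
import Cfsg.Agent.Lib.Helper37.HypStmt2
import Cfsg.Agent.Lib.Helper44.TSStmt

/-!
# S5972: final assembly from the pieces
-/

set_option autoImplicit false

universe u

open scoped Matrix

namespace Cfsg.Agent.Lib.Helper44.TSFin

open Cfsg.Agent.Lib.Helper37.HypStmt Cfsg.Agent.Lib.Helper37.HypStmt2
open Cfsg.Agent.Lib.Helper44.TSStmt

theorem not_dvd_pow_sub_one {a q e : ℕ} (ha : a.Prime) (hq0 : 0 < q) (haq : a ∣ q) (he : 0 < e) :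
    ¬ a ∣ q ^ e - 1 := by
  intro h
  have h1 : a ∣ q ^ e := dvd_trans haq (dvd_pow_self q he.ne')
  have h2 : 0 < q ^ e := by positivity
  have h3 : a ∣ 1 := by
    have := Nat.dvd_sub h1 h
    rwa [Nat.sub_sub_self h2] at this
  exact ha.one_lt.ne' (Nat.dvd_one.mp h3)

theorem final (hIPos : IPos.{u}) (hNd : NdArith) (hCnt : CntId.{u}) (hB1O : B1O.{u})
    (hB1E : B1E.{u}) (hB2A : B2A.{u}) (hB2B : B2B.{u}) (hIG : InvGood.{u}) (hIB : InvBad.{u})
    {F : Type u} [Field F] [Fintype F] {p : ℕ} [Fact p.Prime] [CharP F p] {q : ℕ}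
    (hq : Fintype.card F = q) (hqodd : Odd q)
    (d m : ℕ) (hd : 3 ≤ d) (hm : 1 ≤ m) (hmd : m ≤ d)
    (r : ℕ) [Fact r.Prime]
    (hrΩ : r ∣ Nat.card {W : Submodule F (Unit ⊕ (Fin d ⊕ Fin d) → F) //
      Module.finrank F ↥W = m ∧ (∀ w ∈ W, Cfsg.quadFormOdd d F w = 0)})
    (i c : ℕ) (hi : i = orderOf (q : ZMod r)) (hc : c = if Even i then i else 2 * i) :
    (∀ x : GL (Unit ⊕ (Fin d ⊕ Fin d)) F, x ∈ Cfsg.Geo.omegaGL (Cfsg.quadFormOdd d F) →
      orderOf x = r →
      ∃ W : Submodule F (Unit ⊕ (Fin d ⊕ Fin d) → F), Module.finrank F ↥W = m ∧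
        (∀ w ∈ W, Cfsg.quadFormOdd d F w = 0) ∧
        W.map (Matrix.toLin' (x : Matrix (Unit ⊕ (Fin d ⊕ Fin d)) (Unit ⊕ (Fin d ⊕ Fin d)) F))
          ≤ W) ↔
    ((r = 2 ∧ (m < d ∨ q % 4 = 1)) ∨
     (r ≠ p ∧ 2 < r ∧ i ≤ m ∧ 2 * (m % i) < (2 * d + 1) % c ∧
      (Odd i ∨ (r - 1) / i + 2 * (m / i) ≤ (2 * d + 1) / i))) := by
  subst hq
  have hr : r.Prime := Fact.out
  have hp : p.Prime := Fact.out
  have hFodd : Odd (Fintype.card F) := hqodd
  by_cases hr2 : r = 2
  · constructor
    · intro h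
      left
      refine ⟨hr2, ?_⟩
      by_contra hcon
      push_neg at hcon
      obtain ⟨hmd', hq4⟩ := hcon
      have hmd2 : m = d := by omega
      have hq3 : Fintype.card F % 4 = 3 := by
        rcases hFodd with ⟨k, hk⟩
        omega
      obtain ⟨x, hxΩ, hxo, hxW⟩ := hIB F hFodd hq3 d (by omega)
      obtain ⟨W, hW1, hW2, hW3⟩ := h x hxΩ (by rw [hxo, hr2])
      exact hxW W (hmd2 ▸ hW1) hW2 hW3
    · rintro (⟨-, h⟩ | ⟨-, h, -⟩)
      · intro x hxΩ hxo
        exact hIG F hFodd d m (by omega) hm hmd h x hxΩ (by rw [hxo, hr2])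
      · omega
  · have hNTS : r ∣ NTS d F m := hrΩ
    have hid := hCnt F hFodd d m hmd
    have h1 : r ∣ ∏ j ∈ Finset.range m, (Fintype.card F ^ (2 * (d - j)) - 1) := by
      rw [← hid]
      exact Dvd.dvd.mul_right hNTS _
    obtain ⟨t, ht, htd⟩ := (Nat.Prime.prime hr).exists_mem_finset_dvd h1
    rw [Finset.mem_range] at ht
    obtain ⟨f, -, hf⟩ := FiniteField.card F p
    have hrp : r ≠ p := by
      intro hrp
      have hrq : r ∣ Fintype.card F := by
        rw [hf, hrp]
        exact dvd_pow_self _ f.pos.ne'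
      exact not_dvd_pow_sub_one hr Fintype.card_pos hrq (by omega) htd
    have hrq : ¬ r ∣ Fintype.card F := by
      intro hrq
      rw [hf] at hrq
      exact hrp ((Nat.prime_dvd_prime_iff_eq hr hp).mp (hr.dvd_of_dvd_pow hrq))
    have hK := hNd (Fintype.card F) d m t r hr hrq ht hmd htd
    have hipos : 0 < orderOf ((Fintype.card F : ℕ) : ZMod r) := hIPos F p r hrp
    subst hi
    have hcc : c = cc (orderOf ((Fintype.card F : ℕ) : ZMod r)) := hc
    subst hcc
    have h2r : 2 < r := by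
      have := hr.two_le
      omega
    constructor
    · intro h
      right
      by_contra hcon
      have hcon' : ¬ (orderOf ((Fintype.card F : ℕ) : ZMod r) ≤ m ∧
          2 * (m % orderOf ((Fintype.card F : ℕ) : ZMod r)) <
            (2 * d + 1) % cc (orderOf ((Fintype.card F : ℕ) : ZMod r)) ∧
          (Odd (orderOf ((Fintype.card F : ℕ) : ZMod r)) ∨
            (r - 1) / orderOf ((Fintype.card F : ℕ) : ZMod r) +
              2 * (m / orderOf ((Fintype.card F : ℕ) : ZMod r)) ≤
            (2 * d + 1) / orderOf ((Fintype.card F : ℕ) : ZMod r))) :=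
        fun hh => hcon ⟨hrp, h2r, hh⟩
      have key : ∃ x : Matrix.GeneralLinearGroup (I d) F,
          x ∈ Cfsg.Geo.omegaGL (Cfsg.quadFormOdd d F) ∧ orderOf x = r ∧
          ∀ W : Submodule F (I d → F), Module.finrank F ↥W = m → TSub d F W →
            ¬ Stab (x : Matrix (I d) (I d) F) W := by
        by_cases h1 : m < orderOf ((Fintype.card F : ℕ) : ZMod r)
        · exact hB2A F p hFodd d m (by omega) hm hmd r hr2 hrp hK (Or.inl h1)
        · by_cases h2 : (2 * d + 1) % cc (orderOf ((Fintype.card F : ℕ) : ZMod r)) ≤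
              2 * (m % orderOf ((Fintype.card F : ℕ) : ZMod r))
          · exact hB2A F p hFodd d m (by omega) hm hmd r hr2 hrp hK (Or.inr h2)
          · push_neg at h1 h2
            have h3 : ¬ (Odd (orderOf ((Fintype.card F : ℕ) : ZMod r)) ∨
                (r - 1) / orderOf ((Fintype.card F : ℕ) : ZMod r) +
                  2 * (m / orderOf ((Fintype.card F : ℕ) : ZMod r)) ≤
                (2 * d + 1) / orderOf ((Fintype.card F : ℕ) : ZMod r)) :=
              fun hh => hcon' ⟨h1, h2, hh⟩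
            push_neg at h3
            obtain ⟨h3a, h3b⟩ := h3
            have hev : Even (orderOf ((Fintype.card F : ℕ) : ZMod r)) :=
              Nat.not_odd_iff_even.mp h3a
            have hcci : cc (orderOf ((Fintype.card F : ℕ) : ZMod r)) =
                orderOf ((Fintype.card F : ℕ) : ZMod r) := by
              unfold cc
              rw [if_pos hev]
            rw [hcci] at h2
            exact hB2B F p hFodd d m (by omega) hm hmd r hr2 hrp hev h1 h2 h3b
      obtain ⟨x, hxΩ, hxo, hxW⟩ := key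
      obtain ⟨W, hW1, hW2, hW3⟩ := h x hxΩ hxo
      exact hxW W hW1 hW2 hW3
    · rintro (⟨h, -⟩ | ⟨-, -, h1, h2, h3⟩)
      · exact absurd h hr2
      · intro x hxΩ hxo
        rcases Nat.even_or_odd (orderOf ((Fintype.card F : ℕ) : ZMod r)) with hev | hodd
        · have hcci : cc (orderOf ((Fintype.card F : ℕ) : ZMod r)) =
              orderOf ((Fintype.card F : ℕ) : ZMod r) := by
            unfold cc
            rw [if_pos hev]
          rw [hcci] at h2
          have h3' : (r - 1) / orderOf ((Fintype.card F : ℕ) : ZMod r) +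
              2 * (m / orderOf ((Fintype.card F : ℕ) : ZMod r)) ≤
              (2 * d + 1) / orderOf ((Fintype.card F : ℕ) : ZMod r) := by
            rcases h3 with h3 | h3
            · exact absurd hev (Nat.not_even_iff_odd.mpr h3)
            · exact h3
          exact hB1E F p hFodd d m (by omega) hm hmd r hr2 hrp hev h1 h2 h3' x hxΩ hxo
        · have hcci : cc (orderOf ((Fintype.card F : ℕ) : ZMod r)) =
              2 * orderOf ((Fintype.card F : ℕ) : ZMod r) := by
            unfold cc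
            rw [if_neg (Nat.not_even_iff_odd.mpr hodd)]
          rw [hcci] at h2
          exact hB1O F p hFodd d m (by omega) hm hmd r hr2 hrp hodd h1 h2 x hxΩ hxo

end Cfsg.Agent.Lib.Helper44.TSFin
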